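import Cfsg.Agent.Lib.TGC.LB

/-! The Sylow 2-subgroup in case (b) (plan, section B1). -/

set_option autoImplicit false

namespace Cfsg.Lib.TGC
open Subgroup MulAction Cfsg.Lib Cfsg.Lib.FT Cfsg.Lib.Bender
open scoped commutatorElement

variable {G Ω : Type*} [Group G] [MulAction G Ω] [Finite G]

theorem exists_lb' (C : Ctx G Ω) {t u : G} (ht : IsInv t) (hu : u * u = t) (hb : TypeII Ω t u t) :
    ∃ u S R Q J O α, LB Ω t u S R Q J O α ∧ IsSylowIn 2 S (NL Ω t u) := by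
  obtain ⟨T, hT⟩ := exists_isSylowIn 2 N[zpowers u]
  obtain ⟨Q, J, O, α, h⟩ := exists_lb C ht hu hb hT
  obtain ⟨S, hS, hTS⟩ := exists_isSylowIn_ge hT.isPGroup (hT.le.trans (N_le_NL (Ω := Ω) ht hu))
  have huK : u ∈ Kr Ω S u := mem_Kr.2 ⟨hTS h.uS, fun _ ha => ha⟩
  obtain ⟨v, hv, h1, h2, h3⟩ := exists_central_mod (R := Kr Ω S u) hS.isPGroup ht
    (fun x hx => mem_C1.2 (hS.le hx).1) inf_le_left
    (fun x hx => mem_N_of fun r hr => mem_Kr.2 ⟨mul_mem (mul_mem hx (mem_Kr.1 hr).1) (inv_mem hx), fun a ha => by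
      simpa using fix_conj (g := x) ((mem_Kr.1 hr).2 _ (((hS.le (inv_mem hx)).2 a).2 ha))⟩)
    (hu ▸ mul_mem huK huK) huK (not_zp_of_sq ht hu)
  obtain ⟨hvS, hvf⟩ := mem_Kr.1 hv
  have hvt : Commute v t := (hS.le hvS).1
  have e : v * v = t := h2.resolve_left fun e => h1 ((mem_zp ht).2 (C.mem_of_two ht hvt e (h.not_one hvf)))
  have hvT : v ∈ T := by
    rw [← hT.maximal (S ⊓ N[zpowers u]) hS.isPGroup.to_inf_left inf_le_right (le_inf hTS hT.le)]
    exact ⟨hvS, mem_N_symm ht hu hvt (h3 u (hTS h.uS))⟩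
  obtain ⟨hb', hf⟩ := h.typeB C (mem_Kr.2 ⟨hvT, hvf⟩) e
  have hNL : NL Ω t v = NL Ω t u := by ext g; simp only [mem_NL, hf]
  obtain ⟨Q', J', O', α', h'⟩ := exists_lb C ht e hb'
    (hS.mono (fun x hx => mem_N_of_mod e (h3 x hx)) (hNL ▸ N_le_NL ht e))
  exact ⟨v, S, _, Q', J', O', α', h', hNL ▸ hS⟩

namespace LB
variable {t u g : G} {S R Q J O : Subgroup G} {α : Ω} (h : LB Ω t u S R Q J O α)
include h

theorem mdu {x : G} (hx : x ∈ S) : Md t (x * u * x⁻¹) u :=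
  (Md.iff h.inv (h.ct h.uS)).2 (conj_u h.inv h.sq (h.sylu.le hx))

omit h [Finite G] in
theorem _root_.Cfsg.Lib.TGC.Md.swap {t a b : G} (h : Md t (a * b * a⁻¹) b) (hb : b * t = t * b) :
    Md t (b * a * b⁻¹) a := by
  simpa [Md, mul_assoc] using inv_mem h

theorem exinv : ∃ y ∈ S, IsInv y ∧ y ≠ t := by
  obtain ⟨i, hi, -, -, ei, -⟩ := h.rank
  have k : i * u ∉ zpowers t := fun e1 =>
    not_zp_of_sq h.inv ei (h.infRQ (by simpa using mul_mem (zpowers_le.2 h.tR e1) (inv_mem h.uR)) hi)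
  exact ⟨i * u, mul_mem (h.QS hi) h.uS, ⟨fun e => k (e ▸ one_mem _), by
    rw [← pow_two, (h.cRQ h.uR hi).symm.mul_pow, pow_two, pow_two, ei, h.sq, h.inv.2]⟩,
    fun e => k (e ▸ mem_zpowers _)⟩

theorem swap (C : Ctx G Ω) (hgt : Commute g t) (hgn : g ∈ N[S]) (hg2 : g * g ∈ S) (hNL : g ∉ NL Ω t u) :
    g • α = α ∧ g * u * g⁻¹ ∈ Q ∧ (∀ x, x ∈ R ↔ g⁻¹ * x * g ∈ Q) ∧ ∀ x, x ∈ Q ↔ g⁻¹ * x * g ∈ R := by
  have ht := h.inv
  have hα : g • α = α := by
    obtain ⟨y, hy, h1, h2⟩ := h.exinv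
    have k : ∀ x ∈ S, x • g • α = g • α := fun x hx => by
      simpa [mul_assoc] using fix_conj (g := g) (h.fix _ (conj_mem' hgn hx))
    exact C.one_inv ht h1 h2 (h.ct hy) _ _ (k t h.tS) h.tα (k y hy) (h.fix y hy)
  have sqc : ∀ x, x * x = t → g * x * g⁻¹ * (g * x * g⁻¹) = t := fun x e => by
    rw [show g * x * g⁻¹ * (g * x * g⁻¹) = g * (x * x) * g⁻¹ by group, e, hgt.eq, mul_inv_cancel_right]
  set i := g * u * g⁻¹ with hi
  have iS : i ∈ S := conj_mem hgn h.uS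
  have ei : i * i = t := sqc u h.sq
  have mi : ∀ x ∈ S, Md t (x * i * x⁻¹) i := fun x hx => by
    simpa [hi, mul_assoc] using (h.mdu (conj_mem' hgn hx)).conj hgt
  have iQ : i ∈ Q := (h.sqF C (h.cenQ' iS fun q hq => (mi q (h.QS hq)).swap (h.ct iS)) ei).resolve_left
    fun e => hNL (h.NL_of C h.uR h.sq hgt e)
  obtain ⟨j, hj, ej, eij, aij⟩ := h.exj iQ ei
  have QR : ∀ q ∈ Q, g * q * g⁻¹ ∈ R := fun q hq => by
    by_cases e : q ∈ zpowers t
    · exact zpowers_le.2 h.tR (conj_mem (mem_N_zp_of_comm hgt) e)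
    have vS : g * q * g⁻¹ ∈ S := conj_mem hgn (h.QS hq)
    have ev := sqc q (h.sqQ hq e)
    have cv : Commute (g * q * g⁻¹) i := (h.cRQ h.uR hq).symm.map (MulAut.conj g)
    have nv : i * (g * q * g⁻¹) ∉ zpowers t := fun e1 => e (h.zpQ hq (by
      have e2 : u * q ∈ zpowers t := by simpa [hi, mul_assoc] using conj_mem' (mem_N_zp_of_comm hgt) e1
      have e3 : zpowers t ≤ zpowers u := zpowers_le.2 (h.sq ▸ mul_mem (mem_zpowers u) (mem_zpowers u))
      simpa using mul_mem (inv_mem (mem_zpowers u)) (e3 e2)))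
    generalize g * q * g⁻¹ = v at *
    have vi : v * i * v⁻¹ = i := by rw [cv.eq, mul_inv_cancel_right]
    have cvt := h.ct vS
    have mj : Md t (v * j * v⁻¹) j := by
      have j' := conj_mem (h.nQ vS) hj
      have ej' : v * j * v⁻¹ * (v * j * v⁻¹) = t := by
        rw [show v * j * v⁻¹ * (v * j * v⁻¹) = v * (j * j) * v⁻¹ by group, ej, cvt, mul_inv_cancel_right]
      rcases q8_enum' ht h.card8 h.tQ iQ hj ei ej eij j' with e1 | e1 | e1 | e1
      · exact absurd (Md.one_iff.1 e1) (not_zp_of_sq ht ej')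
      · rw [← vi] at e1
        exact absurd (Md.one_iff.1 (((e1.of_conj cvt).mul_left (h.ct iS)).trans (Md.one_iff.2 (h.sqz iQ)))) eij
      · exact e1
      · exfalso
        have e2 : v * (v * j * v⁻¹) * v⁻¹ = j := by
          rw [show v * (v * j * v⁻¹) * v⁻¹ = (v * v) * j * (v * v)⁻¹ by group, ev, ← h.ct (h.QS hj),
            mul_inv_cancel_right]
        have cij := h.ct (h.QS (mul_mem iQ hj))
        have e4 : i * (i * j) = j * t := by rw [← mul_assoc, ei, h.ct (h.QS hj)]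
        rcases (Md.iff ht cij).1 e1 with e3 | e3 <;> rw [e3] at e2
        · rw [show v * (i * j) * v⁻¹ = v * i * v⁻¹ * (v * j * v⁻¹) by group, vi, e3, e4] at e2
          exact ht.1 (by simpa using e2)
        · rw [show v * (i * j * t) * v⁻¹ = v * i * v⁻¹ * (v * j * v⁻¹) * (v * t * v⁻¹) by group, vi, e3, cvt,
            mul_inv_cancel_right, show i * (i * j * t) * t = i * (i * j) * (t * t) by group, ht.2, e4] at e2
          exact ht.1 (by simpa using e2)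
    refine (h.sqF C (h.cenQ2 vS iQ hj ei ej eij (Md.of_eq vi) mj) ev).resolve_right fun e1 => ht.1 ?_
    have := h.anti iQ e1 (not_zp_of_sq ht ei) (not_zp_of_sq ht ev) nv
    rw [cv.eq] at this
    simpa using this
  have RQ : ∀ x ∈ R, g⁻¹ * x * g ∈ Q := fun x hx => by
    obtain ⟨β, h1, h2⟩ := h.exβ
    have yS := conj_mem' hgn (h.RS hx)
    obtain ⟨q, hq, e⟩ := h.tr h1 (h.fS yS h1) h2 (h.neα yS h2)
    have e1 : ((g * q * g⁻¹)⁻¹ * x) • g • β = g • β := by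
      rw [mul_smul, inv_smul_eq_iff, ← mul_smul (g * q * g⁻¹), inv_mul_cancel_right, mul_smul, e]
      simp [← mul_smul, mul_assoc]
    by_cases e2 : (g * q * g⁻¹)⁻¹ * x ∈ zpowers t
    · have := mul_mem hq (zpowers_le.2 h.tQ (conj_mem' (mem_N_zp_of_comm hgt) e2))
      simpa [mul_assoc] using this
    · exact absurd (h.reg iQ (h.fixR C (mul_mem (inv_mem (QR q hq)) hx) e2 e1)
        (fun e3 => h2 (by rw [← hα] at e3; simpa using e3)) (fix_conj h1)) (not_zp_of_sq ht ei)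
  have RQ' : ∀ x, x ∈ R ↔ g⁻¹ * x * g ∈ Q := fun x => ⟨RQ x, fun e => by simpa [mul_assoc] using QR _ e⟩
  refine ⟨hα, iQ, RQ', fun x => ?_⟩
  rw [RQ', mem_N_iff.1 (inv_mem (h.nQ hg2)) x]
  simp [mul_assoc]

end LB

theorem Ctx.exists_st (C : Ctx G Ω) {t u : G} (ht : IsInv t) (hu : UU Ω t u) (hb : TypeII Ω t u t) :
    ∃ u w T S R Q J O α, St Ω t u w T S R Q J O α := by
  obtain ⟨u, S, R, Q, J, O, α, h, hL⟩ := exists_lb' C ht hu.1 hb
  have hSC : S ≤ C1[t] := fun x hx => mem_C1.2 (h.ct hx)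
  obtain ⟨g, hgt, hgS, hgn, hg2⟩ := exists_up h.sylu.isPGroup hSC fun e => h.not_sylow C e le_rfl fun _ hy _ => hy
  have hgt' : Commute g t := mem_C1.1 hgt
  obtain ⟨hα, iQ, RQ, QR⟩ := h.swap C hgt' hgn hg2 fun e => hgS (IsSylowIn.mem_of_ext hL e hgn hg2)
  obtain ⟨T, hT, hST, hgT, mT⟩ := ext2 h.sylu.isPGroup hgn hg2
  have dec : ∀ x ∈ T, x ∈ S ∨ ∃ s ∈ S, x = s * g⁻¹ := fun x hx =>
    ((mT x).1 hx).imp_right fun e => ⟨_, e, by simp⟩
  have hTC : T ≤ C1[t] := fun x hx => by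
    rcases dec x hx with e | ⟨s, hs, rfl⟩
    exacts [hSC e, mul_mem (hSC hs) (inv_mem hgt)]
  have ct : ∀ x ∈ T, x * t = t * x := fun x hx => mem_C1.1 (hTC hx)
  have sw : ∀ x ∈ T, x ∉ S → (∀ y, y ∈ R ↔ x * y * x⁻¹ ∈ Q) ∧ ∀ y, y ∈ Q ↔ x * y * x⁻¹ ∈ R := fun x hx hn => by
    obtain ⟨s, hs, rfl⟩ := (dec x hx).resolve_left hn
    refine ⟨fun y => ?_, fun y => ?_⟩
    · rw [RQ, mem_N_iff.1 (h.nQ hs)]; simp [mul_assoc]
    · rw [QR, mem_N_iff.1 (h.nR hs)]; simp [mul_assoc]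
  have nF : ∀ x ∈ T, ∀ y ∈ R ⊔ Q, x * y * x⁻¹ ∈ R ⊔ Q := fun x hx y hy => by
    obtain ⟨r, hr, q, hq, rfl⟩ := h.memF.1 hy
    rw [show x * (r * q) * x⁻¹ = x * r * x⁻¹ * (x * q * x⁻¹) by group]
    by_cases e : x ∈ S
    · exact mul_mem (mem_sup_left (conj_mem (h.nR e) hr)) (mem_sup_right (conj_mem (h.nQ e) hq))
    · exact mul_mem (mem_sup_right (((sw x hx e).1 r).1 hr)) (mem_sup_left (((sw x hx e).2 q).1 hq))
  have sqc : ∀ k x, k * t = t * k → x * x = t → k * x * k⁻¹ * (k * x * k⁻¹) = t := fun k x hk e => by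
    rw [show k * x * k⁻¹ * (k * x * k⁻¹) = k * (x * x) * k⁻¹ by group, e, hk, mul_inv_cancel_right]
  have gR : ∀ q ∈ Q, g * q * g⁻¹ ∈ R := fun q hq => (RQ _).2 (by simpa [mul_assoc] using hq)
  have cenR : ∀ x ∈ S, (∀ r ∈ R, Md t (x * r * x⁻¹) r) → x ∈ R ⊔ Q := fun x hx hc => by
    have := nF g hgT _ (h.cenQ' (conj_mem' hgn hx) fun q hq => by
      simpa [mul_assoc] using (hc _ (gR q hq)).conj (x := g⁻¹) hgt'.inv_left)
    simpa [mul_assoc] using this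
  have hTH : IsSylowIn 2 T C1[t] := by
    by_contra hn
    obtain ⟨k, hkt, hkT, hkn, hk2⟩ := exists_up hT hTC hn
    have hkt' : Commute k t := mem_C1.1 hkt
    obtain ⟨P, hP, hTP, hkP, -⟩ := ext2 hT hkn hk2
    have fin : ∀ x ∈ P, x ∈ NL Ω t u → x ∈ T := fun x hx e => hST (by
      rw [← hL.maximal (P ⊓ NL Ω t u) hP.to_inf_left inf_le_right (le_inf (hST.trans hTP) hL.le)]; exact ⟨hx, e⟩)
    have key : ∀ r ∈ R, k⁻¹ * r * k ∈ R ⊔ Q → r ∈ zpowers t := fun r hr e => by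
      by_contra e1
      have e2 : r * r = t := by
        simpa [mul_assoc, hgt'.eq] using sqc g _ hgt' (h.sqQ ((RQ r).1 hr) fun e3 =>
          e1 (by simpa [mul_assoc] using conj_mem (mem_N_zp_of_comm hgt') e3))
      rcases h.sqF C e (by simpa using sqc k⁻¹ r hkt'.inv_left e2) with e3 | e3
      · exact hkT (by simpa using inv_mem (fin _ (inv_mem hkP) (h.NL_of C hr e2 hkt'.inv_left (by simpa using e3))))
      · have := fin _ (mul_mem (hTP hgT) (inv_mem hkP)) (h.NL_of C hr e2 (hgt'.mul_left hkt'.inv_left)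
          (by simpa [mul_assoc] using gR _ e3))
        exact hkT (by simpa using mul_mem (inv_mem this) hgT)
    obtain ⟨r, hr, er, rS⟩ : ∃ r ∈ R, r * r = t ∧ k * r * k⁻¹ ∈ S := by
      obtain ⟨i, hi, j, hj, ei, ej, eij, -⟩ := h.rank
      have m1 := conj_mem hkn (hST (h.RS (gR i hi)))
      have m2 := conj_mem hkn (hST (h.RS (gR j hj)))
      rcases dec _ m1 with e1 | ⟨s1, hs1, e1⟩
      · exact ⟨_, gR i hi, sqc g i hgt' ei, e1⟩
      rcases dec _ m2 with e2 | ⟨s2, hs2, e2⟩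
      · exact ⟨_, gR j hj, sqc g j hgt' ej, e2⟩
      refine ⟨_, gR _ (mul_mem hi hj), sqc g _ hgt' (h.sqQ (mul_mem hi hj) eij), ?_⟩
      rw [show k * (g * (i * j) * g⁻¹) * k⁻¹ = k * (g * i * g⁻¹) * k⁻¹ * (k * (g * j * g⁻¹) * k⁻¹) by group, e1, e2]
      simpa [mul_assoc] using mul_mem (mul_mem hs1 (conj_mem' hgn hs2)) (inv_mem hg2)
    have rF : r ∈ R ⊔ Q := mem_sup_left hr
    have er' := sqc k r hkt' er
    rcases h.sqF C (cenR _ rS fun ρ hρ => key _ (mul_mem (conj_mem (h.nR rS) hρ) (inv_mem hρ)) (by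
      simpa [mul_assoc] using mul_mem rF (nF _ (conj_mem' hkn (hST (h.RS hρ))) _ (inv_mem rF)))) er' with e | e
    · exact not_zp_of_sq ht er' (key _ e (by simpa [mul_assoc] using rF))
    · exact not_zp_of_sq ht (sqc g _ hgt' er') (key _ (gR _ e) (by
        simpa [mul_assoc] using nF _ (conj_mem' hkn hgT) _ rF))
  have hTG : IsSylowIn 2 T ⊤ := by
    by_contra hn
    obtain ⟨k, -, hkT, hkn, hk2⟩ := exists_up hT le_top hn
    have zT : k * t * k⁻¹ ∈ T := conj_mem hkn (hST h.tS)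
    have zc : ∀ x ∈ T, k * t * k⁻¹ * x = x * (k * t * k⁻¹) := fun x hx => by
      have := ct _ (conj_mem' hkn hx)
      calc _ = k * (t * (k⁻¹ * x * k)) * k⁻¹ := by group
        _ = _ := by rw [← this]; group
    have zi := ht.conj k
    suffices e : k * t * k⁻¹ = t from
      hkT (IsSylowIn.mem_of_ext hTH (mem_C1.2 (mul_inv_eq_iff_eq_mul.1 e)) hkn hk2)
    generalize k * t * k⁻¹ = z at *
    have zS : z ∈ S := by
      by_contra e
      have := ((sw z zT e).1 u).1 h.uR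
      rw [zc u (hST h.uS), mul_inv_cancel_right] at this
      exact not_zp_of_sq ht h.sq (h.infRQ h.uR this)
    obtain ⟨r, hr, q, hq, rfl⟩ := h.invF C zS zi.2
    by_cases e : q ∈ zpowers t
    · exact (h.hu C (mul_mem hr (zpowers_le.2 h.tR e)) zi.2).resolve_left zi.1
    · obtain ⟨j, hj, -, -, e1⟩ := h.exj hq (h.sqQ hq e)
      have := zc j (hST (h.QS hj))
      rw [← mul_assoc, ← (h.cRQ hr hj).eq, mul_assoc, mul_assoc, e1] at this
      exact absurd (by simpa using this) ht.1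
  obtain ⟨w, wT, w2, wS⟩ : ∃ w ∈ T, w * w = 1 ∧ w ∉ S := by
    by_contra hn
    push Not at hn
    exact h.not_sylow C hTH hST hn
  have wi : w⁻¹ = w := inv_eq_of_mul_eq_one_right w2
  obtain ⟨s, hs, ws⟩ := (dec w wT).resolve_left wS
  refine ⟨u, w, T, S, R, Q, J, O, α, ht, h.sq, hTG, hTC, fun x hx => ?_, hST, hL, h.sylu, h.ben, h.full, h.benS,
    h.memR, ⟨fun e => wS (e ▸ one_mem _), w2⟩, wT, fun x => ?_, fun x hx => ?_, fun x hx => ?_,
    fun r hr h1 a ha => h.fixR C hr h1 ha, fun x hx y hy => ?_⟩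
  · rcases dec x hx with e | ⟨s, hs, rfl⟩
    · exact h.fix x e
    · rw [mul_smul, inv_smul_eq_iff.2 hα.symm, h.fix s hs]
  · rw [(sw w wT wS).1, wi]
  · nth_rw 2 [← wi]
    rw [ws]
    simpa [mul_assoc] using conj_mem (le_normalizer hs) (conj_mem' hgn hx)
  · refine (dec x hx).imp_right ?_
    rintro ⟨s', hs', rfl⟩
    rw [ws]
    simpa [mul_assoc] using mul_mem (mul_mem hs' (conj_mem' hgn hs)) (inv_mem hg2)
  · have ei := sqc g u hgt' h.sq
    have mi : ∀ x ∈ S, Md t (x * (g * u * g⁻¹) * x⁻¹) (g * u * g⁻¹) := fun x hx => by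
      simpa [mul_assoc] using (h.mdu (conj_mem' hgn hx)).conj hgt'
    generalize g * u * g⁻¹ = i at *
    obtain ⟨j, hj, ej, eij, -⟩ := h.exj iQ ei
    have k : ∀ x ∈ S, Md t (x * j * x⁻¹) j ∨ Md t (x * j * x⁻¹) (i * j) := fun x hx => by
      rcases q8_enum' ht h.card8 h.tQ iQ hj ei ej eij (conj_mem (h.nQ hx) hj) with e | e | e | e
      · exact absurd (Md.one_iff.1 e) (not_zp_of_sq ht (sqc x j (h.ct hx) ej))
      · exact absurd (Md.one_iff.1 ((((e.trans (mi x hx).symm).of_conj (h.ct hx)).mul_left (h.ct (h.QS iQ))).trans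
          (Md.one_iff.2 (h.sqz iQ)))) eij
      · exact Or.inl e
      · exact Or.inr e
    rcases k x hx with e1 | e1
    · exact Or.inl (h.cenQ2 hx iQ hj ei ej eij (mi x hx) e1)
    rcases k y hy with e2 | e2
    · exact Or.inr (Or.inl (h.cenQ2 hy iQ hj ei ej eij (mi y hy) e2))
    refine Or.inr (Or.inr (h.cenQ2 (mul_mem hx hy) iQ hj ei ej eij (mi _ (mul_mem hx hy)) ?_))
    have e3 := (mi x hx).mul e1 (h.ct (conj_mem (le_normalizer hx) (h.QS iQ)))
    have e4 : Md t (i * (i * j)) j := by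
      rw [← mul_assoc, ei, ← h.ct (h.QS hj)]; exact Md.mul_t (h.ct (h.QS hj))
    have e5 := e2.conj (h.ct hx)
    rw [show x * y * j * (x * y)⁻¹ = x * (y * j * y⁻¹) * x⁻¹ by group]
    refine e5.trans (Md.trans ?_ (e3.trans e4))
    exact Md.of_eq (by group)

end Cfsg.Lib.TGC
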