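import Cfsg.Agent.Lib.TGC.BenS

/-! The structure lemma: theorem ZD and the Bender-Suzuki theorem in `N/⟨r⟩` (plan, section Ben). -/

set_option autoImplicit false

namespace Cfsg.Lib.TGC
open Subgroup MulAction Cfsg.Lib Cfsg.Lib.FT Cfsg.Lib.Bender
open scoped commutatorElement

section
universe u
variable {G : Type u} {Ω : Type*} [Group G] [MulAction G Ω] [Finite G]

omit [Finite G] in
theorem QH.comm {X : Type*} [Group X] {J K : Subgroup G} {f : G → X} (q : QH J K f) {x y : G} (hx : x ∈ J) (hy : y ∈ J) :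
    f ⁅x, y⁆ = ⁅f x, f y⁆ := by
  rw [commutatorElement_def, q.mul _ (mul_mem (mul_mem hx hy) (inv_mem hx)) _ (inv_mem hy), q.conj hx hy, q.inv hy,
    commutatorElement_def]

/-- the kernel of the action centralizes `Q` modulo `O(J)` -/
theorem BH.commO {t r : G} {N : Subgroup G} {D : Set G} (h : BH Ω t r N D) {Q : Subgroup G} (QJ : Q ≤ closure D)
    (rank : ∃ x ∈ Q, ∃ y ∈ Q, x ∉ zpowers t ∧ y ∉ zpowers t ∧ x * y ∉ zpowers t)
    (tor : ∀ x ∈ Q, ∀ y ∈ Q, x ∉ zpowers t → y ∉ zpowers t → ∃ k ∈ closure D, Odd (orderOf k) ∧ k ∈ N[Q] ∧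
      (k * x * k⁻¹ = y ∨ k * x * k⁻¹ = y * t)) {c : G} (hc : c ∈ Kr Ω N r) {x : G} (hx : x ∈ Q) :
    ⁅c, x⁆ ∈ Oc (closure D) := by
  have := normal_subgroupOf_of_le_normalizer h.On
  obtain ⟨φ, q, -⟩ := exists_QH (QuotientGroup.mk' ((Oc (closure D)).subgroupOf N)) (K := Oc (closure D))
    fun x => QuotientGroup.eq_one_iff x
  have cN := (mem_Kr.1 hc).1
  have tJ := h.zJ h.t_zp
  have A : ∀ y ∈ closure D, ∃ ρ ∈ zpowers r, ⁅φ c, φ y⁆ = φ ρ := fun y hy => by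
    obtain ⟨ρ, hρ, o, ho, e⟩ := h.ker (y := ⁅c, y⁆) (mul_mem (h.cj cN hy) (inv_mem hy)) (mem_of_mem_of_eq
      (mul_mem hc (conj_mem (h.Kn (h.JN hy)) (inv_mem hc))) (by rw [commutatorElement_def]; group))
    have oN := h.JN (map_subtype_le _ ho)
    exact ⟨ρ, hρ, by rw [← q.comm cN (h.JN hy), e, q.mul _ (h.JN (h.zJ hρ)) _ oN, (q.ker _ oN).2 ho, mul_one]⟩
  have B : ∀ y ∈ closure D, ∀ z ∈ closure D, φ z * ⁅φ c, φ y⁆ = ⁅φ c, φ y⁆ * φ z := fun y hy z hz => by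
    obtain ⟨ρ, hρ, e⟩ := A y hy
    rw [e, ← q.mul _ (h.JN hz) _ (h.JN (h.zJ hρ)), h.cz hz hρ, q.mul _ (h.JN (h.zJ hρ)) _ (h.JN hz)]
  have M : ∀ y ∈ closure D, ∀ z ∈ closure D, ⁅φ c, φ (y * z)⁆ = ⁅φ c, φ y⁆ * ⁅φ c, φ z⁆ := fun y hy z hz => by
    rw [q.mul _ (h.JN hy) _ (h.JN hz), show ⁅φ c, φ y * φ z⁆ = ⁅φ c, φ y⁆ * (φ y * ⁅φ c, φ z⁆) * (φ y)⁻¹ by
      simp only [commutatorElement_def]; group, B z hz y hy]; group
  have T1 : ⁅φ c, φ t⁆ = 1 := by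
    rw [← q.comm cN (h.JN tJ), commutatorElement_eq_one_iff_mul_comm.2 (mem_centralizer_singleton_iff.1 (h.NC cN)),
      q.one]
  have E : ∀ x ∈ Q, ∀ y ∈ Q, x ∉ zpowers t → y ∉ zpowers t → ⁅φ c, φ x⁆ = ⁅φ c, φ y⁆ := fun x hx y hy x1 y1 => by
    obtain ⟨k, hk, -, -, e⟩ := tor x hx y hy x1 y1
    have e1 : ⁅φ c, φ (k * x * k⁻¹)⁆ = ⁅φ c, φ x⁆ := by
      obtain ⟨ρ, hρ, e⟩ := A k hk
      have := M k hk _ (inv_mem hk)
      rw [mul_inv_cancel, q.one, commutatorElement_one_right] at this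
      rw [M _ (mul_mem hk (QJ hx)) _ (inv_mem hk), M k hk x (QJ hx), e, B x (QJ hx) ρ (h.zJ hρ), ← e, mul_assoc,
        ← this, mul_one]
    rcases e with e | e <;> rw [← e1, e]
    rw [M y (QJ hy) t tJ, T1, mul_one]
  refine (q.ker ⁅c, x⁆ (mul_mem (h.JN (h.cj cN (QJ hx))) (inv_mem (h.JN (QJ hx))))).1 ?_
  rw [q.comm cN (h.JN (QJ hx))]
  by_cases x1 : x ∈ zpowers t
  · rcases (mem_zp h.inv).1 x1 with rfl | rfl
    · rw [q.one, commutatorElement_one_right]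
    · exact T1
  obtain ⟨a, ha, b, hb, a1, b1, ab⟩ := rank
  have := E a ha _ (mul_mem ha hb) a1 ab
  rw [M a (QJ ha) b (QJ hb), left_eq_mul] at this
  rw [E x hx b hb x1 b1, this]

omit [Finite G] in
theorem anti_of_sq' {t x y : G} (ht : IsInv t) (hx : x * x = t) (hy : y * y = t) (hxy : x * y * (x * y) = t) :
    x * y ≠ y * x := fun e => ht.1 (by
  rw [← hxy, show x * y * (x * y) = x * (y * x) * y by group, ← e, show x * (x * y) * y = x * x * (y * y) by group,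
    hx, hy, ht.2])

namespace BL
variable [Finite Ω] {t r : G} {N : Subgroup G} {D : Set G} {f : G → Equiv.Perm (fixedBy Ω r)} {T : Subgroup G}
  {α : fixedBy Ω r} {S : Subgroup (Equiv.Perm (fixedBy Ω r))} (l : BL Ω t r N D f T α S)
include l

theorem q8 {Q : Subgroup G} (Q1 : zpowers t ≤ Q) (Q2 : Q ≤ l.W) (Q3 : ∀ q ∈ Q, q ∈ zpowers r → q ∈ zpowers t)
    (Q4 : ∀ w ∈ l.W, ∃ ρ ∈ zpowers r, ∃ q ∈ Q, w = ρ * q) {x y : G} (hx : x ∈ Q) (hy : y ∈ Q) (x1 : x ∉ zpowers t)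
    (y1 : y ∉ zpowers t) (xy : x * y ∉ zpowers t) (sq : ∀ q ∈ Q, q ∉ zpowers t → q * q = t) :
    Nat.card Q = 8 ∧ (fixedBy Ω r).ncard = 5 ∧ ∀ y ∈ T, y ∈ closure D → ∃ ρ ∈ zpowers r, ∃ q ∈ Q, y = ρ * q := by
  have ti := l.h.inv
  have QN : ∀ q ∈ Q, q ∈ N := fun q hq => l.h.JN (Q2 hq).1.2
  have ct : ∀ q ∈ N, q * t = t * q := fun q hq => l.ct hq (mem_zpowers t)
  have nc : ∀ a ∈ Q, ∀ b ∈ Q, a ∉ zpowers t → b ∉ zpowers t → a * b ∉ zpowers t → a * b ≠ b * a :=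
    fun a ha b hb a1 b1 ab => anti_of_sq' ti (sq a ha a1) (sq b hb b1) (sq _ (mul_mem ha hb) ab)
  have anti : ∀ a ∈ Q, ∀ b ∈ Q, a ∉ zpowers t → b ∉ zpowers t → a * b ∉ zpowers t → a * b = b * a * t :=
    fun a ha b hb a1 b1 ab => (l.cen (Q2 ha).1 (Q2 ha).2 (Q2 hb).1).resolve_left (nc a ha b hb a1 b1 ab)
  have all : ∀ q ∈ Q, q ∈ zpowers t ∨ q * x ∈ zpowers t ∨ q * y ∈ zpowers t ∨ q * (x * y) ∈ zpowers t := fun q hq => by
    by_contra! hh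
    refine nc q hq _ (mul_mem hx hy) hh.1 xy hh.2.2.2 ?_
    rw [← mul_assoc, anti q hq x hx hh.1 x1 hh.2.1, mul_assoc, ← ct y (QN y hy), mul_assoc, ← mul_assoc q,
      anti q hq y hy hh.1 y1 hh.2.2.1, mul_assoc, ti.2]; group
  have axy := anti x hx y hy x1 y1 xy
  have ayx : y * x = x * y * t := by rw [axy, mul_assoc, ti.2, mul_one]
  have dec : ∀ z ∈ T ⊓ closure D, ∃ ρ ∈ zpowers r, ∃ q ∈ Q, z = ρ * q := fun z hz => by
    have zt := ct z (l.h.JN hz.2)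
    obtain ⟨q, hq, c1, c2⟩ : ∃ q ∈ Q, x * (z * q) = z * q * x ∧ y * (z * q) = z * q * y := by
      rcases l.cen (Q2 hx).1 (Q2 hx).2 hz with a | a <;> rcases l.cen (Q2 hy).1 (Q2 hy).2 hz with b | b
      · exact ⟨1, one_mem _, by simpa using a, by simpa using b⟩
      · refine ⟨x, hx, by rw [← mul_assoc, a], ?_⟩
        rw [← mul_assoc, b, mul_assoc, ← ct x (QN x hx), mul_assoc z, ← mul_assoc y, ← axy, mul_assoc]
      · refine ⟨y, hy, ?_, by rw [← mul_assoc, b]⟩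
        rw [← mul_assoc, a, mul_assoc, ← ct y (QN y hy), mul_assoc z, ← mul_assoc x, ← ayx, mul_assoc]
      · refine ⟨x * y, mul_mem hx hy, ?_, ?_⟩
        · rw [← mul_assoc, a, mul_assoc, ← ct _ (QN _ (mul_mem hx hy)), ← ayx]; group
        · rw [← mul_assoc, b, mul_assoc, ← ct _ (QN _ (mul_mem hx hy)), mul_assoc z, ← mul_assoc y, ← mul_assoc y,
            ayx, mul_assoc (x * y), ← ct y (QN y hy), ← mul_assoc (x * y), mul_assoc _ t t, ti.2]; group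
    have m := mul_mem hz (Q2 hq).1
    refine ⟨z * q, by_contra fun hn => ?_, q⁻¹, inv_mem hq, by group⟩
    obtain ⟨i, hi⟩ := pow_eq_one_of_mem l.syl.isPGroup m.1
    obtain ⟨j, h1, h2⟩ := Bend.exists_pow_not_mem hn (p := 2) (n := i) (by rw [hi]; exact one_mem _)
    obtain ⟨ρ, hρ, p, hp, e⟩ := Q4 _ (l.mem_W (pow_mem m j) (by rwa [← pow_two]))
    have p1 : p ∉ zpowers t := fun k => h1 (e ▸ mul_mem hρ (l.h.tz_le k))
    have k : ∀ a ∈ Q, a ∉ zpowers t → a * (z * q) = z * q * a → p * a ∈ zpowers t := fun a ha a1 c => by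
      by_contra hn
      have := ((show Commute a (z * q) from c).pow_right j).eq
      rw [e, ← mul_assoc, l.h.cz (Q2 ha).1.2 hρ, mul_assoc, mul_assoc, mul_right_inj] at this
      exact nc p hp a ha p1 a1 hn this.symm
    exact xy (mem_of_mem_of_eq (mul_mem (mul_mem (Q2 hx).2 (inv_mem (k x hx x1 c1))) (k y hy y1 c2)) (by group))
  have nrm : ∀ A : Subgroup G, A ≤ Q → zpowers t ≤ A → Q ≤ N[A] := fun A h1 h2 g hg => mem_N_of fun a ha => by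
    rcases l.cen (Q2 hg).1 (Q2 hg).2 (Q2 (h1 ha)).1 with e | e <;> rw [e]
    · simpa using ha
    · rw [mul_assoc a, ct g (QN g hg), ← mul_assoc, mul_inv_cancel_right]; exact mul_mem ha (h2 (mem_zpowers t))
  have fx := l.isInv_W (Q2 hx) fun k => x1 (Q3 x hx k)
  have fy := l.isInv_W (Q2 hy) fun k => y1 (Q3 y hy k)
  have ft : ∀ a ∈ N, ∀ b ∈ N, a * b ∈ zpowers t → f a = (f b)⁻¹ := fun a ha b hb e =>
    eq_inv_of_mul_eq_one_left (by rw [← l.p.q.mul _ ha _ hb, l.h.f_zp l.p (l.h.tz_le e)])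
  refine ⟨?_, ?_, fun z h1 h2 => dec z ⟨h1, h2⟩⟩
  · have A1 : zpowers x ⊔ zpowers t ≤ Q := sup_le (zpowers_le.2 hx) Q1
    have e : Q = zpowers y ⊔ (zpowers x ⊔ zpowers t) := le_antisymm (fun q hq => by
      have mx : x ∈ zpowers y ⊔ (zpowers x ⊔ zpowers t) := mem_sup_right (mem_sup_left (mem_zpowers x))
      have my : y ∈ zpowers y ⊔ (zpowers x ⊔ zpowers t) := mem_sup_left (mem_zpowers y)
      have mt : zpowers t ≤ zpowers y ⊔ (zpowers x ⊔ zpowers t) := le_sup_right.trans le_sup_right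
      rcases all q hq with k | k | k | k
      exacts [mt k, (mul_mem_cancel_right mx).1 (mt k), (mul_mem_cancel_right my).1 (mt k),
        (mul_mem_cancel_right (mul_mem mx my)).1 (mt k)]) (sup_le (zpowers_le.2 hy) A1)
    rw [e, pg_card_zpowers_sup (p := 2) (nrm _ A1 le_sup_right hy) (fun k => nc x hx y hy x1 y1 xy
      (mem_centralizer_singleton_iff.1 ((sup_le (zpowers_le.2 (mem_centralizer_singleton_iff.2 rfl))
        (zpowers_le.2 (mem_centralizer_singleton_iff.2 (ct x (QN x hx)).symm)) : _ ≤ C1[x]) k)).symm)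
      (mem_sup_right (by rw [pow_two]; exact (Q2 hy).2)),
      pg_card_zpowers_sup (p := 2) (nrm _ Q1 le_rfl hx) x1 (by rw [pow_two]; exact (Q2 hx).2), ti.card_zpowers]
  · rw [← Nat.card_coe_set_eq]
    refine l.ss.card5 (l.h.pb l.p) (l.fU (Q2 hx).1) (l.fU (Q2 hy).1) fx fy (fun e => xy (Q3 _ (mul_mem hx hy)
      (l.KU (Q2 (mul_mem hx hy)).1 ((l.p.q.ker _ (QN _ (mul_mem hx hy))).1 ?_)))) fun s hs => ?_
    · rw [l.p.q.mul _ (QN x hx) _ (QN y hy), e, fy.2]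
    obtain ⟨z, hz, rfl⟩ := l.Uf hs
    obtain ⟨ρ, hρ, q, hq, rfl⟩ := dec z hz
    rw [l.p.q.mul _ (l.h.JN (l.h.zJ hρ)) _ (QN q hq), l.h.f_zp l.p hρ, one_mul]
    rcases all q hq with k | k | k | k
    · exact .inl (l.h.f_zp l.p (l.h.tz_le k))
    · exact .inr (.inl (by rw [ft q (QN q hq) x (QN x hx) k, fx.inv_eq]))
    · exact .inr (.inr (.inl (by rw [ft q (QN q hq) y (QN y hy) k, fy.inv_eq])))
    · refine .inr (.inr (.inr ?_))
      rw [ft q (QN q hq) _ (QN _ (mul_mem hx hy)) k, (l.isInv_W (Q2 (mul_mem hx hy))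
        fun k => xy (Q3 _ (mul_mem hx hy) k)).inv_eq, l.p.q.mul _ (QN x hx) _ (QN y hy)]

theorem benS : ∃ ε Q, (ε = 1 ∨ ε = t) ∧ BenS Ω t r ε N (closure D) (Oc (closure D)) T Q (α : Ω) := by
  obtain ⟨Q, Q1, Q2, Q3, Q4, tor⟩ := l.exists_Q
  have ti := l.h.inv
  have pb := l.h.pb l.p
  have r2 := l.h.rank2 l.p l.rk
  have QJ : Q ≤ closure D := fun q hq => (Q2 hq).1.2
  have TN := l.syl.le
  have lift : ∀ s ∈ S, IsInv s → ∃ q ∈ Q, f q = s ∧ q ∉ zpowers t := fun s hs si => by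
    obtain ⟨y, hy, rfl⟩ := l.Uf hs
    obtain ⟨ρ, hρ, q, hq, rfl⟩ := Q4 y (l.mem_W hy (l.KU (mul_mem hy hy) ((l.p.q.sq_iff (l.h.JN hy.2)).1 si.2)))
    rw [l.p.q.mul _ (l.h.JN (l.h.zJ hρ)) _ (l.h.JN (QJ hq)), l.h.f_zp l.p hρ, one_mul] at si ⊢
    exact ⟨q, hq, rfl, fun k => si.1 (l.h.f_zp l.p (l.h.tz_le k))⟩
  obtain ⟨x, hx, y, hy, x1, y1, xy⟩ : ∃ x ∈ Q, ∃ y ∈ Q, x ∉ zpowers t ∧ y ∉ zpowers t ∧ x * y ∉ zpowers t := by
    obtain ⟨a, ha, b, hb, ai, bi, ne⟩ := l.ss.exists_two pb r2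
    obtain ⟨x, hx, rfl, x1⟩ := lift a ha ai
    obtain ⟨y, hy, rfl, y1⟩ := lift b hb bi
    refine ⟨x, hx, y, hy, x1, y1, fun k => ne ?_⟩
    have := l.h.f_zp l.p (l.h.tz_le k)
    rw [l.p.q.mul _ (l.h.JN (QJ hx)) _ (l.h.JN (QJ hy))] at this
    rw [eq_inv_of_mul_eq_one_left this, bi.inv_eq]
  have sq : ∀ q ∈ Q, q ∉ zpowers t → q * q = x * x := fun q hq q1 => by
    obtain ⟨k, hk, -, -, e⟩ := tor q hq x hx q1 x1
    have e1 : k * q * k⁻¹ * (k * q * k⁻¹) = q * q := by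
      rw [conj_mul, l.ct (l.h.JN hk) (Q2 hq).2, mul_inv_cancel_right]
    rcases e with e | e <;> rw [← e1, e]
    rw [mul_assoc, ← mul_assoc t, ← l.ct (l.h.JN (QJ hx)) (mem_zpowers t), mul_assoc x t, ti.2, mul_one]
  have cO : ∀ c ∈ Kr Ω N r, ∀ q ∈ Q, ⁅c, q⁆ ∈ Oc (closure D) := fun c hc q hq =>
    l.h.commO QJ ⟨x, hx, y, hy, x1, y1, xy⟩ tor hc hq
  refine ⟨x * x, Q, (mem_zp ti).1 (Q2 hx).2, fun z => ⟨fun hz => ⟨(Q2 hz).1.1, QJ hz, ?_⟩, fun ⟨h1, h2, h3⟩ => ?_⟩,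
    fun b c hb hc b1 c1 => ?_, fun z h1 h2 b hb b1 e => ?_, fun z h1 h2 h3 => Q4 z (l.mem_W ⟨h1, h2⟩ h3),
    fun q hq z h1 h2 => l.cen (Q2 hq).1 (Q2 hq).2 ⟨h1, h2⟩, ⟨x, hx, y, hy, x1, y1, xy⟩, tor, cO,
    fun c h1 h2 q hq => ?_, fun g hg ha z h1 h2 => ?_, fun c h1 h2 h3 => ?_, fun c h1 h2 h3 h4 q hq h5 => ?_,
    fun c h1 h2 h3 => ?_, fun e => l.q8 Q1 Q2 Q3 Q4 hx hy x1 y1 xy fun q hq q1 => (sq q hq q1).trans e⟩
  · by_cases k : z ∈ zpowers t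
    · rcases (mem_zp ti).1 k with e | e
      exacts [.inl e, .inr (.inl e)]
    · exact .inr (.inr ⟨sq z hz k, fun k' => k (Q3 z hz k')⟩)
  · rcases h3 with rfl | rfl | ⟨h3, h4⟩
    · exact one_mem _
    · exact Q1 (mem_zpowers _)
    obtain ⟨ρ, hρ, q, hq, rfl⟩ := Q4 z ⟨⟨h1, h2⟩, h3 ▸ (Q2 hx).2⟩
    rw [← sq q hq fun k => h4 (mul_mem hρ (l.h.tz_le k)), mul_assoc, ← mul_assoc q, l.h.cz (QJ hq) hρ, mul_assoc ρ q,
      ← mul_assoc, mul_eq_right] at h3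
    exact mul_mem (Q1 (l.h.zp_sq hρ h3)) hq
  · obtain ⟨s, hs, e⟩ := l.ss.trans ⟨b, hb⟩ ⟨c, hc⟩ (fun e => b1 (congrArg Subtype.val e))
      fun e => c1 (congrArg Subtype.val e)
    obtain ⟨z, hz, rfl⟩ := l.Uf hs
    exact ⟨z, hz.1, hz.2, (l.p.eq_iff (l.h.JN hz.2)).1 e⟩
  · obtain ⟨i, hi⟩ := pow_eq_one_of_mem l.syl.isPGroup h1
    exact l.h.mem_of_two h2 hi hb α.2 b1 e (l.fix z h1)
  · refine commutatorElement_eq_one_iff_commute.1 (mem_bot.1 ?_)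
    rw [← inf_eq_bot_of_isPGroup_of_coprime l.syl.isPGroup (coprime_card_pPrimeCoreOf (closure D))]
    exact mem_inf.2 ⟨mul_mem (mul_mem (mul_mem h1 (Q2 hq).1.1) (inv_mem h1)) (inv_mem (Q2 hq).1.1), cO c h2 q hq⟩
  · obtain ⟨y', h3, h4⟩ := l.nrm hg ha ⟨h1, h2⟩
    exact ⟨y', h3.1, h3.2, h4⟩
  · have o := (l.p.one_iff (TN h1)).1 h3
    have ci : IsInv (f c) := ⟨fun e => by
      obtain ⟨a, b, ne⟩ := pb.nt
      exact ne (o a b (by rw [e, one_smul]) (by rw [e, one_smul])), (l.p.q.sq_iff (TN h1)).2 h2⟩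
    have cα := (l.p.eq_iff (TN h1)).2 (l.fix c h1)
    obtain ⟨q, hq, e, q1⟩ := lift _ (l.ss.inv_mem' (pb.f1 r2 (l.h.nJ l.p (TN h1)) ci cα o) ci.2 cα) ci
    exact ⟨q, hq, q1, (l.p.q.eq_iff (TN h1) (l.h.JN (QJ hq))).1 e.symm⟩
  · have qN := l.h.JN (QJ hq)
    rw [l.p.one_iff (TN h1)] at h4
    rw [l.p.one_iff (mul_mem (TN h1) qN), l.p.q.mul _ (TN h1) _ qN]
    by_cases k : q ∈ zpowers r
    · rwa [l.h.f_zp l.p k, mul_one]
    push Not at h4 ⊢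
    obtain ⟨a, b, ha, hb, ne⟩ := h4
    obtain ⟨a', b', k1, k2, k3⟩ := pb.b1 r2 (l.h.nJ l.p (TN h1)) ((l.p.q.isInv_iff (TN h1)).2 ⟨h3, h2⟩) ne ha hb
      ⟨q, QJ hq, rfl⟩ (l.isInv_W (Q2 hq) k) ((l.p.q.comm_iff (TN h1) qN).2 h5)
    exact ⟨a', b', k2, k3, k1⟩
  · rw [← Nat.card_coe_set_eq]
    refine pb.five r2 (l.h.nJ l.p (TN h1)) ((l.p.q.sq_iff (TN h1)).2 h2) ((l.p.eq_iff (TN h1)).2 (l.fix c h1)) ?_
    rw [← h3, ← Set.ncard_image_of_injective _ Subtype.val_injective]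
    congr 1
    ext a
    exact ⟨fun ⟨b, hb, e⟩ => e ▸ ⟨b.2, (l.p.eq_iff (TN h1)).1 hb⟩,
      fun ⟨h4, h5⟩ => ⟨⟨a, h4⟩, (l.p.eq_iff (TN h1)).2 h5, rfl⟩⟩

end BL

namespace BH
variable [Finite Ω] {t r : G} {N : Subgroup G} {D : Set G} (h : BH Ω t r N D)
include h

theorem benS (hr : Rk r D) {T : Subgroup G} (hT : IsSylowIn 2 T N) {α : Ω} (hα : r • α = α) (fix : ∀ x ∈ T, x • α = α) :
    ∃ ε Q, (ε = 1 ∨ ε = t) ∧ BenS Ω t r ε N (closure D) (Oc (closure D)) T Q α := by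
  obtain ⟨f, p⟩ := h.exists_PR
  obtain ⟨S, s⟩ := (h.pb p).exists_SS (h.rank2 p hr) ⟨α, hα⟩
  exact BL.benS ⟨h, hr, p, hT, fix, s⟩

omit [Finite Ω] in
/-- `ε = t` if and only if `T ∩ D` has two non-commuting members -/
theorem eps_iff {ε : G} {T Q O : Subgroup G} {α : Ω} (he : ε = 1 ∨ ε = t) (b : BenS Ω t r ε N (closure D) O T Q α) :
    ε = t ↔ ∃ x ∈ D, ∃ y ∈ D, x ∈ T ∧ y ∈ T ∧ x * y ≠ y * x := by
  have sq : ∀ q ∈ Q, q ∉ zpowers t → q * q = ε ∧ q ∉ zpowers r := fun q hq q1 => by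
    rcases ((b.mem q).1 hq).2.2 with rfl | rfl | k
    exacts [absurd (one_mem _) q1, absurd (mem_zpowers _) q1, k]
  constructor
  · rintro rfl
    obtain ⟨x, hx, y, hy, x1, y1, xy⟩ := b.rank
    have k : ∀ q ∈ Q, q ∉ zpowers ε → q ∈ D := fun q hq q1 =>
      h.pure ((b.mem q).1 hq).2.1 (sq q hq q1).2 (by rw [(sq q hq q1).1]; exact h.t_zp)
    exact ⟨x, k x hx x1, y, k y hy y1, ((b.mem x).1 hx).1, ((b.mem y).1 hy).1,
      anti_of_sq' h.inv (sq x hx x1).1 (sq y hy y1).1 (sq _ (mul_mem hx hy) xy).1⟩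
  · rintro ⟨x, hx, y, hy, xT, yT, ne⟩
    refine he.resolve_left fun e => ne ?_
    have s2 : ∀ q ∈ Q, q * q = 1 := fun q hq => by
      rcases ((b.mem q).1 hq).2.2 with rfl | rfl | k
      exacts [one_mul 1, h.inv.2, k.1.trans e]
    obtain ⟨ρ, hρ, q, hq, rfl⟩ := b.dec x xT (subset_closure hx) (h.tz_le (h.sq_zt hx))
    obtain ⟨σ, hσ, p, hp, rfl⟩ := b.dec y yT (subset_closure hy) (h.tz_le (h.sq_zt hy))
    have c1 : Commute q σ := h.cz ((b.mem q).1 hq).2.1 hσ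
    have c2 : Commute p ρ := h.cz ((b.mem p).1 hp).2.1 hρ
    have c3 : Commute ρ σ := h.cz (h.zJ hρ) hσ
    have c4 : Commute q p := h9_comm_of_sq (s2 q hq) (s2 p hp) (s2 _ (mul_mem hq hp))
    exact ((c3.mul_right c2.symm).mul_left (c1.mul_right c4)).eq

theorem cov (hr : Rk r D) {R : Subgroup G} (hR : R ≤ Kr Ω N r) (h2 : IsPGroup 2 R) {j : G} (hj : j ∈ closure D) :
    ∃ c ∈ closure D, c ∈ C[R] ∧ c⁻¹ * j ∈ Kr Ω N r := by
  have OJ : Oc (closure D) ≤ closure D := map_subtype_le _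
  obtain ⟨ρ, hρ, y, hy, h1, rfl⟩ : ∃ ρ ∈ zpowers r, ∃ y ∈ closure D,
      (∀ c ∈ Kr Ω N r, ⁅c, y⁆ ∈ Oc (closure D)) ∧ j = ρ * y := by
    induction hj using closure_induction with
    | mem d hd =>
      obtain ⟨T, hT, dT⟩ := exists_isSylowIn_ge (isPGroup_zpowers_of (g := d) (n := 2) (by
        rw [show d ^ 2 ^ 2 = d * d * (d * d) by simp [pow_succ, mul_assoc]]
        rcases h.sq d hd with e | e <;> rw [e]
        exacts [one_mul 1, h.inv.2])) (zpowers_le.2 (h.mem d hd))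
      obtain ⟨α, hα⟩ := h.fix2 T hT.isPGroup
      obtain ⟨ε, Q, -, b⟩ := h.benS hr hT (hα r (hT.le_of_normalizes h.p2 (h.zJ.trans h.JN) (hT.le.trans h.Nr)
        (mem_zpowers r))) hα
      obtain ⟨ρ, hρ, q, hq, e⟩ := b.dec d (dT (mem_zpowers d)) (subset_closure hd) (h.tz_le (h.sq_zt hd))
      exact ⟨ρ, hρ, q, ((b.mem q).1 hq).2.1, fun c hc => b.commO c hc q hq, e⟩
    | one => exact ⟨1, one_mem _, 1, one_mem _, fun c _ => by simp, by simp⟩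
    | mul a b _ _ ha hb =>
      obtain ⟨ρ, hρ, y, hy, h1, rfl⟩ := ha
      obtain ⟨σ, hσ, z, hz, h3, rfl⟩ := hb
      refine ⟨_, mul_mem hρ hσ, _, mul_mem hy hz, fun c hc => mem_of_mem_of_eq
        (mul_mem (h1 c hc) (conj_mem (h.On (h.JN hy)) (h3 c hc))) (by simp only [commutatorElement_def]; group), ?_⟩
      rw [mul_assoc, ← mul_assoc y, h.cz hy hσ]; group
    | inv a _ ha =>
      obtain ⟨ρ, hρ, y, hy, h1, rfl⟩ := ha
      exact ⟨_, inv_mem hρ, _, inv_mem hy, fun c hc => mem_of_mem_of_eq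
        (conj_mem' (h.On (h.JN hy)) (inv_mem (h1 c hc))) (by simp only [commutatorElement_def]; group),
        by rw [mul_inv_rev, h.cz (inv_mem hy) (inv_mem hρ)]⟩
  obtain ⟨n, hn⟩ := h2.exists_card_eq
  have := h2.isNilpotent
  have ca : CoprimeAct R (Oc (closure D)) := ⟨fun c hc => h.On (mem_Kr.1 (hR hc)).1,
    by rw [hn]; exact (coprime_card_pPrimeCoreOf _).symm.pow_left n, .inl inferInstance⟩
  obtain ⟨c, hc, o, ho, e⟩ := ca.exists_eq_centralizer_mul (x := y) fun a ha => mem_of_mem_of_eq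
    (conj_mem' (h.On (h.JN hy)) (h1 a (hR ha))) (by simp only [commutatorElement_def]; group)
  have cJ : c ∈ closure D := (mul_mem_cancel_right (OJ ho)).1 (e ▸ hy)
  refine ⟨c, cJ, hc, ?_⟩
  rw [← e, ← mul_assoc, h.cz (inv_mem cJ) hρ, mul_assoc, inv_mul_cancel_left]
  exact mul_mem (h.zp_Kr hρ) (h.O_le hr ho)

theorem ben (hr : Rk r D) : ∃ ε, Ben Ω t r ε N (closure D) (Oc (closure D)) := by
  classical
  let A : Prop := ∃ T, IsSylowIn 2 T N ∧ ∃ x ∈ D, ∃ y ∈ D, x ∈ T ∧ y ∈ T ∧ x * y ≠ y * x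
  refine ⟨if A then t else 1, h.inv, h.rt, h.two, by split_ifs <;> simp, h.NC, h.Nr, h.rJ, h.JN, h.Jn, h.Jc, odd_Oc _,
    h.On, le_inf (map_subtype_le _) (h.O_le hr), fun x => h.ker, fun R h1 h2 j => h.cov hr h1 h2,
    fun a b => h.tr, fun T hT α hα fix => ?_⟩
  obtain ⟨ε, Q, he, b⟩ := h.benS hr hT hα fix
  refine ⟨Q, ?_⟩
  split_ifs with hA
  · obtain ⟨T', hT', x, hx, y, hy, xT, yT, ne⟩ := hA
    obtain ⟨g, hg, rfl⟩ := hT'.exists_conj hT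
    exact (h.eps_iff he b).2 ⟨_, h.conj x hx g hg, _, h.conj y hy g hg, ⟨x, xT, rfl⟩, ⟨y, yT, rfl⟩,
      fun e => ne (by simpa only [conj_mul, mul_left_inj, mul_right_inj] using e)⟩ ▸ b
  · exact he.resolve_right (fun e => hA ⟨T, hT, (h.eps_iff he b).1 e⟩) ▸ b

end BH

end

variable {G Ω : Type*} [Group G] [MulAction G Ω] [Finite G]

theorem Ctx.ben_t (C : Ctx G Ω) {t : G} (ht : IsInv t) (h2 : Two Ω t) {D : Set G} (hD : Good Ω t D) :
    ∃ ε J O, Ben Ω t t ε C1[t] J O := by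
  have := C.finite
  have h : BH Ω t t C1[t] D :=
    { inv := ht, rt := .inl rfl, two := h2, NC := le_rfl
      Nr := fun g hg => mem_N_zp_of_comm (mem_centralizer_singleton_iff.1 hg)
      fix2 := C.fix2
      mem := fun d hd => mem_centralizer_singleton_iff.2 (hD.comm d hd).eq
      comm := hD.comm, sq := hD.sq, one := hD.one, sat := hD.sat
      nm := fun d hd e => ((mem_zp ht).1 e).elim (hD.nmem d hd).1 (hD.nmem d hd).2
      conj := fun d hd g hg => hD.conj d hd g (mem_centralizer_singleton_iff.1 hg)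
      prod := fun x hx y hy h1 h3 => hD.prod x hx y hy (by
        have e : x * y = ⁅x, y⁆ * (y * x) := by rw [commutatorElement_def]; group
        rcases (mem_zp ht).1 h1 with k | k <;> rw [k] at e
        · exact .inl (by simpa using e)
        · exact .inr (e.trans ((hD.comm y hy).mul_left (hD.comm x hx)).eq.symm))
        (fun e => h3 (e ▸ one_mem _)) fun e => h3 (e ▸ mem_zpowers _)
      ex := fun a ha => by
        obtain ⟨d, hd⟩ := hD.ne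
        obtain ⟨P, h1, -, h3, h4, -⟩ :=
          exists_two_group ht (hD.comm d hd) (hD.comm d hd) (hD.sq d hd) (hD.sq d hd) (.inl rfl)
        obtain ⟨b, hb⟩ := C.fix2 P h1
        obtain ⟨g, hg, rfl⟩ := C.tr_t ht (hb t h3) ha
        exact ⟨_, hD.conj d hd g hg, fix_conj (hb d h4)⟩ }
  by_cases hr : Rk t D
  · obtain ⟨ε, b⟩ := h.ben hr
    exact ⟨ε, _, _, b⟩
  obtain ⟨a, b, ne, ha, hb⟩ := h2
  obtain ⟨o, ho, e⟩ := h.rank1 hr ha hb
  exact absurd (e.symm.trans (C.odd_normal_fix ht (odd_Oc _) ((map_subtype_le _).trans h.JN) h.On hb o ho)) ne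

theorem Ctx.ben_u (C : Ctx G Ω) {t u : G} (ht : IsInv t) (hu : UU Ω t u) :
    TypeA Ω t u ∨ TypeII Ω t u 1 ∨ TypeII Ω t u t := by
  have := C.finite
  have tu : t ∈ zpowers u := (mem_zp4 ht hu.1).2 (by simp)
  have ut : Commute u t := hu.1 ▸ (Commute.refl u).mul_right (Commute.refl u)
  have s2 : ∀ ρ ∈ zpowers u, ρ * ρ = 1 → ρ = 1 ∨ ρ = t := fun ρ hρ e => by
    rcases (mem_zp4 ht hu.1).1 hρ with k | k | k | k
    exacts [.inl k, .inr k, absurd (by rw [← hu.1, ← k, e]) ht.1, absurd (by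
      rw [k, mul_assoc, ← mul_assoc t, ← ut.eq, mul_assoc u t, ht.2, mul_one, hu.1] at e; exact e) ht.1]
  have NC : N[zpowers u] ≤ C1[t] := fun g hg => mem_centralizer_singleton_iff.2 (mul_inv_eq_iff_eq_mul.1
    ((s2 _ (conj_mem hg tu) (ht.conj g).2).resolve_left (ht.conj g).1))
  have ct : ∀ {y : G}, Commute y u → Commute y t := fun h => hu.1 ▸ h.mul_right h
  have cz : ∀ {y ρ : G}, Commute y u → ρ ∈ zpowers u → Commute y ρ := fun h hρ => by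
    obtain ⟨n, rfl⟩ := mem_zpowers_iff.1 hρ; exact h.zpow_right n
  have su : ∀ {y : G}, Commute y u → y * u * (y * u) = y * y * t := fun h => by
    rw [mul_assoc, ← mul_assoc u, ← h.eq, ← hu.1]; group
  let D : Set G := {y | Commute y u ∧ (y * y = 1 ∨ y * y = t) ∧ y ∉ zpowers u}
  have mD : ∀ {x : G}, IsInv x → Commute x u → x ≠ t → x ∈ D := fun h1 h2 h3 =>
    ⟨h2, .inl h1.2, fun e => (s2 _ e h1.2).elim h1.1 h3⟩
  have h : BH Ω t u N[zpowers u] D :=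
    { inv := ht, rt := .inr hu.1, two := hu.2, NC := NC, Nr := le_rfl, fix2 := C.fix2
      mem := fun d hd => mem_N_zp_of_comm hd.1.eq
      comm := fun d hd => hd.1, sq := fun d hd => hd.2.1, nm := fun d hd => hd.2.2
      one := fun d ⟨h1, h2, h3⟩ => by
        rcases h2 with e | e
        · exact (C.one_inv ht (y := d) ⟨fun k => h3 (k ▸ one_mem _), e⟩ (fun k => h3 (k ▸ tu)) (ct h1)).of_sq hu.1
        · have k : d * u ∉ zpowers u := fun k => h3 ((mul_mem_cancel_right (mem_zpowers u)).1 k)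
          exact ((C.one_inv ht (y := d * u) ⟨fun k' => k (k' ▸ one_mem _), by rw [su h1, e, ht.2]⟩ (fun k' => k (k' ▸ tu))
            ((ct h1).mul_left ut)).of_sq hu.1).congr fun a ha hd => by rw [mul_smul, ha, hd]
      sat := fun d ⟨h1, h2, h3⟩ => ⟨h1.mul_left (Commute.refl u), by
        rw [su h1]; rcases h2 with e | e <;> rw [e]
        exacts [.inr (one_mul t), .inl ht.2], fun k => h3 ((mul_mem_cancel_right (mem_zpowers u)).1 k)⟩
      conj := fun d ⟨h1, h2, h3⟩ g hg => ⟨by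
        have := (cz h1 (conj_mem' hg (mem_zpowers u))).eq
        change g * d * g⁻¹ * u = u * (g * d * g⁻¹)
        rw [show g * d * g⁻¹ * u = g * (d * (g⁻¹ * u * g)) * g⁻¹ by group, this]; group, by
        rw [conj_mul]; rcases h2 with e | e <;> rw [e]
        exacts [.inl (by group), .inr (mul_inv_eq_iff_eq_mul.2 (mem_centralizer_singleton_iff.1 (NC hg)))],
        fun k => h3 (mem_of_mem_of_eq (conj_mem' hg k) (by group))⟩
      prod := fun x ⟨x1, x2, _⟩ y ⟨y1, y2, _⟩ h1 h3 => ⟨x1.mul_left y1, (mem_zp ht).1 (by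
        have e : x * y * x⁻¹ = ⁅x, y⁆ * y := by rw [commutatorElement_def]; group
        have e2 : x * (x * y * x⁻¹) * x⁻¹ = y := by
          rw [show x * (x * y * x⁻¹) * x⁻¹ = x * x * y * (x * x)⁻¹ by group]
          rcases x2 with k | k <;> rw [k]
          exacts [by group, by rw [← (ct y1).eq, mul_inv_cancel_right]]
        have e3 : x * y * (x * y) = ⁅x, y⁆ * (y * (x * x) * y) := by rw [commutatorElement_def]; group
        rw [e3]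
        generalize ⁅x, y⁆ = ρ at *
        rw [e, ← mul_assoc, (cz x1 h1).eq, mul_assoc, mul_assoc, ← mul_assoc x, e, ← mul_assoc] at e2
        refine mul_mem ((mem_zp ht).2 (s2 ρ h1 (mul_eq_right.1 e2))) ?_
        rw [(cz y1 (zpowers_le.2 tu ((mem_zp ht).2 x2))).eq, mul_assoc]
        exact mul_mem ((mem_zp ht).2 x2) ((mem_zp ht).2 y2)), h3⟩
      ex := fun a ha => let ⟨x, h1, h2, h3, h4⟩ := C.inv_comm ht hu.1 ha; ⟨x, mD h1 h3 h2, h4⟩ }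
  by_cases hr : Rk u D
  · obtain ⟨ε, b⟩ := h.ben hr
    have k : TypeII Ω t u ε := ⟨_, _, b, fun y h1 h2 => by
      by_cases h3 : y ∈ zpowers u
      exacts [h.zJ h3, subset_closure ⟨h1, h2, h3⟩]⟩
    rcases b.eps with rfl | rfl
    exacts [.inr (.inl k), .inr (.inr k)]
  refine .inl ⟨fun α hα x hx y hy xα yα x2 y2 hc => ?_, fun P hP x xP y yP xi yi x1 y1 x2 y2 => ?_⟩
  · by_contra! hh
    obtain ⟨β, hβ, ne⟩ := h.exists_ne hα
    obtain ⟨o, ho, e⟩ := h.rank1 hr hβ hα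
    exact ne (e.symm.trans (h.O_fix hx hy x2 y2 hc hh.1 hh.2.1 hh.2.2 hα xα yα ho))
  · have k := h.uniq1 hr hP (mD xi x1 x2) (mD yi y1 y2) xP yP
    have e : y = x * (x * y) := by rw [← mul_assoc, xi.2, one_mul]
    rcases s2 _ k (by rw [mul_assoc, ← mul_assoc y, ← mul_assoc x, ← mul_assoc x, ← (cz x1 k).eq, ← e, yi.2]) with k | k <;>
      rw [k] at e
    exacts [.inl (by simpa using e), .inr e]

end Cfsg.Lib.TGC
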