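import Cfsg.Agent.Lib.TGC.BenP

/-! The common setting of the two structure lemmas: theorem ZD in `J/⟨r⟩`, the action on the fixed points of `r`. -/

set_option autoImplicit false

namespace Cfsg.Lib.TGC
open Subgroup MulAction Cfsg.Lib Cfsg.Lib.FT Cfsg.Lib.Bender Cfsg.Lib.ZD
open scoped commutatorElement

universe u

variable {G : Type u} {Ω : Type*} [Group G] [MulAction G Ω]

/-- the odd core of a subgroup -/
abbrev Oc (J : Subgroup G) : Subgroup G := (pPrimeCore 2 J).map J.subtype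

theorem odd_Oc [Finite G] (J : Subgroup G) : Odd (Nat.card (Oc J)) :=
  Nat.coprime_two_right.1 (coprime_card_pPrimeCoreOf J)

theorem normal_zp {J : Subgroup G} {r : G} (hc : J ≤ C1[r]) : ((zpowers r).subgroupOf J).Normal := ⟨fun a ha g => by
  have : (g : G) * a = a * g := by
    obtain ⟨n, hn⟩ := mem_zpowers_iff.1 (mem_subgroupOf.1 ha)
    rw [← hn]; exact ((show Commute (g : G) r from mem_centralizer_singleton_iff.1 (hc g.2)).zpow_right n).eq
  rw [mem_subgroupOf, coe_mul, coe_mul, coe_inv, this, mul_inv_cancel_right]; exact ha⟩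

/-- a central Sylow 2-subgroup `⟨r⟩` of a normal subgroup `Y` of `J` -/
theorem odd_dec [Finite G] {J Y : Subgroup G} {r : G} (hc : J ≤ C1[r]) (hYJ : Y ≤ J) (hn : J ≤ N[Y])
    (hp : IsPGroup 2 (zpowers r)) (h : ∀ y ∈ Y, y * y ∈ zpowers r → y ∈ zpowers r) {y : G} (hy : y ∈ Y) :
    ∃ ρ ∈ zpowers r, ∃ o ∈ Oc J, y = ρ * o := by
  have := normal_zp (hYJ.trans hc)
  have ho : ¬ 2 ∣ ((zpowers r).subgroupOf Y).index := fun hd => by
    obtain ⟨x, hx⟩ := exists_prime_orderOf_dvd_card' (G := Y ⧸ (zpowers r).subgroupOf Y) 2 hd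
    obtain ⟨x, rfl⟩ := QuotientGroup.mk_surjective x
    have hi := isInv_iff_orderOf.2 hx
    exact hi.1 ((QuotientGroup.eq_one_iff x).2 (h x x.2 ((QuotientGroup.eq_one_iff (x * x)).1 hi.2)))
  obtain ⟨n, hn'⟩ := (hp.comap_subtype (K := Y)).exists_card_eq
  obtain ⟨H, hH⟩ := exists_right_complement'_of_coprime (N := (zpowers r).subgroupOf Y)
    (by rw [show Nat.card ((zpowers r).subgroupOf Y) = 2 ^ n from hn']
        exact ((Nat.Prime.coprime_iff_not_dvd Nat.prime_two).2 ho).pow_left n)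
  have dec : ∀ g : Y, ∃ a : Y, (a : G) ∈ zpowers r ∧ ∃ b ∈ H, a * b = g := fun g =>
    let ⟨⟨a, b⟩, e, _⟩ := hH.existsUnique g; ⟨a, a.2, b, b.2, e⟩
  have HN : H.Normal := ⟨fun x hx g => by
    obtain ⟨a, ha, b, hb, rfl⟩ := dec g
    have e : a * (b * x * b⁻¹) = b * x * b⁻¹ * a := Subtype.ext (by
      obtain ⟨n, hn⟩ := mem_zpowers_iff.1 ha
      change (a : G) * (b * x * b⁻¹ : Y) = (b * x * b⁻¹ : Y) * a
      rw [← hn]
      exact ((show Commute _ r from mem_centralizer_singleton_iff.1 (hc (hYJ (b * x * b⁻¹).2))).zpow_right n).eq.symm)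
    rw [show a * b * x * (a * b)⁻¹ = a * (b * x * b⁻¹) * a⁻¹ by group, e, mul_inv_cancel_right]
    exact mul_mem (mul_mem hb hx) (inv_mem hb)⟩
  have HO : H ≤ pPrimeCore 2 Y := le_pPrimeCore HN (by
    rw [← hH.symm.index_eq_card]; exact ((Nat.Prime.coprime_iff_not_dvd Nat.prime_two).2 ho).symm)
  obtain ⟨a, ha, b, hb, e⟩ := dec ⟨y, hy⟩
  exact ⟨a, ha, b, pPrimeCoreOf_le_pPrimeCoreOf_of_le_normalizer hYJ hn ⟨b, HO hb, rfl⟩, (congrArg Subtype.val e).symm⟩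

theorem exists_avoid [Finite G] {A B : Subgroup G} (hAB : A ≤ B) (hsq : ∀ x ∈ B, x * x ∈ A) {t : G} (ht : t ∈ B)
    (htA : t ∉ A) : ∃ M : Subgroup G, A ≤ M ∧ t ∉ M ∧ M.relIndex B = 2 := by
  obtain ⟨M, hAM, hM, hmax⟩ := Finite.exists_le_maximal (p := fun M => M ≤ B ∧ t ∉ M) ⟨hAB, htA⟩
  refine ⟨M, hAM, hM.2, relIndex_eq_two_iff_exists_notMem_and.2 ⟨t, ht, hM.2, fun x hx => ?_⟩⟩
  by_contra! hh
  have cj : ∀ m ∈ M, x⁻¹ * m * x ∈ M := fun m hm => by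
    have := mul_mem (mul_mem (inv_mem (hAM (hsq x hx))) (hAM (hsq _ (mul_mem hx (hM.1 hm))))) (inv_mem hm)
    simpa [mul_assoc] using this
  let M' : Subgroup G :=
    { carrier := {g | g ∈ M ∨ x⁻¹ * g ∈ M}
      one_mem' := Or.inl (one_mem _)
      mul_mem' := by
        rintro g h (hg | hg) (hh | hh)
        · exact Or.inl (mul_mem hg hh)
        · exact Or.inr (by simpa [mul_assoc] using mul_mem (cj g hg) hh)
        · exact Or.inr (by simpa [mul_assoc] using mul_mem hg hh)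
        · exact Or.inl (by simpa [mul_assoc] using mul_mem (mul_mem (hAM (hsq x hx)) (cj _ hg)) hh)
      inv_mem' := by
        rintro g (hg | hg)
        · exact Or.inl (inv_mem hg)
        · refine Or.inr ?_
          simpa [mul_assoc] using mul_mem (cj _ (inv_mem hg)) (inv_mem (hAM (hsq x hx))) }
  refine hh.2 (hmax (y := M') ⟨?_, ?_⟩ (fun g hg => Or.inl hg) (Or.inr (by simp)))
  · rintro g (hg | hg)
    · exact hM.1 hg
    · simpa using mul_mem hx (hM.1 hg)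
  · rintro (hg | hg)
    · exact hM.2 hg
    · exact hh.1 (by simpa [mul_assoc] using mul_mem (hAM (hsq x hx)) hg)

/-- an invariant hyperplane avoiding a fixed vector -/
theorem exists_inv_half [Finite G] {A W K : Subgroup G} {u : G} (hK : Odd (Nat.card K)) (hn : K ≤ N[W]) (hA : K ≤ N[A])
    (hAW : A ≤ W) (hsq : ∀ x ∈ W, x * x ∈ A) (hu : u ∈ W) (huA : u ∉ A) (hc : K ≤ C1[u]) :
    ∃ Q : Subgroup G, A ≤ Q ∧ Q ≤ W ∧ u ∉ Q ∧ K ≤ N[Q] ∧ ∀ w ∈ W, w ∈ Q ∨ u * w ∈ Q := by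
  obtain ⟨M, h1, h2, h3⟩ := exists_avoid hAW hsq hu huA
  obtain ⟨φ, hφ⟩ := exists_sign_hom h3
  have := Fintype.ofFinite K
  let c : K → W →* W := fun k =>
    { toFun := fun w => ⟨k * w * (k : G)⁻¹, pg_conj_mem_of_mem_normalizer (hn k.2) w.2⟩
      map_one' := Subtype.ext (by simp)
      map_mul' := fun a b => Subtype.ext (by simp [mul_assoc]) }
  let χ : W →* ℤˣ := ∏ k : K, φ.comp (c k)
  have hχ : ∀ w, χ w = ∏ k : K, φ (c k w) := fun w => by simp [χ, MonoidHom.finsetProd_apply]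
  have hu' : χ ⟨u, hu⟩ = -1 := by
    rw [hχ, Finset.prod_congr rfl (g := fun _ => -1) fun k _ => (hφ _).2.2 (by
      change (k : G) * u * (k : G)⁻¹ ∉ M
      rwa [mem_centralizer_singleton_iff.1 (hc k.2), mul_inv_cancel_right]), Finset.prod_const, Finset.card_univ,
      ← Nat.card_eq_fintype_card, hK.neg_one_pow]
  refine ⟨χ.ker.map W.subtype, fun a ha => ⟨⟨a, hAW ha⟩, ?_, rfl⟩, map_subtype_le _, ?_, fun k hk =>
    pg_mem_normalizer_of_conj_mem ?_, fun w hw => ?_⟩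
  · rw [SetLike.mem_coe, MonoidHom.mem_ker, hχ]
    exact Finset.prod_eq_one fun k _ => (hφ _).1.2 (h1 (pg_conj_mem_of_mem_normalizer (hA k.2) ha))
  · rintro ⟨w, hw, e⟩
    rw [show w = ⟨u, hu⟩ from Subtype.ext e, SetLike.mem_coe, MonoidHom.mem_ker, hu'] at hw
    exact absurd hw (by decide)
  · rintro _ ⟨w, hw, rfl⟩
    refine ⟨c ⟨k, hk⟩ w, ?_, rfl⟩
    rw [SetLike.mem_coe, MonoidHom.mem_ker, hχ] at hw ⊢
    rw [← hw, ← Equiv.prod_comp (Equiv.mulRight (⟨k, hk⟩ : K)) fun l => φ (c l w)]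
    exact Finset.prod_congr rfl fun l _ => congrArg φ (Subtype.ext (by simp [c, mul_assoc]))
  · rcases Int.units_eq_one_or (χ ⟨w, hw⟩) with e | e
    · exact .inl ⟨⟨w, hw⟩, e, rfl⟩
    · exact .inr ⟨⟨u, hu⟩ * ⟨w, hw⟩, by rw [SetLike.mem_coe, MonoidHom.mem_ker, map_mul, hu', e]; simp, rfl⟩

/-- `f` is a homomorphism on `J` with kernel `J ∩ K` -/
structure QH {X : Type*} [Group X] (J K : Subgroup G) (f : G → X) : Prop where
  mul : ∀ x ∈ J, ∀ y ∈ J, f (x * y) = f x * f y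
  ker : ∀ x ∈ J, f x = 1 ↔ x ∈ K

theorem exists_QH {X : Type*} [Group X] {J K : Subgroup G} (φ : J →* X) (h : ∀ x, φ x = 1 ↔ (x : G) ∈ K) :
    ∃ f : G → X, QH J K f ∧ ∀ x : J, f x = φ x := by
  classical
  refine ⟨fun x => if h : x ∈ J then φ ⟨x, h⟩ else 1, ⟨fun x hx y hy => ?_, fun x hx => ?_⟩, fun x => by simp⟩
  · simp only [dif_pos hx, dif_pos hy, dif_pos (mul_mem hx hy)]; exact map_mul φ ⟨x, hx⟩ ⟨y, hy⟩
  · simp only [dif_pos hx]; exact h _

namespace QH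
variable {X : Type*} [Group X] {J K : Subgroup G} {f : G → X} (q : QH J K f) {x y : G}
include q

theorem one : f 1 = 1 := (q.ker 1 (one_mem _)).2 (one_mem _)

theorem inv (hx : x ∈ J) : f x⁻¹ = (f x)⁻¹ :=
  eq_inv_of_mul_eq_one_left (by rw [← q.mul _ (inv_mem hx) _ hx, inv_mul_cancel, q.one])

theorem pow (hx : x ∈ J) (n : ℕ) : f (x ^ n) = f x ^ n := by
  induction n with
  | zero => simpa using q.one
  | succ n ih => rw [pow_succ, q.mul _ (pow_mem hx n) _ hx, ih, pow_succ]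

theorem conj (hx : x ∈ J) (hy : y ∈ J) : f (x * y * x⁻¹) = f x * f y * (f x)⁻¹ := by
  rw [q.mul _ (mul_mem hx hy) _ (inv_mem hx), q.mul _ hx _ hy, q.inv hx]

theorem eq_iff (hx : x ∈ J) (hy : y ∈ J) : f x = f y ↔ x * y⁻¹ ∈ K := by
  rw [← q.ker _ (mul_mem hx (inv_mem hy)), q.mul _ hx _ (inv_mem hy), q.inv hy, mul_inv_eq_one]

theorem comm_iff (hx : x ∈ J) (hy : y ∈ J) : f x * f y = f y * f x ↔ ⁅x, y⁆ ∈ K := by
  rw [← q.mul _ hx _ hy, ← q.mul _ hy _ hx, q.eq_iff (mul_mem hx hy) (mul_mem hy hx), commutatorElement_def,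
    mul_inv_rev, mul_assoc (x * y)]

theorem sq_iff (hx : x ∈ J) : f x * f x = 1 ↔ x * x ∈ K := by rw [← q.mul _ hx _ hx, q.ker _ (mul_mem hx hx)]

theorem isInv_iff (hx : x ∈ J) : IsInv (f x) ↔ x ∉ K ∧ x * x ∈ K := by
  rw [IsInv, q.sq_iff hx, Ne, q.ker _ hx]

/-- image of a subgroup -/
def img (H : Subgroup G) (hH : H ≤ J) : Subgroup X where
  carrier := {z | ∃ x ∈ H, f x = z}
  one_mem' := ⟨1, one_mem _, q.one⟩
  mul_mem' := by rintro _ _ ⟨x, hx, rfl⟩ ⟨y, hy, rfl⟩; exact ⟨_, mul_mem hx hy, q.mul _ (hH hx) _ (hH hy)⟩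
  inv_mem' := by rintro _ ⟨x, hx, rfl⟩; exact ⟨_, inv_mem hx, q.inv (hH hx)⟩

/-- preimage of a subgroup -/
def pre (Y : Subgroup X) : Subgroup G where
  carrier := {x | x ∈ J ∧ f x ∈ Y}
  one_mem' := ⟨one_mem _, by rw [q.one]; exact one_mem _⟩
  mul_mem' := fun a b => ⟨mul_mem a.1 b.1, by rw [q.mul _ a.1 _ b.1]; exact mul_mem a.2 b.2⟩
  inv_mem' := fun a => ⟨inv_mem a.1, by rw [q.inv a.1]; exact inv_mem a.2⟩

end QH

variable (Ω) in
/-- the common setting -/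
structure BH (t r : G) (N : Subgroup G) (D : Set G) : Prop where
  inv : IsInv t
  rt : r = t ∨ r * r = t
  two : Two Ω r
  NC : N ≤ C1[t]
  Nr : N ≤ N[zpowers r]
  fix2 : ∀ P : Subgroup G, IsPGroup 2 P → ∃ a : Ω, ∀ x ∈ P, x • a = a
  mem : ∀ d ∈ D, d ∈ N
  comm : ∀ d ∈ D, Commute d r
  sq : ∀ d ∈ D, d * d = 1 ∨ d * d = t
  nm : ∀ d ∈ D, d ∉ zpowers r
  one : ∀ d ∈ D, One Ω r d
  sat : ∀ d ∈ D, d * r ∈ D
  conj : ∀ d ∈ D, ∀ g ∈ N, g * d * g⁻¹ ∈ D
  prod : ∀ x ∈ D, ∀ y ∈ D, ⁅x, y⁆ ∈ zpowers r → x * y ∉ zpowers r → x * y ∈ D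
  ex : ∀ a : Ω, r • a = a → ∃ d ∈ D, d • a = a

/-- `⟨D⟩/⟨r⟩` contains a four-group -/
def Rk (r : G) (D : Set G) : Prop := ∃ x ∈ D, ∃ y ∈ D, ⁅x, y⁆ ∈ zpowers r ∧ x * y ∉ zpowers r

theorem fix_of_zp {r ρ : G} (h : ρ ∈ zpowers r) {a : Ω} (ha : r • a = a) : ρ • a = a :=
  zpowers_le.2 (mem_stabilizer_iff.2 ha) h

namespace BH
variable {t r : G} {N : Subgroup G} {D : Set G} (h : BH Ω t r N D)
include h

theorem t_zp : t ∈ zpowers r := by
  rcases h.rt with e | e <;> rw [← e]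
  exacts [mem_zpowers r, mul_mem (mem_zpowers r) (mem_zpowers r)]

theorem tz_le : zpowers t ≤ zpowers r := zpowers_le.2 h.t_zp

theorem sq_zt {d : G} (hd : d ∈ D) : d * d ∈ zpowers t := (mem_zp h.inv).2 (h.sq d hd)

theorem r4 : r ^ 4 = 1 := by
  rw [show r ^ 4 = r * r * (r * r) by simp [pow_succ, mul_assoc]]
  rcases h.rt with e | e
  · rw [e, h.inv.2, one_mul]
  · rw [e, h.inv.2]

theorem p2 : IsPGroup 2 (zpowers r) := fun ⟨x, hx⟩ => ⟨2, Subtype.ext (by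
  obtain ⟨n, rfl⟩ := mem_zpowers_iff.1 hx
  change (r ^ n) ^ 4 = 1
  rw [← zpow_natCast, ← zpow_mul, mul_comm, zpow_mul, zpow_natCast, h.r4, one_zpow])⟩

theorem zp_cases {ρ : G} (hρ : ρ ∈ zpowers r) : ρ ∈ zpowers t ∨ (r * r = t ∧ ρ * ρ = t ∧ r * ρ ∈ zpowers t) := by
  rcases h.rt with e | e
  · exact .inl (e ▸ hρ)
  obtain ⟨n, rfl⟩ := mem_zpowers_iff.1 hρ
  have k : ∀ k : ℤ, r ^ (2 * k) ∈ zpowers t := fun k => by
    rw [zpow_mul, zpow_ofNat, pow_two, e]; exact zpow_mem (mem_zpowers t) k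
  rcases Int.even_or_odd' n with ⟨m, rfl | rfl⟩
  · exact .inl (k m)
  · refine .inr ⟨e, ?_, ?_⟩
    · rw [← zpow_add, show 2 * m + 1 + (2 * m + 1) = 4 * m + 2 by ring, zpow_add, zpow_mul, zpow_ofNat, h.r4,
        one_zpow, one_mul, zpow_ofNat, pow_two, e]
    · rw [← zpow_one_add, show 1 + (2 * m + 1) = 2 * (m + 1) by ring]; exact k _

theorem zp_sq {ρ : G} (hρ : ρ ∈ zpowers r) (e : ρ * ρ = 1) : ρ ∈ zpowers t :=
  (h.zp_cases hρ).elim id fun k => absurd (k.2.1.symm.trans e) h.inv.1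

theorem JN : closure D ≤ N := (closure_le _).2 h.mem

theorem Jc : closure D ≤ C1[r] := (closure_le _).2 fun d hd => mem_centralizer_singleton_iff.2 (h.comm d hd).eq

theorem exD : ∃ d, d ∈ D := let ⟨a, _, _, ha, _⟩ := h.two; let ⟨d, hd, _⟩ := h.ex a ha; ⟨d, hd⟩

theorem rJ : r ∈ closure D := by
  obtain ⟨d, hd⟩ := h.exD
  simpa using mul_mem (inv_mem (subset_closure hd)) (subset_closure (h.sat d hd))

theorem zJ : zpowers r ≤ closure D := zpowers_le.2 h.rJ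

theorem cz {x ρ : G} (hx : x ∈ closure D) (hρ : ρ ∈ zpowers r) : x * ρ = ρ * x := by
  obtain ⟨n, rfl⟩ := mem_zpowers_iff.1 hρ
  exact ((show Commute x r from mem_centralizer_singleton_iff.1 (h.Jc hx)).zpow_right n).eq

theorem cj {g x : G} (hg : g ∈ N) (hx : x ∈ closure D) : g * x * g⁻¹ ∈ closure D := by
  induction hx using closure_induction with
  | mem d hd => exact subset_closure (h.conj d hd g hg)
  | one => simp
  | mul a b _ _ ha hb => rw [← conj_mul]; exact mul_mem ha hb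
  | inv a _ ha => rw [← conj_inv]; exact inv_mem ha

theorem Jn : N ≤ N[closure D] := fun g hg => mem_normalizer_iff.2 fun x =>
  ⟨h.cj hg, fun hx => by simpa [mul_assoc] using h.cj (inv_mem hg) hx⟩

theorem fix_smul {g : G} (hg : g ∈ N) {a : Ω} (ha : r • a = a) : r • g • a = g • a := by
  have := fix_of_zp (pg_conj_inv_mem_of_mem_normalizer (h.Nr hg) (mem_zpowers r)) ha
  rw [mul_smul, mul_smul, inv_smul_eq_iff] at this
  exact this

theorem exists_ne {a : Ω} (_ : r • a = a) : ∃ b, r • b = b ∧ b ≠ a := by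
  obtain ⟨b, c, e, hb, hc⟩ := h.two
  by_cases h1 : b = a
  · exact ⟨c, hc, fun e' => e (h1.trans e'.symm)⟩
  · exact ⟨b, hb, h1⟩

theorem not_Kr {d : G} (hd : d ∈ D) : d ∉ Kr Ω N r := fun hk => by
  obtain ⟨a, b, e, ha, hb⟩ := h.two
  exact e (h.one d hd a b ha hb ((mem_Kr.1 hk).2 a ha) ((mem_Kr.1 hk).2 b hb))

theorem zp_Kr : zpowers r ≤ Kr Ω N r := fun _ hρ => mem_Kr.2 ⟨h.JN (h.zJ hρ), fun _ ha => fix_of_zp hρ ha⟩

theorem Kn : N ≤ N[Kr Ω N r] := by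
  have k : ∀ g ∈ N, ∀ x ∈ Kr Ω N r, g * x * g⁻¹ ∈ Kr Ω N r := fun g hg x hx => mem_Kr.2
    ⟨mul_mem (mul_mem hg (mem_Kr.1 hx).1) (inv_mem hg), fun a ha => by
      rw [mul_smul, mul_smul, (mem_Kr.1 hx).2 _ (h.fix_smul (inv_mem hg) ha), smul_inv_smul]⟩
  exact fun g hg => mem_normalizer_iff.2 fun x =>
    ⟨k g hg x, fun hx => by simpa [mul_assoc] using k _ (inv_mem hg) _ hx⟩

theorem exists_bar : ∃ (X : Type u) (_ : Group X) (f : G → X), QH (closure D) (zpowers r) f ∧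
    (∀ z, ∃ x ∈ closure D, f x = z) := by
  have := normal_zp h.Jc
  obtain ⟨f, h1, h2⟩ := exists_QH (QuotientGroup.mk' ((zpowers r).subgroupOf (closure D)))
    (K := zpowers r) fun x => QuotientGroup.eq_one_iff x
  refine ⟨_, _, f, h1, fun z => ?_⟩
  obtain ⟨x, rfl⟩ := QuotientGroup.mk'_surjective _ z
  exact ⟨x, x.2, h2 x⟩

/-- the image of `D` in `J/⟨r⟩` consists of involutions -/
theorem isInv_bar {X : Type*} [Group X] {f : G → X} (q : QH (closure D) (zpowers r) f) {d : G} (hd : d ∈ D) :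
    IsInv (f d) := (q.isInv_iff (subset_closure hd)).2 ⟨h.nm d hd, h.tz_le (h.sq_zt hd)⟩

omit h in
theorem finite_bar [Finite G] {X : Type*} {f : G → X} {J : Subgroup G} (on : ∀ z, ∃ x ∈ J, f x = z) : Finite X :=
  Finite.of_surjective f fun z => let ⟨x, _, e⟩ := on z; ⟨x, e⟩

theorem sat_zp [Finite G] {d ρ : G} (hd : d ∈ D) (hρ : ρ ∈ zpowers r) : d * ρ ∈ D := by
  obtain ⟨n, rfl⟩ := exists_pow_eq_of_mem_zpowers hρ
  induction n with
  | zero => simpa using hd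
  | succ n ih => rw [pow_succ, ← mul_assoc]; exact h.sat _ (ih (pow_mem (mem_zpowers r) n))

variable [Finite G]

/-- theorem ZD: the involutions of `J/⟨r⟩` come from `D` -/
theorem pure {y : G} (hy : y ∈ closure D) (h1 : y ∉ zpowers r) (h2 : y * y ∈ zpowers r) : y ∈ D := by
  obtain ⟨X, _, f, q, on⟩ := h.exists_bar
  have := finite_bar on
  obtain ⟨α, -, -, hα, -⟩ := h.two
  let M := q.img (closure D ⊓ stabilizer G α) inf_le_left
  have hM : ∀ x ∈ closure D, f x ∈ M ↔ x • α = α := fun x hx => by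
    refine ⟨?_, fun e => ⟨x, ⟨hx, e⟩, rfl⟩⟩
    rintro ⟨z, hz, e⟩
    have := fix_of_zp ((q.eq_iff hz.1 hx).1 e) hα
    rw [mul_smul, ← eq_inv_smul_iff, inv_smul_eq_iff.2 (mem_stabilizer_iff.1 hz.2).symm, inv_smul_eq_iff] at this
    exact this.symm
  have top : ∀ x ∈ closure D, f x ∈ closure (f '' D) := fun x hx => by
    induction hx using closure_induction with
    | mem d hd => exact subset_closure ⟨_, hd, rfl⟩
    | one => rw [q.one]; exact one_mem _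
    | mul a b a' b' ha hb => rw [q.mul _ a' _ b']; exact mul_mem ha hb
    | inv a a' ha => rw [q.inv a']; exact inv_mem ha
  have key := Big.zd_pure (M := M) (D := f '' D) (fun e => ?_) ?_ ?_ ?_ ?_ ?_ _ (top y hy)
    ((q.isInv_iff hy).2 ⟨h1, h2⟩).orderOf_eq
  · obtain ⟨d, hd, e⟩ := key
    have := h.sat_zp hd ((q.eq_iff hy (subset_closure hd)).1 e.symm)
    rwa [h.cz (subset_closure hd) ((q.eq_iff hy (subset_closure hd)).1 e.symm), inv_mul_cancel_right] at this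
  · obtain ⟨β, hβ, ne⟩ := h.exists_ne hα
    obtain ⟨d, hd, dβ⟩ := h.ex β hβ
    exact ne (h.one d hd _ _ hβ hα dβ ((hM d (subset_closure hd)).1 (e ▸ mem_top _)))
  · rintro _ ⟨d, hd, rfl⟩; exact (h.isInv_bar q hd).orderOf_eq
  · rintro _ ⟨d, hd, rfl⟩ g
    obtain ⟨g, hg, rfl⟩ := on g
    exact ⟨g * d * g⁻¹, h.conj d hd g (h.JN hg), q.conj hg (subset_closure hd)⟩
  · obtain ⟨d, hd, dα⟩ := h.ex α hα
    exact ⟨_, ⟨d, hd, rfl⟩, (hM _ (subset_closure hd)).2 dα⟩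
  · rintro _ ⟨d, hd, rfl⟩ h1 g h2
    obtain ⟨g, hg, rfl⟩ := on g
    have hd' := h.conj d hd g (h.JN hg)
    rw [← q.conj hg (subset_closure hd)] at h2
    exact (hM g hg).2 (h.one _ hd' _ _ (h.fix_smul (h.JN hg) hα) hα (fix_conj ((hM d (subset_closure hd)).1 h1))
      ((hM _ (subset_closure hd')).1 h2))
  · rintro _ ⟨x, hx, rfl⟩ _ ⟨z, hz, rfl⟩ - - ne hc
    have x' := subset_closure hx
    have z' := subset_closure hz
    refine ⟨x * z, h.prod x hx z hz ((q.comm_iff x' z').1 hc.eq) fun e => ne ?_, q.mul _ x' _ z'⟩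
    have := (q.ker _ (mul_mem x' z')).2 e
    rw [q.mul _ x' _ z'] at this
    rw [eq_inv_of_mul_eq_one_left this, (h.isInv_bar q hz).inv_eq]

/-- 2-elements of `J` fixing two points lie in `⟨r⟩` -/
theorem mem_of_two {y : G} (hy : y ∈ closure D) {i : ℕ} (hi : y ^ 2 ^ i = 1) {a b : Ω} (ha : r • a = a) (hb : r • b = b)
    (hab : a ≠ b) (ya : y • a = a) (yb : y • b = b) : y ∈ zpowers r := by
  by_contra hn
  obtain ⟨j, h1, h2⟩ := Bend.exists_pow_not_mem hn (p := 2) (n := i) (by rw [hi]; exact one_mem _)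
  exact hab (h.one _ (h.pure (pow_mem hy j) h1 (by rwa [← pow_two])) a b ha hb (pow_mem (mem_stabilizer_iff.2 ya) j)
    (pow_mem (mem_stabilizer_iff.2 yb) j))

theorem mem_of_Kr {y : G} (hy : y ∈ closure D) (hk : y ∈ Kr Ω N r) {i : ℕ} (hi : y ^ 2 ^ i = 1) : y ∈ zpowers r :=
  let ⟨a, b, e, ha, hb⟩ := h.two
  h.mem_of_two hy hi ha hb e ((mem_Kr.1 hk).2 a ha) ((mem_Kr.1 hk).2 b hb)

theorem ker {y : G} (hy : y ∈ closure D) (hk : y ∈ Kr Ω N r) : ∃ ρ ∈ zpowers r, ∃ o ∈ Oc (closure D), y = ρ * o :=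
  odd_dec h.Jc (Y := closure D ⊓ Kr Ω N r) inf_le_left (pg_le_normalizer_inf le_normalizer (h.JN.trans h.Kn)) h.p2
    (fun x hx h2 => by_contra fun h1 => h.not_Kr (h.pure hx.1 h1 h2) hx.2) ⟨hy, hk⟩

omit [Finite G] in
theorem On : N ≤ N[Oc (closure D)] := h.Jn.trans (normalizer_le_normalizer_pPrimeCoreOf _)

omit [Finite G] in
theorem zp_cO : zpowers r ≤ C[Oc (closure D)] := fun _ hρ =>
  mem_centralizer_iff.2 fun _ ho => h.cz (map_subtype_le _ ho) hρ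

theorem O_fix {x y : G} (hx : x ∈ N) (hy : y ∈ N) (x2 : x * x ∈ zpowers r) (y2 : y * y ∈ zpowers r)
    (hc : ⁅x, y⁆ ∈ zpowers r) (h1 : One Ω r x) (h2 : One Ω r y) (h3 : One Ω r (x * y)) {α : Ω} (hα : r • α = α)
    (xα : x • α = α) (yα : y • α = α) : Oc (closure D) ≤ stabilizer G α := by
  have k : ∀ z, One Ω r z → z • α = α → Oc (closure D) ⊓ C1[z] ≤ stabilizer G α := fun z h1 h2 o ho =>
    h1 _ _ (h.fix_smul (h.JN (map_subtype_le _ ho.1)) hα) hα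
      (fix_smul_of_comm h2 (mem_centralizer_singleton_iff.1 ho.2)) h2
  exact gen4 (odd_Oc _) (h.On hx) (h.On hy) (h.zp_cO x2) (h.zp_cO y2) (h.zp_cO hc) (k x h1 xα) (k y h2 yα)
    (k _ h3 (by rw [mul_smul, yα, xα]))

/-- in the case of rank one, two elements of `D` generating a 2-group agree modulo `⟨r⟩` -/
theorem uniq1 (hr : ¬ Rk r D) {P : Subgroup G} (hP : IsPGroup 2 P) {x y : G} (hx : x ∈ D) (hy : y ∈ D) (xP : x ∈ P)
    (yP : y ∈ P) : x * y ∈ zpowers r := by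
  obtain ⟨X, _, f, q, on⟩ := h.exists_bar
  have := finite_bar on
  by_contra hn
  have x' := subset_closure hx
  have y' := subset_closure hy
  have xy := mul_mem x' y'
  obtain ⟨m, h1, h2, h3⟩ := exists_central (h.isInv_bar q hx) (h.isInv_bar q hy) fun ho => by
    obtain ⟨i, hi⟩ := hP ⟨x * y, mul_mem xP yP⟩
    have e : (x * y) ^ 2 ^ i = 1 := congrArg Subtype.val hi
    rw [← q.mul _ x' _ y'] at ho
    refine hn ((q.ker _ xy).1 (mem_bot.1 (mem_of_odd_of_pow_two_pow ho (i := i) (mem_bot.2 ?_))))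
    rw [← q.pow xy, e, q.one]
  rw [← q.mul _ x' _ y', ← q.pow xy] at h1 h2 h3
  have z' := pow_mem xy m
  generalize (x * y) ^ m = z at h1 h2 h3 z'
  have hz : z ∈ D := h.pure z' ((q.isInv_iff z').1 h1).1 ((q.isInv_iff z').1 h1).2
  have k : ∀ c ∈ D, f z * f c = f c * f z → f z * f c = 1 := fun c hc e => by
    by_contra ne
    exact hr ⟨z, hz, c, hc, (q.comm_iff z' (subset_closure hc)).1 e, fun e => ne (by
      rw [← q.mul _ z' _ (subset_closure hc)]; exact (q.ker _ (mul_mem z' (subset_closure hc))).2 e)⟩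
  refine hn ((q.ker _ xy).1 ?_)
  rw [q.mul _ x' _ y', eq_inv_of_mul_eq_one_right (k x hx h2), eq_inv_of_mul_eq_one_right (k y hy h3), h1.inv_eq, h1.2]

/-- in the case of rank one, `D` is central modulo `⟨r⟩ O(J)` -/
theorem zstar1 (hr : ¬ Rk r D) {d g : G} (hd : d ∈ D) (hg : g ∈ closure D) :
    ∃ ρ ∈ zpowers r, ∃ o ∈ Oc (closure D), g * d * g⁻¹ * d⁻¹ = ρ * o := by
  obtain ⟨X, _, f, q, on⟩ := h.exists_bar
  have := finite_bar on
  have d' := subset_closure hd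
  have z := zstar (h.isInv_bar q hd).sq (fun k hc => by
    obtain ⟨k, hk, rfl⟩ := on k
    have hd' := h.conj d hd k (h.JN hk)
    have d'' := subset_closure hd'
    rw [← q.conj hk d'] at hc ⊢
    by_contra ne
    refine hr ⟨d, hd, _, hd', (q.comm_iff d' d'').1 hc.eq, fun e => ne ?_⟩
    have := (q.ker _ (mul_mem d' d'')).2 e
    rw [q.mul _ d' _ d''] at this
    rw [eq_inv_of_mul_eq_one_right this, (h.isInv_bar q hd).inv_eq]) (f g)
  have m := mul_mem (mul_mem hg d') (inv_mem hg)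
  refine odd_dec h.Jc (Y := q.pre (pPrimeCore 2 X)) (fun _ a => a.1)
    (fun k hk => pg_mem_normalizer_of_conj_mem fun y hy => ⟨mul_mem (mul_mem hk hy.1) (inv_mem hk), ?_⟩) h.p2
    (fun y hy h2 => ?_) ⟨mul_mem m (inv_mem d'), ?_⟩
  · rw [q.conj hk hy.1]; exact Normal.conj_mem inferInstance _ hy.2 _
  · by_contra h1
    exact ((q.isInv_iff hy.1).2 ⟨h1, h2⟩).not_mem_of_odd odd_card_oddCore hy.2
  · rwa [q.mul _ m _ (inv_mem d'), q.conj hg d', q.inv d']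

end BH

end Cfsg.Lib.TGC
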