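import Cfsg.Agent.Lib.TGC.Basic

/-! A permutation group normalizing a group all of whose involutions fix exactly one point. -/

set_option autoImplicit false

namespace Cfsg.Lib.TGC
open Subgroup MulAction Cfsg.Lib Cfsg.Lib.FT Cfsg.Lib.Bender Cfsg.Lib.ZD
open scoped commutatorElement

variable {X Λ : Type*} [Group X] [MulAction X Λ]

theorem conj_or_mem {x y : X} (hx : IsInv x) (hy : IsInv y) {H : Subgroup X} (h1 : x ∈ H) (h2 : y ∈ H) (m : ℕ) :
    ∃ g ∈ H, (x * y) ^ m * x = g * x * g⁻¹ ∨ (x * y) ^ m * x = g * y * g⁻¹ := by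
  have hi : x * (x * y) * x⁻¹ = (x * y)⁻¹ := h9_invol_inverts_left hx.2 hy.2
  rcases Nat.even_or_odd' m with ⟨j, rfl | rfl⟩
  · exact ⟨_, pow_mem (mul_mem h1 h2) j, Or.inl (pow_conj_of_inverts hi j).symm⟩
  · have hi' : x * y * x * (x * y) * (x * y * x)⁻¹ = (x * y)⁻¹ := by
      rw [show x * y * x * (x * y) * (x * y * x)⁻¹ = x * y * (x * (x * y) * x⁻¹) * (x * y)⁻¹ by
        group, hi]; group
    refine ⟨(x * y) ^ j * x, mul_mem (pow_mem (mul_mem h1 h2) j) h1, Or.inr ?_⟩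
    rw [pow_succ, mul_assoc, ← pow_conj_of_inverts hi', mul_inv_rev, hx.inv_eq]; group

theorem fix_of_conj {g x : X} {a : Λ} (h : (g * x * g⁻¹) • a = a) : x • g⁻¹ • a = g⁻¹ • a := by
  simpa [mul_assoc] using fix_conj (g := g⁻¹) h

variable (Λ) in
/-- `X` is faithful, the involutions of `J` fix at most one point and each point is fixed by one of them -/
structure PB (J : Subgroup X) : Prop where
  faith : ∀ g : X, (∀ a : Λ, g • a = a) → g = 1
  one : ∀ y ∈ J, IsInv y → ∀ a b : Λ, y • a = a → y • b = b → a = b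
  ex : ∀ a : Λ, ∃ y ∈ J, IsInv y ∧ y • a = a
  nt : ∃ a b : Λ, a ≠ b

/-- the Sylow 2-subgroup of the stabilizer of `α` in `J` -/
structure SS (J : Subgroup X) (α : Λ) (S : Subgroup X) : Prop where
  le : S ≤ J
  p2 : IsPGroup 2 S
  fix : ∀ s ∈ S, s • α = α
  mem : ∀ x ∈ J, x • α = α → ∀ i : ℕ, x ^ 2 ^ i = 1 → x ∈ S
  trans : ∀ b c : Λ, b ≠ α → c ≠ α → ∃ s ∈ S, s • b = c

variable [Finite X] {J S : Subgroup X} {α : Λ}

theorem exists_central {x y : X} (hx : IsInv x) (hy : IsInv y) (h : ¬ Odd (orderOf (x * y))) :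
    ∃ m : ℕ, IsInv ((x * y) ^ m) ∧ (x * y) ^ m * x = x * (x * y) ^ m ∧ (x * y) ^ m * y = y * (x * y) ^ m := by
  obtain ⟨m, -, h1, h2, h3⟩ := h9_central_invol_of_even hx.2 hy.2 (Nat.not_odd_iff_even.1 h)
  exact ⟨m, isInv_iff_orderOf.2 h1, h2.eq, h3.eq⟩

namespace PB
variable (h : PB Λ J)
include h

omit [Finite X] in
theorem fix_comm {y g : X} (hy : y ∈ J) (hi : IsInv y) {a : Λ} (ha : y • a = a) (hc : g * y = y * g) : g • a = a :=
  h.one y hy hi _ _ (fix_smul_of_comm ha hc) ha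

omit [Finite X] in
theorem exists_ne (a : Λ) : ∃ b, b ≠ a := by
  obtain ⟨b, c, e⟩ := h.nt
  by_cases hb : b = a
  · exact ⟨c, fun e' => e (hb.trans e'.symm)⟩
  · exact ⟨b, hb⟩

theorem fix {y : X} (hy : y ∈ J) (hi : IsInv y) : ∃ a : Λ, y • a = a := by
  obtain ⟨a, -, -⟩ := h.nt
  obtain ⟨d, hd, di, da⟩ := h.ex a
  by_cases ho : Odd (orderOf (y * d))
  · obtain ⟨k, hk⟩ := h9_conj_of_odd hi.2 di.2 ho
    exact ⟨_, fix_of_conj (hk ▸ da)⟩
  · obtain ⟨m, h1, h2, h3⟩ := exists_central hi di ho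
    exact ⟨a, h.fix_comm (pow_mem (mul_mem hy hd) m) h1 (h.fix_comm hd di da h3) h2.symm⟩

theorem odd_mul {x y : X} (hx : x ∈ J) (hy : y ∈ J) (xi : IsInv x) (yi : IsInv y) {a b : Λ} (ha : x • a = a)
    (hb : y • b = b) (hab : a ≠ b) : Odd (orderOf (x * y)) := by
  by_contra ho
  obtain ⟨m, h1, h2, h3⟩ := exists_central xi yi ho
  exact hab (h.one _ (pow_mem (mul_mem hx hy) m) h1 _ _ (h.fix_comm hx xi ha h2) (h.fix_comm hy yi hb h3))

/-- two involutions of `J ∩ H` with the same fixed point `a` are conjugate in `J ∩ H` if `H` has an involution of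
`J` fixing another point -/
theorem conj_in {H : Subgroup X} {x y d : X} (hx : x ∈ J) (hy : y ∈ J) (hd : d ∈ J) (xH : x ∈ H) (yH : y ∈ H)
    (dH : d ∈ H) (xi : IsInv x) (yi : IsInv y) (di : IsInv d) {a b : Λ} (ha : x • a = a) (ha' : y • a = a)
    (hb : d • b = b) (hab : a ≠ b) : ∃ g ∈ J, g ∈ H ∧ g • a = a ∧ g * x * g⁻¹ = y := by
  obtain ⟨k, hk⟩ := h9_conj_of_odd xi.2 di.2 (h.odd_mul hx hd xi di ha hb hab)
  obtain ⟨l, hl⟩ := h9_conj_of_odd di.2 yi.2 (h.odd_mul hd hy di yi hb ha' hab.symm)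
  have e : (d * y) ^ l * (x * d) ^ k * x * ((d * y) ^ l * (x * d) ^ k)⁻¹ = y := by
    rw [show (d * y) ^ l * (x * d) ^ k * x * ((d * y) ^ l * (x * d) ^ k)⁻¹ =
      (d * y) ^ l * ((x * d) ^ k * x * ((x * d) ^ k)⁻¹) * ((d * y) ^ l)⁻¹ by group, hk, hl]
  exact ⟨_, mul_mem (pow_mem (mul_mem hd hy) l) (pow_mem (mul_mem hx hd) k),
    mul_mem (pow_mem (mul_mem dH yH) l) (pow_mem (mul_mem xH dH) k), h.one y hy yi _ _ (by have := fix_conj (g := (d * y) ^ l * (x * d) ^ k) ha; rwa [e] at this) ha', e⟩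

theorem se : SE J Λ :=
  ⟨fun u hu => h.fix u.2 (isInv_coe.2 hu), fun u hu => h.one u u.2 (isInv_coe.2 hu)⟩

theorem dl (a : Λ) : a ∈ Dl Λ (⊤ : Subgroup J) :=
  let ⟨y, h1, h2, h3⟩ := h.ex a; ⟨⟨y, h1⟩, mem_top _, isInv_coe.1 h2, h3⟩

theorem tr (a b : Λ) : ∃ g ∈ J, g • a = b :=
  let ⟨g, _, e⟩ := h.se.exists_smul_eq (h.dl a) (h.dl b); ⟨g, g.2, e⟩

/-- conjugation by the two-point stabilizer -/
theorem conj {x y : X} (hx : x ∈ J) (hy : y ∈ J) (xi : IsInv x) (yi : IsInv y) {a b : Λ} (ha : x • a = a)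
    (ha' : y • a = a) (hab : a ≠ b) : ∃ g ∈ J, g • a = a ∧ g • b = b ∧ g * x * g⁻¹ = y := by
  obtain ⟨k, hk, e⟩ := h.se.exists_conj (s := ⟨x, hx⟩) (s' := ⟨y, hy⟩) (h.dl b) hab
    ⟨mem_top _, isInv_coe.1 xi, ha⟩ ⟨mem_top _, isInv_coe.1 yi, ha'⟩
  exact ⟨k, k.2, hk.2.1, hk.2.2, congrArg Subtype.val e⟩

theorem exists_SS (hr : Rank2 J) (α : Λ) : ∃ S, SS J α S := by
  have hr' : Rank2 (⊤ : Subgroup J) := by
    obtain ⟨u, hu, v, hv, a, b, c, d⟩ := hr
    exact ⟨⟨u, hu⟩, mem_top _, ⟨v, hv⟩, mem_top _, isInv_coe.1 a, isInv_coe.1 b, fun e => c (congrArg Subtype.val e),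
      Subtype.ext d⟩
  obtain ⟨Q, hB⟩ := bend_all _ J Λ h.se ⊤ le_rfl hr' α (h.dl α)
  obtain ⟨β, hβ⟩ := h.exists_ne α
  refine ⟨Q.map J.subtype, map_subtype_le _, IsPGroup.map (fun q => ?_) _, ?_, fun x hx ha i hi => ?_, fun b c hb hc => ?_⟩
  · obtain ⟨i, hi⟩ := hB.pow q q.2
    exact ⟨i, Subtype.ext (Subtype.ext (h.faith _ fun a => (mem_kerD.1 hi).2 a (h.dl a)))⟩
  · rintro _ ⟨q, hq, rfl⟩; exact (hB.le hq).2
  · refine ⟨⟨x, hx⟩, hB.mem_of_pow h.se (h.dl β) hβ.symm (mem_top _) ha (i := i) ?_, rfl⟩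
    rw [show (⟨x, hx⟩ : J) ^ 2 ^ i = 1 from Subtype.ext hi]; exact one_mem _
  · obtain ⟨q, hq, e⟩ := hB.trans b (h.dl b) c (h.dl c) hb hc
    exact ⟨q, ⟨q, hq, rfl⟩, e⟩

end PB

namespace SS
variable (s : SS J α S)
include s

omit [Finite X] in
theorem inv_mem' {x : X} (hx : x ∈ J) (hi : x * x = 1) (ha : x • α = α) : x ∈ S := s.mem x hx ha 1 (by rwa [pow_one, sq])

theorem norm {g : X} (hg : g ∈ N[J]) (ha : g • α = α) : g ∈ N[S] := pg_mem_normalizer_of_conj_mem fun x hx => by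
  obtain ⟨i, hi⟩ := s.p2 ⟨x, hx⟩
  refine s.mem _ (pg_conj_mem_of_mem_normalizer hg (s.le hx)) (by simpa only [ha] using fix_conj (g := g) (s.fix x hx))
    i ?_
  rw [conj_pow, show x ^ 2 ^ i = 1 from congrArg Subtype.val hi]; group

omit [Finite X] in
theorem not_odd {x : X} (hx : x ∈ S) (h1 : x ≠ 1) : ¬ Odd (orderOf x) := fun ho => by
  obtain ⟨i, hi⟩ := s.p2 ⟨x, hx⟩
  exact h1 (mem_bot.1 (mem_of_odd_of_pow_two_pow ho (i := i) (mem_bot.2 (congrArg Subtype.val hi))))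

theorem reg (h : PB Λ J) {y : X} (hy : y ∈ S) {b : Λ} (hb : b ≠ α) (e : y • b = b) : y = 1 := by
  by_contra h1
  obtain ⟨u, hu, ui⟩ := exists_isInv_zpowers (s.not_odd hy h1)
  have := zpowers_le.2 hy hu
  exact hb (h.one u (s.le this) ui _ _ (zpowers_le.2 (mem_stabilizer_iff.2 e) hu) (s.fix u this))

theorem ne_bot (h : PB Λ J) : S ≠ ⊥ := fun e => by
  obtain ⟨y, h1, h2, h3⟩ := h.ex α
  exact h2.1 (mem_bot.1 (e ▸ s.inv_mem' h1 h2.2 h3))

/-- a 2-group normalizing `S` centralizes one of its involutions -/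
theorem exists_inv (h : PB Λ J) {A : Subgroup X} (hA : IsPGroup 2 A) (hn : A ≤ N[S]) :
    ∃ z ∈ S, IsInv z ∧ ∀ a ∈ A, a * z = z * a := by
  obtain ⟨z, h1, h2, h3⟩ := pg_exists_fixed_of_order_p s.p2 hA hn (s.ne_bot h)
  exact ⟨z, h1, isInv_iff_orderOf.2 h2, fun a ha => mem_centralizer_iff.1 h3 a ha⟩

theorem central (h : PB Λ J) {x y : X} (hx : x ∈ S) (hi : x * x = 1) (hy : y ∈ S) : x * y = y * x := by
  by_cases h1 : x = 1
  · simp [h1]
  obtain ⟨z, z1, z2, z3⟩ := s.exists_inv h s.p2 le_normalizer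
  obtain ⟨β, hβ⟩ := h.exists_ne α
  obtain ⟨g, g1, g2, -, rfl⟩ := h.conj (s.le z1) (s.le hx) z2 ⟨h1, hi⟩ (s.fix z z1) (s.fix x hx) hβ.symm
  have := z3 _ (pg_conj_inv_mem_of_mem_normalizer (s.norm (le_normalizer g1) g2) hy)
  calc g * z * g⁻¹ * y = g * (z * (g⁻¹ * y * g)) * g⁻¹ := by group
    _ = y * (g * z * g⁻¹) := by rw [← this]; group

theorem exists_two (h : PB Λ J) (hr : Rank2 J) : ∃ x ∈ S, ∃ y ∈ S, IsInv x ∧ IsInv y ∧ x ≠ y := by
  obtain ⟨u, hu, v, hv, a, b, c, d⟩ := hr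
  obtain ⟨β, hβ⟩ := h.fix hu a
  obtain ⟨g, hg, rfl⟩ := h.tr β α
  have hv' := h.fix_comm hu a hβ d.symm
  exact ⟨_, s.inv_mem' (mul_mem (mul_mem hg hu) (inv_mem hg)) (a.conj g).2 (fix_conj hβ), _,
    s.inv_mem' (mul_mem (mul_mem hg hv) (inv_mem hg)) (b.conj g).2 (fix_conj hv'), a.conj g, b.conj g,
    fun e => c (by simpa using e)⟩

theorem card5 (h : PB Λ J) {x y : X} (hx : x ∈ S) (hy : y ∈ S) (xi : IsInv x) (yi : IsInv y) (hne : x ≠ y)
    (all : ∀ z ∈ S, z = 1 ∨ z = x ∨ z = y ∨ z = x * y) : Nat.card Λ = 5 := by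
  obtain ⟨β, hβ⟩ := h.exists_ne α
  have inj : ∀ a ∈ S, ∀ b ∈ S, a ≠ b → a • β ≠ b • β := fun a ha b hb e e' =>
    e (eq_of_inv_mul_eq_one (s.reg h (mul_mem (inv_mem ha) hb) hβ (by rw [mul_smul, ← e', inv_smul_smul])))
  have na : ∀ a ∈ S, α ≠ a • β := fun a ha e => hβ (by rw [← inv_smul_smul a β, ← e, s.fix _ (inv_mem ha)])
  have xy := mul_mem hx hy
  have xyi := xi.mul_of_comm yi hne (s.central h hx xi.2 hy)
  have e : (Set.univ : Set Λ) = {α, (1 : X) • β, x • β, y • β, (x * y) • β} := by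
    refine (Set.eq_univ_of_forall fun c => ?_).symm
    by_cases hc : c = α
    · simp [hc]
    obtain ⟨z, hz, rfl⟩ := s.trans β c hβ hc
    rcases all z hz with rfl | rfl | rfl | rfl <;> simp
  have i1 := inj 1 (one_mem _) x hx xi.1.symm
  have i2 := inj 1 (one_mem _) y hy yi.1.symm
  have i3 := inj 1 (one_mem _) _ xy xyi.1.symm
  have i4 := inj x hx y hy hne
  have i5 := inj x hx _ xy (fun e => yi.1 (left_eq_mul.1 e))
  have i6 := inj y hy _ xy (fun e => xi.1 (right_eq_mul.1 e))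
  rw [← Set.ncard_univ, e, Set.ncard_insert_of_notMem (by
      simp only [Set.mem_insert_iff, Set.mem_singleton_iff, not_or]
      exact ⟨na 1 (one_mem _), na x hx, na y hy, na _ xy⟩),
    Set.ncard_insert_of_notMem (by simp only [Set.mem_insert_iff, Set.mem_singleton_iff, not_or]; exact ⟨i1, i2, i3⟩),
    Set.ncard_insert_of_notMem (by simp only [Set.mem_insert_iff, Set.mem_singleton_iff, not_or]; exact ⟨i4, i5⟩),
    Set.ncard_pair i6]

end SS

namespace PB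
variable (h : PB Λ J) (hr : Rank2 J)
include h hr

/-- an involution `c` with two fixed points is conjugate to `c y` for the involutions `y` of `C_J(c)` -/
theorem b1 {c y : X} (hc : c ∈ N[J]) (ci : IsInv c) {a b : Λ} (hab : a ≠ b) (ha : c • a = a) (hb : c • b = b)
    (hy : y ∈ J) (yi : IsInv y) (e : c * y = y * c) :
    ∃ a' b' : Λ, a' ≠ b' ∧ (c * y) • a' = a' ∧ (c * y) • b' = b' := by
  obtain ⟨α, hα⟩ := h.fix hy yi
  have cα := h.fix_comm hy yi hα e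
  obtain ⟨β, hβ, cβ⟩ : ∃ β, β ≠ α ∧ c • β = β := by
    by_cases h1 : a = α
    · exact ⟨b, fun e => hab (h1.trans e.symm), hb⟩
    · exact ⟨a, h1, ha⟩
  obtain ⟨S, s⟩ := h.exists_SS hr α
  obtain ⟨S', s'⟩ := h.exists_SS hr β
  obtain ⟨x, hx, hxc⟩ : ∃ x ∈ S, c * x ≠ x * c := by
    by_contra! hh
    refine ci.1 (h.faith c fun γ => ?_)
    by_cases h1 : γ = α
    · rw [h1, cα]
    obtain ⟨x, hx, rfl⟩ := s.trans β γ hβ h1
    exact fix_smul_of_comm cβ (hh x hx).symm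
  have m : c * (x * c * x⁻¹) ∈ S := by
    have := mul_mem (pg_conj_mem_of_mem_normalizer (s.norm hc cα) hx) (inv_mem hx)
    rwa [ci.inv_eq, show c * x * c * x⁻¹ = c * (x * c * x⁻¹) by group] at this
  obtain ⟨k, z1, z2, -⟩ := exists_central ci (ci.conj x) (s.not_odd m fun e => hxc (by
    have := eq_inv_of_mul_eq_one_right e
    rw [ci.inv_eq] at this
    conv_lhs => rw [← this]
    group))
  obtain ⟨g, hg⟩ : ∃ g : X, (c * (x * c * x⁻¹)) ^ k * c = g * c * g⁻¹ := by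
    obtain ⟨g, -, e | e⟩ := conj_or_mem ci (ci.conj x) (mem_top _) (mem_top _) k
    · exact ⟨g, e⟩
    · exact ⟨g * x, by rw [e]; group⟩
  have zS := pow_mem m k
  generalize (c * (x * c * x⁻¹)) ^ k = z at *
  obtain ⟨d, d1, d2, d3⟩ := s'.exists_inv h ci.isPGroup (zpowers_le.2 (s'.norm hc cβ))
  obtain ⟨l, -, l1, -, l2⟩ := h.conj_in (H := C1[c]) (s.le zS) hy (s'.le d1) (mem_centralizer_singleton_iff.2 z2)
    (mem_centralizer_singleton_iff.2 e.symm) (mem_centralizer_singleton_iff.2 (d3 c (mem_zpowers c)).symm) z1 yi d2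
    (s.fix z zS) hα (s'.fix d d1) hβ.symm
  have l3 := mem_centralizer_singleton_iff.1 l1
  have : c * y = l * g * c * (l * g)⁻¹ := by
    calc c * y = l * z * (l⁻¹ * (c * l) * l⁻¹) := by rw [e, ← l2]; group
      _ = l * (z * c) * l⁻¹ := by rw [← l3]; group
      _ = _ := by rw [hg]; group
  exact ⟨(l * g) • a, (l * g) • b, fun e => hab (smul_left_cancel _ e), this ▸ fix_conj ha, this ▸ fix_conj hb⟩

/-- an involution with one fixed point lies in `J` -/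
theorem f1 {c : X} (hc : c ∈ N[J]) (ci : IsInv c) {α : Λ} (hα : c • α = α)
    (h1 : ∀ a b : Λ, c • a = a → c • b = b → a = b) : c ∈ J := by
  obtain ⟨β, hβ⟩ := h.exists_ne α
  obtain ⟨y, hy, yi, yβ⟩ := h.ex β
  have yN : y ∈ N[J] := le_normalizer hy
  by_cases ho : Odd (orderOf (y * c))
  · obtain ⟨k, hk⟩ := h9_conj_of_odd yi.2 ci.2 ho
    exact hk ▸ pg_conj_mem_of_mem_normalizer (pow_mem (mul_mem yN hc) k) hy
  obtain ⟨m, z1, z2, z3⟩ := exists_central yi ci ho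
  have zβ := h.fix_comm hy yi yβ z2
  have zα := h1 _ _ (fix_smul_of_comm hα z3) hα
  obtain ⟨g, hg, e | e⟩ := conj_or_mem yi ci yN hc m
  · refine absurd (h.one _ ?_ z1 _ _ zβ zα) hβ
    exact mul_inv_cancel_right ((y * c) ^ m) y ▸ mul_mem (e ▸ pg_conj_mem_of_mem_normalizer hg hy) (inv_mem hy)
  · obtain ⟨a, b, h2, h3, h4⟩ := h.b1 hr (pow_mem (mul_mem yN hc) m) z1 hβ zβ zα hy yi z2
    rw [e] at h3 h4
    exact absurd (smul_left_cancel _ (h1 _ _ (fix_of_conj h3) (fix_of_conj h4))) h2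

/-- an involution with exactly three fixed points -/
theorem five {c : X} (hc : c ∈ N[J]) (c2 : c * c = 1) {α : Λ} (hα : c • α = α)
    (h3 : {a : Λ | c • a = a}.ncard = 3) : Nat.card Λ = 5 := by
  obtain ⟨S, s⟩ := h.exists_SS hr α
  obtain ⟨β, γ, hβ, cβ, all⟩ : ∃ β γ : Λ, β ≠ α ∧ c • β = β ∧ ∀ a, c • a = a → a = α ∨ a = β ∨ a = γ := by
    obtain ⟨x, y, z, h1, h2, h4, e⟩ := Set.ncard_eq_three.1 h3
    have k : ∀ a, c • a = a ↔ a = x ∨ a = y ∨ a = z := fun a => by simpa using Set.ext_iff.1 e a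
    rcases (k α).1 hα with rfl | rfl | rfl
    · exact ⟨y, z, h1.symm, (k y).2 (by simp), fun a => (k a).1⟩
    · exact ⟨x, z, h1, (k x).2 (by simp), fun a ha => by have := (k a).1 ha; tauto⟩
    · exact ⟨x, y, h2, (k x).2 (by simp), fun a ha => by have := (k a).1 ha; tauto⟩
  have ci : c⁻¹ = c := inv_eq_of_mul_eq_one_right c2
  have cp : IsPGroup 2 (zpowers c) := by
    by_cases h1 : c = 1
    · rw [h1, zpowers_one_eq_bot]; exact IsPGroup.of_bot
    · exact IsInv.isPGroup ⟨h1, c2⟩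
  have cS := s.norm hc hα
  have mv : ∀ x ∈ S, c * x * c⁻¹ = x → x ≠ 1 → x • β = γ := fun x hx e h1 => by
    rcases all (x • β) (fix_smul_of_comm cβ (mul_inv_eq_iff_eq_mul.1 e).symm) with h2 | h2 | h2
    · exact absurd (by rw [← inv_smul_smul x β, h2, s.fix _ (inv_mem hx)]) hβ
    · exact absurd (s.reg h hx hβ h2) h1
    · exact h2
  obtain ⟨z, z1, z2, z3⟩ := s.exists_inv h cp (zpowers_le.2 cS)
  have z4 : c * z * c⁻¹ = z := by rw [z3 c (mem_zpowers c)]; group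
  have U : ∀ x ∈ S, c * x * c⁻¹ = x → x = 1 ∨ x = z := fun x hx e => by
    refine or_iff_not_imp_left.2 fun h1 => eq_of_inv_mul_eq_one (s.reg h (mul_mem (inv_mem hx) z1) hβ ?_)
    rw [mul_smul, mv z z1 z4 z2.1, ← mv x hx e h1, inv_smul_smul]
  have cc : ∀ x : X, c * (c * x * c⁻¹) * c⁻¹ = x := fun x => by
    rw [ci, show c * (c * x * c) * c = (c * c) * x * (c * c) by group, c2]; group
  have act : ∀ x ∈ S, x * x = 1 → x ≠ 1 → x ≠ z → c * x * c⁻¹ = x * z := fun x hx x2 h1 h2 => by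
    have m := pg_conj_mem_of_mem_normalizer cS hx
    have xi : x⁻¹ = x := inv_eq_of_mul_eq_one_right x2
    rcases U _ (mul_mem hx m) (by
      rw [s.central h hx x2 m]; conv_rhs => rw [← cc x]
      rw [cc x]; conv_lhs => rw [← s.central h hx x2 m]
      conv_rhs => enter [2]; rw [← cc x]
      group) with e | e
    · exact absurd (U x hx (by rw [eq_inv_of_mul_eq_one_right e, xi])) (by tauto)
    · rw [← e, ← mul_assoc, x2, one_mul]
  obtain ⟨e, e1, e2, e3⟩ : ∃ e ∈ S, IsInv e ∧ e ≠ z := by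
    obtain ⟨x, hx, y, hy, xi, yi, ne⟩ := s.exists_two h hr
    by_cases h1 : x = z
    · exact ⟨y, hy, yi, fun e => ne (h1.trans e.symm)⟩
    · exact ⟨x, hx, xi, h1⟩
  have e4 := act e e1 e2.2 e2.1 e3
  have ze := s.central h z1 z2.2 e1
  let E := four z e z2 e2 ze
  have ES : E ≤ S := fun x hx => by
    rcases mem_four.1 hx with rfl | rfl | rfl | rfl
    exacts [one_mem _, z1, e1, mul_mem z1 e1]
  have E2 : ∀ x ∈ E, x * x = 1 := fun x hx => by
    rcases mem_four.1 hx with rfl | rfl | rfl | rfl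
    exacts [one_mul 1, z2.2, e2.2, (z2.mul_of_comm e2 e3.symm ze).2]
  have zE : ∀ x, x = 1 ∨ x = z → x ∈ E := fun x hx => mem_four.2 (by tauto)
  have eE : e ∈ E := mem_four.2 (by tauto)
  refine s.card5 h z1 e1 z2 e2 e3.symm fun x hx => mem_four.1 ((?_ : S ≤ E) hx)
  by_contra hn
  obtain ⟨y, hy, yE, -, hh⟩ := pg_exists_fixed_mod s.p2 cp (zpowers_le.2 cS) (lt_of_le_not_ge ES hn)
    (fun g hg => pg_mem_normalizer_of_conj_mem fun x hx => by
      rwa [← s.central h (ES hx) (E2 x hx) hg, mul_inv_cancel_right])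
    (zpowers_le.2 (pg_mem_normalizer_of_conj_mem fun x hx => by
      rcases mem_four.1 hx with rfl | rfl | rfl | rfl
      · simp
      · rw [z4]; exact hx
      · rw [e4]; exact mul_mem hx (zE z (.inr rfl))
      · rw [← conj_mul, z4, e4]; exact mul_mem (zE z (.inr rfl)) (mul_mem eE (zE z (.inr rfl)))))
  have aE := hh c (mem_zpowers c)
  have ea : c * y⁻¹ * c⁻¹ = y⁻¹ * ⁅y, c⁆ := by rw [commutatorElement_def]; group
  generalize ⁅y, c⁆ = a at aE ea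
  have a1 : c * a * c⁻¹ = a := by
    have := cc y⁻¹
    rw [ea, ← conj_mul, ea, mul_assoc, mul_eq_left] at this
    rw [eq_inv_of_mul_eq_one_right this, inv_eq_of_mul_eq_one_right (E2 a aE)]
  rcases U a (ES aE) a1 with rfl | rfl
  · exact yE (by simpa using inv_mem (zE _ (U _ (inv_mem hy) (by simpa using ea))))
  · have := zE _ (U _ (mul_mem (inv_mem hy) e1) (by
      rw [← conj_mul, ea, e4, ← ze, mul_assoc, ← mul_assoc a, z2.2, one_mul]))
    exact yE (by simpa using inv_mem (mul_mem this (inv_mem eE)))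

end PB

end Cfsg.Lib.TGC
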