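import Cfsg.Agent.Lib.TGC.BenH

/-! The action of `N` on the fixed points of `r`, and the Sylow part of the structure lemma. -/

set_option autoImplicit false

namespace Cfsg.Lib.TGC
open Subgroup MulAction Cfsg.Lib Cfsg.Lib.FT Cfsg.Lib.Bender Cfsg.Lib.ZD
open scoped commutatorElement

universe u

variable {G : Type u} {Ω : Type*} [Group G] [MulAction G Ω]

theorem QH.sylow [Finite G] {X : Type*} [Group X] {J K : Subgroup G} {f : G → X} (q : QH J K f) {U H : Subgroup G}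
    (hH : H ≤ J) (hU : IsSylowIn 2 U H) : IsSylowIn 2 (q.img U (hU.le.trans hH)) (q.img H hH) := by
  let φ : J →* X := { toFun := fun x => f x, map_one' := q.one, map_mul' := fun x y => q.mul _ x.2 _ y.2 }
  have e : ∀ (A : Subgroup G) (hA : A ≤ J), q.img A hA = (A.subgroupOf J).map φ := fun A hA => by
    ext z
    exact ⟨fun ⟨x, hx, e⟩ => ⟨⟨x, hA hx⟩, hx, e⟩, fun ⟨x, hx, e⟩ => ⟨x, hx, e⟩⟩
  rw [e, e]
  exact ((isSylowIn_subgroupOf_iff (hU.le.trans hH) hH).2 hU).map φ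

theorem exists_odd_part [Finite G] (y : G) : ∃ m i : ℕ, Odd m ∧ (y ^ m) ^ 2 ^ i = 1 := by
  obtain ⟨i, m, hm, e⟩ := Nat.exists_eq_two_pow_mul_odd (orderOf_pos y).ne'
  exact ⟨m, i, hm, by rw [← pow_mul, mul_comm, ← e, pow_orderOf_eq_one]⟩

variable (Ω) in
/-- the permutation representation of `N` on the fixed points of `r` -/
structure PR (r : G) (N : Subgroup G) (f : G → Equiv.Perm (fixedBy Ω r)) : Prop where
  q : QH N (Kr Ω N r) f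
  act : ∀ g ∈ N, ∀ a : fixedBy Ω r, ((f g • a : fixedBy Ω r) : Ω) = g • (a : Ω)

namespace PR
variable {r : G} {N : Subgroup G} {f : G → Equiv.Perm (fixedBy Ω r)} (p : PR Ω r N f)
include p

theorem eq_iff {g : G} (hg : g ∈ N) {a b : fixedBy Ω r} : f g • a = b ↔ g • (a : Ω) = b := by
  rw [Subtype.ext_iff, p.act g hg]

theorem one_iff {g : G} (hg : g ∈ N) : One Ω r g ↔ ∀ a b : fixedBy Ω r, f g • a = a → f g • b = b → a = b :=
  ⟨fun h a b ha hb => Subtype.ext (h a b a.2 b.2 ((p.eq_iff hg).1 ha) ((p.eq_iff hg).1 hb)), fun h a b ha hb h1 h2 =>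
    congrArg Subtype.val (h ⟨a, ha⟩ ⟨b, hb⟩ ((p.eq_iff hg).2 h1) ((p.eq_iff hg).2 h2))⟩

end PR

namespace BH
variable {t r : G} {N : Subgroup G} {D : Set G} (h : BH Ω t r N D)
include h

theorem exists_PR : ∃ f, PR Ω r N f := by
  let _ : MulAction N (fixedBy Ω r) :=
    { smul := fun g a => ⟨(g : G) • (a : Ω), h.fix_smul g.2 a.2⟩
      one_smul := fun a => Subtype.ext (one_smul G (a : Ω))
      mul_smul := fun g k a => Subtype.ext (mul_smul (g : G) k (a : Ω)) }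
  obtain ⟨f, h1, h2⟩ := exists_QH (toPermHom N (fixedBy Ω r)) (K := Kr Ω N r) fun x =>
    ⟨fun e => mem_Kr.2 ⟨x.2, fun a ha => congrArg Subtype.val (Equiv.ext_iff.1 e ⟨a, ha⟩)⟩,
      fun e => Equiv.ext fun a => Subtype.ext ((mem_Kr.1 e).2 a a.2)⟩
  exact ⟨f, h1, fun g hg a => by rw [h2 ⟨g, hg⟩]; rfl⟩

variable [Finite G] {f : G → Equiv.Perm (fixedBy Ω r)} (p : PR Ω r N f)
include p

omit [Finite G] in
theorem isInv_f {d : G} (hd : d ∈ D) : IsInv (f d) :=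
  (p.q.isInv_iff (h.mem d hd)).2 ⟨h.not_Kr hd, h.zp_Kr (h.tz_le (h.sq_zt hd))⟩

omit [Finite G] in
theorem f_zp {ρ : G} (hρ : ρ ∈ zpowers r) : f ρ = 1 := (p.q.ker _ (h.JN (h.zJ hρ))).2 (h.zp_Kr hρ)

theorem pb : PB (fixedBy Ω r) (p.q.img (closure D) h.JN) where
  faith := fun _ e => Equiv.ext e
  one := by
    rintro _ ⟨y, hy, rfl⟩ yi a b ha hb
    by_contra ne
    obtain ⟨m, i, ⟨k, rfl⟩, hi⟩ := exists_odd_part y
    have := h.f_zp p (h.mem_of_two (pow_mem hy _) hi a.2 b.2 (fun e => ne (Subtype.ext e))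
      (pow_mem (mem_stabilizer_iff.2 ((p.eq_iff (h.JN hy)).1 ha)) _)
      (pow_mem (mem_stabilizer_iff.2 ((p.eq_iff (h.JN hy)).1 hb)) _))
    rw [p.q.pow (h.JN hy), pow_succ, pow_mul, yi.sq, one_pow, one_mul] at this
    exact yi.1 this
  ex := fun a => let ⟨d, hd, e⟩ := h.ex a a.2
    ⟨f d, ⟨d, subset_closure hd, rfl⟩, h.isInv_f p hd, (p.eq_iff (h.mem d hd)).2 e⟩
  nt := let ⟨a, b, e, ha, hb⟩ := h.two; ⟨⟨a, ha⟩, ⟨b, hb⟩, fun e' => e (congrArg Subtype.val e')⟩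

omit [Finite G] in
theorem nJ {g : G} (hg : g ∈ N) : f g ∈ N[p.q.img (closure D) h.JN] := by
  have k : ∀ g ∈ N, ∀ x ∈ p.q.img (closure D) h.JN, f g * x * (f g)⁻¹ ∈ p.q.img (closure D) h.JN := by
    rintro g hg _ ⟨x, hx, rfl⟩; exact ⟨_, h.cj hg hx, p.q.conj hg (h.JN hx)⟩
  exact mem_normalizer_iff.2 fun x => ⟨k g hg x, fun hx => by
    simpa [mul_assoc, p.q.inv hg] using k _ (inv_mem hg) _ hx⟩

omit [Finite G] in
theorem rank2 (hr : Rk r D) : Rank2 (p.q.img (closure D) h.JN) := by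
  obtain ⟨x, hx, y, hy, h1, h2⟩ := hr
  refine ⟨f x, ⟨x, subset_closure hx, rfl⟩, f y, ⟨y, subset_closure hy, rfl⟩, h.isInv_f p hx, h.isInv_f p hy,
    fun e => (h.isInv_f p (h.prod x hx y hy h1 h2)).1 ?_, (p.q.comm_iff (h.mem x hx) (h.mem y hy)).2 (h.zp_Kr h1)⟩
  rw [p.q.mul _ (h.mem x hx) _ (h.mem y hy), e, (h.isInv_f p hy).2]

variable [Finite Ω]

theorem tr' {a b : Ω} (ha : r • a = a) (hb : r • b = b) : ∃ j ∈ closure D, j • a = b := by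
  obtain ⟨_, ⟨j, hj, rfl⟩, e⟩ := (h.pb p).tr ⟨a, ha⟩ ⟨b, hb⟩
  exact ⟨j, hj, (p.eq_iff (h.JN hj)).1 e⟩

omit p in
theorem tr {a b : Ω} (ha : r • a = a) (hb : r • b = b) : ∃ j ∈ closure D, j • a = b :=
  let ⟨_, p⟩ := h.exists_PR; h.tr' p ha hb

omit p in
/-- in the case of rank one `O(J)` is transitive -/
theorem rank1 (hr : ¬ Rk r D) {a b : Ω} (ha : r • a = a) (hb : r • b = b) : ∃ o ∈ Oc (closure D), o • b = a := by
  obtain ⟨f, p⟩ := h.exists_PR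
  obtain ⟨j, hj, rfl⟩ := h.tr ha hb
  obtain ⟨d, hd, da⟩ := h.ex a ha
  obtain ⟨ρ, hρ, o, ho, e⟩ := h.zstar1 hr hd hj
  have hd' := h.conj d hd j (h.JN hj)
  have oN := h.JN (map_subtype_le _ ho)
  have e1 : f (j * d * j⁻¹) * f d = f o := by
    have := congrArg f e
    rwa [p.q.mul _ (h.mem _ hd') _ (inv_mem (h.mem _ hd)), p.q.inv (h.mem _ hd), (h.isInv_f p hd).inv_eq,
      p.q.mul _ (h.JN (h.zJ hρ)) _ oN, h.f_zp p hρ, one_mul] at this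
  obtain ⟨k, hk⟩ := h9_conj_of_odd (h.isInv_f p hd').2 (h.isInv_f p hd).2 (by
    rw [e1]
    exact (odd_orderOf_of_mem (odd_Oc _) ho).of_dvd_nat (orderOf_dvd_of_pow_eq_one (by
      rw [← p.q.pow oN, pow_orderOf_eq_one, p.q.one])))
  rw [e1, ← p.q.pow oN] at hk
  have := fix_conj (g := f (o ^ k)) ((p.eq_iff (h.mem _ hd') (a := ⟨_, hb⟩) (b := ⟨_, hb⟩)).2 (fix_conj da))
  rw [hk, p.eq_iff (h.mem _ hd), p.act _ (pow_mem oN k)] at this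
  exact ⟨_, pow_mem ho k, h.one d hd _ _ (h.fix_smul (pow_mem oN k) hb) ha this da⟩

omit p in
theorem O_le (hr : Rk r D) : Oc (closure D) ≤ Kr Ω N r := by
  obtain ⟨f, p⟩ := h.exists_PR
  obtain ⟨x, hx, y, hy, h1, h2⟩ := hr
  obtain ⟨a, ha⟩ := (h.pb p).fix ⟨x, subset_closure hx, rfl⟩ (h.isInv_f p hx)
  have hb := (h.pb p).fix_comm ⟨x, subset_closure hx, rfl⟩ (h.isInv_f p hx) ha
    ((p.q.comm_iff (h.mem x hx) (h.mem y hy)).2 (h.zp_Kr h1)).symm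
  have := h.O_fix (h.mem x hx) (h.mem y hy) (h.tz_le (h.sq_zt hx)) (h.tz_le (h.sq_zt hy)) h1 (h.one x hx) (h.one y hy)
    (h.one _ (h.prod x hx y hy h1 h2)) a.2 ((p.eq_iff (h.mem x hx)).1 ha) ((p.eq_iff (h.mem y hy)).1 hb)
  refine fun o ho => mem_Kr.2 ⟨h.JN (map_subtype_le _ ho), fun b hb => ?_⟩
  obtain ⟨j, hj, rfl⟩ := h.tr a.2 hb
  exact Bender.fix_smul this (h.On (h.JN hj)) ho

end BH

variable (Ω) in
/-- the local setting: a Sylow subgroup `T` of `N` fixing `α` -/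
structure BL (t r : G) (N : Subgroup G) (D : Set G) (f : G → Equiv.Perm (fixedBy Ω r)) (T : Subgroup G)
    (α : fixedBy Ω r) (S : Subgroup (Equiv.Perm (fixedBy Ω r))) : Prop where
  h : BH Ω t r N D
  rk : Rk r D
  p : PR Ω r N f
  syl : IsSylowIn 2 T N
  fix : ∀ x ∈ T, x • (α : Ω) = α
  ss : SS (p.q.img (closure D) h.JN) α S

namespace BL
variable [Finite G] {t r : G} {N : Subgroup G} {D : Set G} {f : G → Equiv.Perm (fixedBy Ω r)} {T : Subgroup G}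
  {α : fixedBy Ω r} {S : Subgroup (Equiv.Perm (fixedBy Ω r))} (l : BL Ω t r N D f T α S)
include l

omit [Finite G] in
theorem rT : zpowers r ≤ T := l.syl.le_of_normalizes l.h.p2 (l.h.zJ.trans l.h.JN) (l.syl.le.trans l.h.Nr)

omit [Finite G] in
theorem rU : zpowers r ≤ T ⊓ closure D := le_inf l.rT l.h.zJ

theorem sylU : IsSylowIn 2 (T ⊓ closure D) (closure D) := l.syl.inf_of_le_normalizer l.h.JN l.h.Jn

omit [Finite G] in
theorem f_mem {x : G} (hx : x ∈ closure D) (ha : x • (α : Ω) = α) {i : ℕ} (hi : x ^ 2 ^ i = 1) : f x ∈ S :=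
  l.ss.mem _ ⟨x, hx, rfl⟩ ((l.p.eq_iff (l.h.JN hx)).2 ha) i (by rw [← l.p.q.pow (l.h.JN hx), hi, l.p.q.one])

omit [Finite G] in
theorem fU {y : G} (hy : y ∈ T ⊓ closure D) : f y ∈ S :=
  let ⟨_, hi⟩ := pow_eq_one_of_mem l.syl.isPGroup hy.1; l.f_mem hy.2 (l.fix y hy.1) hi

theorem Uf {s : Equiv.Perm (fixedBy Ω r)} (hs : s ∈ S) : ∃ y ∈ T ⊓ closure D, f y = s :=
  ((l.p.q.sylow l.h.JN l.sylU).maximal S l.ss.p2 l.ss.le (by rintro _ ⟨y, hy, rfl⟩; exact l.fU hy)).le hs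

theorem KU {y : G} (hy : y ∈ T ⊓ closure D) (hk : y ∈ Kr Ω N r) : y ∈ zpowers r :=
  let ⟨_, hi⟩ := pow_eq_one_of_mem l.syl.isPGroup hy.1; l.h.mem_of_Kr hy.2 hk hi

theorem two_el {x : G} (hx : x ∈ closure D) (ha : x • (α : Ω) = α) {i : ℕ} (hi : x ^ 2 ^ i = 1) :
    ∃ y ∈ T ⊓ closure D, x * y⁻¹ ∈ Oc (closure D) := by
  obtain ⟨y, hy, e⟩ := l.Uf (l.f_mem hx ha hi)
  obtain ⟨ρ, hρ, o, ho, e⟩ := l.h.ker (mul_mem hx (inv_mem hy.2)) ((l.p.q.eq_iff (l.h.JN hx) (l.h.JN hy.2)).1 e.symm)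
  refine ⟨ρ * y, mul_mem (l.rU hρ) hy, ?_⟩
  rwa [mul_inv_rev, ← mul_assoc, e, ← l.h.cz (map_subtype_le _ ho) hρ, mul_inv_cancel_right]

theorem nrm {g y : G} (hg : g ∈ N) (ha : g • (α : Ω) = α) (hy : y ∈ T ⊓ closure D) :
    ∃ y' ∈ T ⊓ closure D, g * y * g⁻¹ * y'⁻¹ ∈ Oc (closure D) := by
  obtain ⟨i, hi⟩ := pow_eq_one_of_mem l.syl.isPGroup hy.1
  exact l.two_el (l.h.cj hg hy.2) (by simpa only [ha] using fix_conj (g := g) (l.fix y hy.1)) (i := i)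
    (by rw [conj_pow, hi]; group)

omit [Finite G] in
theorem ct {x τ : G} (hx : x ∈ N) (hτ : τ ∈ zpowers t) : x * τ = τ * x := by
  rcases (mem_zp l.h.inv).1 hτ with rfl | rfl
  · simp
  · exact mem_centralizer_singleton_iff.1 (l.h.NC hx)

theorem sq_t {w : G} (hw : w ∈ closure D) (h2 : w * w ∈ zpowers r) : w * w ∈ zpowers t := by
  by_cases h1 : w ∈ zpowers r
  · rcases l.h.zp_cases h1 with k | k
    · exact mul_mem k k
    · rw [k.2.1]; exact mem_zpowers t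
  · exact l.h.sq_zt (l.h.pure hw h1 h2)

variable [Finite Ω]

theorem cenU {w y : G} (hw : w ∈ T ⊓ closure D) (h2 : w * w ∈ zpowers t) (hy : y ∈ T ⊓ closure D) :
    ⁅w, y⁆ ∈ zpowers t := by
  have wN := l.h.JN hw.2
  have yN := l.h.JN hy.2
  have h1 := l.KU (mul_mem (mul_mem (mul_mem hw hy) (inv_mem hw)) (inv_mem hy)) ((l.p.q.comm_iff wN yN).1
    (l.ss.central (l.h.pb l.p) (l.fU hw) ((l.p.q.sq_iff wN).2 (l.h.zp_Kr (l.h.tz_le h2))) (l.fU hy)))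
  refine l.h.zp_sq h1 ?_
  have e : w * y * w⁻¹ = ⁅w, y⁆ * y := by rw [commutatorElement_def]; group
  have e2 : w * (w * y * w⁻¹) * w⁻¹ = y := by
    rw [show w * (w * y * w⁻¹) * w⁻¹ = w * w * y * (w * w)⁻¹ by group, ← l.ct yN h2, mul_inv_cancel_right]
  change ⁅w, y⁆ ∈ _ at h1
  change ⁅w, y⁆ * ⁅w, y⁆ = 1
  generalize ⁅w, y⁆ = ρ at *
  rw [e, ← mul_assoc, l.h.cz hw.2 h1, mul_assoc, mul_assoc, ← mul_assoc w, e, ← mul_assoc] at e2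
  exact mul_eq_right.1 e2

theorem cen {w y : G} (hw : w ∈ T ⊓ closure D) (h2 : w * w ∈ zpowers t) (hy : y ∈ T ⊓ closure D) :
    w * y = y * w ∨ w * y = y * w * t := by
  have e : w * y = ⁅w, y⁆ * (y * w) := by rw [commutatorElement_def]; group
  rcases (mem_zp l.h.inv).1 (l.cenU hw h2 hy) with k | k <;> rw [k] at e
  · exact .inl (by simpa using e)
  · exact .inr (e.trans (l.ct (l.h.JN (mul_mem hy.2 hw.2)) (mem_zpowers t)).symm)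

/-- the preimage of `Ω₁(U/⟨r⟩)` -/
def W : Subgroup G where
  carrier := {w | w ∈ T ⊓ closure D ∧ w * w ∈ zpowers t}
  one_mem' := ⟨one_mem _, by simp⟩
  inv_mem' := fun a => ⟨inv_mem a.1, by rw [← mul_inv_rev]; exact inv_mem a.2⟩
  mul_mem' := fun {a b} ha hb => ⟨mul_mem ha.1 hb.1, by
    have e : a * b * (a * b) = a * ⁅b, a⁆ * a * (b * b) := by rw [commutatorElement_def]; group
    have k := l.cenU hb.1 hb.2 ha.1
    rw [e, l.ct (l.h.JN ha.1.2) k, mul_assoc _ a a]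
    exact mul_mem (mul_mem k ha.2) hb.2⟩

theorem mem_W {w : G} (hw : w ∈ T ⊓ closure D) (h2 : w * w ∈ zpowers r) : w ∈ l.W := ⟨hw, l.sq_t hw.2 h2⟩

theorem rW : zpowers r ≤ l.W := fun _ h => l.mem_W (l.rU h) (mul_mem h h)

theorem isInv_W {w : G} (hw : w ∈ l.W) (h1 : w ∉ zpowers r) : IsInv (f w) :=
  l.h.isInv_f l.p (l.h.pure hw.1.2 h1 (l.h.tz_le hw.2))

/-- the torus -/
theorem exists_torus : ∃ K : Subgroup G, Odd (Nat.card K) ∧ K ≤ closure D ∧ K ≤ N[l.W] ∧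
    ∀ x ∈ l.W, ∀ y ∈ l.W, x ∉ zpowers r → y ∉ zpowers r → ∃ k ∈ K, ∃ ρ ∈ zpowers r, k * x * k⁻¹ = y * ρ := by
  obtain ⟨β, hβ⟩ := (l.h.pb l.p).exists_ne α
  let K₀ := closure D ⊓ N[T ⊓ closure D] ⊓ st2 G (α : Ω) β
  have le : Oc K₀ ≤ K₀ := map_subtype_le _
  refine ⟨Oc K₀, odd_Oc _, fun k hk => (le hk).1.1, fun k hk => mem_N_of fun w hw => ⟨conj_mem (le hk).1.2 hw.1, ?_⟩,
    fun x hx y hy x1 y1 => ?_⟩
  · rw [conj_mul, l.ct (l.h.JN (le hk).1.1) hw.2, mul_inv_cancel_right]; exact hw.2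
  obtain ⟨_, ⟨g, hg, rfl⟩, g1, g2, g3⟩ := (l.h.pb l.p).conj ⟨x, hx.1.2, rfl⟩ ⟨y, hy.1.2, rfl⟩ (l.isInv_W hx x1)
    (l.isInv_W hy y1) (l.ss.fix _ (l.fU hx.1)) (l.ss.fix _ (l.fU hy.1)) hβ.symm
  have gN := l.h.JN hg
  rw [l.p.eq_iff gN] at g1 g2
  have OJ : Oc (closure D) ≤ closure D := map_subtype_le _
  have UO : T ⊓ closure D ≤ N[Oc (closure D)] := inf_le_right.trans (l.h.JN.trans l.h.On)
  obtain ⟨k, hk, hn⟩ := (l.sylU.mono (L := Oc (closure D) ⊔ T ⊓ closure D) le_sup_right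
    (sup_le OJ inf_le_right)).exists_mul_mem_normalizer (g := g) (mem_N_of fun z hz => by
      obtain ⟨o, ho, u, hu, rfl⟩ := (pg_mem_sup_of_le_normalizer_left UO).1 hz
      obtain ⟨u', hu', e⟩ := l.nrm gN g1 hu
      rw [show g * (o * u) * g⁻¹ = g * o * g⁻¹ * (g * u * g⁻¹ * u'⁻¹) * u' by group]
      exact mul_mem (mem_sup_left (mul_mem (conj_mem (l.h.On gN) ho) e)) (mem_sup_right hu'))
  obtain ⟨o, ho, u, hu, rfl⟩ := (pg_mem_sup_of_le_normalizer_left UO).1 hk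
  have oK := inv_mem (l.h.O_le l.rk ho)
  have nK : o⁻¹ * g ∈ K₀ := mem_inf.2 ⟨mem_inf.2 ⟨mul_mem (inv_mem (OJ ho)) hg, mem_of_mem_of_eq
    (mul_mem (le_normalizer hu) hn) (by group)⟩, mem_st2.2 ⟨by rw [mul_smul, g1, (mem_Kr.1 oK).2 _ α.2],
    by rw [mul_smul, g2, (mem_Kr.1 oK).2 _ β.2]⟩⟩
  obtain ⟨ρ, hρ, k, hk, e⟩ := odd_dec (J := K₀) (Y := K₀) (fun z hz => l.h.Jc hz.1.1) le_rfl le_normalizer l.h.p2
    (fun z hz h2 => by_contra fun h1 => hβ (Subtype.ext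
      (l.h.one z (l.h.pure hz.1.1 h1 h2) _ _ β.2 α.2 hz.2.2 hz.2.1))) nK
  have m := conj_mem nK.1.2 hx.1
  have nN := l.h.JN nK.1.1
  have e1 : f (o⁻¹ * g * x * (o⁻¹ * g)⁻¹) = f y := by
    rw [l.p.q.conj nN (l.h.JN hx.1.2), l.p.q.mul _ (mem_Kr.1 oK).1 _ gN, (l.p.q.ker _ (mem_Kr.1 oK).1).2 oK, one_mul, g3]
  have h1 := l.KU (mul_mem m (inv_mem hy.1)) ((l.p.q.eq_iff (l.h.JN m.2) (l.h.JN hy.1.2)).1 e1)
  refine ⟨k, hk, _, h1, ?_⟩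
  have kJ := (le hk).1.1
  rw [l.h.cz hy.1.2 h1, inv_mul_cancel_right, e, show ρ * k * x * (ρ * k)⁻¹ = ρ * (k * x * k⁻¹) * ρ⁻¹ by group,
    ← l.h.cz (mul_mem (mul_mem kJ hx.1.2) (inv_mem kJ)) hρ, mul_inv_cancel_right]

/-- the invariant complement `Q` -/
theorem exists_Q : ∃ Q : Subgroup G, zpowers t ≤ Q ∧ Q ≤ l.W ∧ (∀ q ∈ Q, q ∈ zpowers r → q ∈ zpowers t) ∧
    (∀ w ∈ l.W, ∃ ρ ∈ zpowers r, ∃ q ∈ Q, w = ρ * q) ∧
    ∀ x ∈ Q, ∀ y ∈ Q, x ∉ zpowers t → y ∉ zpowers t → ∃ k ∈ closure D, Odd (orderOf k) ∧ k ∈ N[Q] ∧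
      (k * x * k⁻¹ = y ∨ k * x * k⁻¹ = y * t) := by
  obtain ⟨K, K1, K2, K3, K4⟩ := l.exists_torus
  obtain ⟨Q, Q1, Q2, Q3, Q4, Q5⟩ : ∃ Q : Subgroup G, zpowers t ≤ Q ∧ Q ≤ l.W ∧
      (∀ q ∈ Q, q ∈ zpowers r → q ∈ zpowers t) ∧ (∀ w ∈ l.W, ∃ ρ ∈ zpowers r, ∃ q ∈ Q, w = ρ * q) ∧ K ≤ N[Q] := by
    have tW := l.h.tz_le.trans l.rW
    by_cases e : r ∈ zpowers t
    · exact ⟨l.W, tW, le_rfl, fun q _ hq => zpowers_le.2 e hq, fun w hw => ⟨1, one_mem _, w, hw, (one_mul w).symm⟩, K3⟩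
    obtain ⟨Q, Q1, Q2, Q3, Q4, Q5⟩ := exists_inv_half K1 K3 (fun k hk => mem_N_zp_of_comm
      (l.ct (l.h.JN (K2 hk)) (mem_zpowers t))) tW (fun x hx => hx.2) (l.rW (mem_zpowers r)) e (K2.trans l.h.Jc)
    refine ⟨Q, Q1, Q2, fun q hq h1 => (l.h.zp_cases h1).elim id fun k => absurd ?_ Q3, fun w hw => ?_, Q4⟩
    · simpa using mul_mem (Q1 k.2.2) (inv_mem hq)
    · rcases Q5 w hw with k | k
      · exact ⟨1, one_mem _, w, k, (one_mul w).symm⟩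
      · exact ⟨r⁻¹, inv_mem (mem_zpowers r), _, k, by group⟩
  refine ⟨Q, Q1, Q2, Q3, Q4, fun x hx y hy x1 y1 => ?_⟩
  obtain ⟨k, hk, ρ, hρ, e⟩ := K4 x (Q2 hx) y (Q2 hy) (fun k => x1 (Q3 x hx k)) fun k => y1 (Q3 y hy k)
  refine ⟨k, K2 hk, odd_orderOf_of_mem K1 hk, Q5 hk, ?_⟩
  have : ρ ∈ Q := mem_of_mem_of_eq (mul_mem (inv_mem hy) (conj_mem (Q5 hk) hx)) (by rw [e]; group)
  rcases (mem_zp l.h.inv).1 (Q3 ρ this hρ) with rfl | rfl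
  · exact .inl (by simpa using e)
  · exact .inr e

end BL

end Cfsg.Lib.TGC
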