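import Cfsg.Agent.Lib.TGC.Basic
import Cfsg.Agent.Lib.JK.Quat

/-! Elementwise facts on square roots of an involution and fixed points. -/

set_option autoImplicit false

namespace Cfsg.Lib.TGC.AC
open Subgroup MulAction Cfsg.Lib Cfsg.Lib.FT Cfsg.Lib.Bender Cfsg.Lib.JK
open scoped commutatorElement

variable {G Ω : Type*} [Group G] [MulAction G Ω] {t u r x y g : G}

theorem c1 : g ∈ C1[x] ↔ Commute g x := mem_centralizer_singleton_iff

theorem zp2 (ht : IsInv t) : y ∈ zpowers t ↔ y = 1 ∨ y = t := by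
  refine ⟨?_, by rintro (rfl | rfl); exacts [one_mem _, mem_zpowers _]⟩
  rintro ⟨k, rfl⟩
  have h2 : t ^ (2 : ℤ) = 1 := by rw [zpow_two, ht.2]
  have : k % 2 = 0 ∨ k % 2 = 1 := by omega
  change t ^ k = 1 ∨ t ^ k = t
  rw [zpow_eq_zpow_emod k h2]
  rcases this with e | e <;> rw [e] <;> simp

theorem t_mem (hu : u * u = t) : t ∈ zpowers u := hu ▸ mul_mem (mem_zpowers u) (mem_zpowers u)

theorem comm_t (hu : u * u = t) : Commute u t := hu ▸ (Commute.refl u).mul_right (Commute.refl u)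

theorem inv_eq (ht : IsInv t) (hu : u * u = t) : u⁻¹ = u * t :=
  inv_eq_of_mul_eq_one_right (by rw [← mul_assoc, hu, ht.2])

theorem zp4 (ht : IsInv t) (hu : u * u = t) :
    y ∈ zpowers u ↔ y = 1 ∨ y = u ∨ y = t ∨ y = u * t := by
  refine ⟨?_, ?_⟩
  · rintro ⟨k, rfl⟩
    have h2 : u ^ (2 : ℤ) = t := by rw [zpow_two, hu]
    have h4 : u ^ (4 : ℤ) = 1 := by
      rw [show (4 : ℤ) = 2 + 2 by rfl, zpow_add, h2, ht.2]
    have h3 : u ^ (3 : ℤ) = u * t := by
      rw [show (3 : ℤ) = 1 + 2 by rfl, zpow_add, h2, zpow_one]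
    have : k % 4 = 0 ∨ k % 4 = 1 ∨ k % 4 = 2 ∨ k % 4 = 3 := by omega
    change u ^ k = 1 ∨ u ^ k = u ∨ u ^ k = t ∨ u ^ k = u * t
    rw [zpow_eq_zpow_emod k h4]
    rcases this with e | e | e | e <;> rw [e] <;> simp [h2, h3]
  · rintro (rfl | rfl | rfl | rfl)
    exacts [one_mem _, mem_zpowers _, t_mem hu, mul_mem (mem_zpowers _) (t_mem hu)]

theorem sq_mul (h : Commute x y) : x * y * (x * y) = x * x * (y * y) := by
  rw [mul_assoc, ← mul_assoc y, ← h.eq, mul_assoc, mul_assoc]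

theorem sq_mul_t (ht : IsInv t) (h : Commute x t) : x * t * (x * t) = x * x := by
  rw [sq_mul h, ht.2, mul_one]

theorem mul_t_t (ht : IsInv t) : x * t * t = x := by rw [mul_assoc, ht.2, mul_one]

theorem of_sq_one (ht : IsInv t) (hu : u * u = t) (hy : y ∈ zpowers u) (h : y * y = 1) :
    y = 1 ∨ y = t := by
  rcases (zp4 ht hu).1 hy with e | e | e | e
  · exact .inl e
  · exact absurd (by rw [← hu, ← e, h]) ht.1
  · exact .inr e
  · exact absurd (by rw [← hu, ← sq_mul_t ht (comm_t hu), ← e, h]) ht.1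

theorem not_mem_zp2 (ht : IsInv t) (hu : u * u = t) : u ∉ zpowers t := fun h => by
  rcases (zp2 ht).1 h with e | e
  · exact ht.1 (by rw [← hu, e, mul_one])
  · exact ht.1 (by rw [← hu, e, ht.2])

theorem p2 (ht : IsInv t) (h : x * x = 1 ∨ x * x = t) : P2 x :=
  h.elim P2.of_sq fun e => P2.of_mul_self (e ▸ P2.of_sq ht.2)

theorem conj_sq (h : Commute g t) (hu : u * u = t) : g * u * g⁻¹ * (g * u * g⁻¹) = t := by
  rw [show g * u * g⁻¹ * (g * u * g⁻¹) = g * (u * u) * g⁻¹ by group, hu, h.eq]; group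

theorem conj_ne (h : Commute g t) (hx : x ≠ t) : g * x * g⁻¹ ≠ t := fun e =>
  hx (by rw [show x = g⁻¹ * (g * x * g⁻¹) * g by group, e, h.inv_left.eq]; group)

theorem comm_conj (h : Commute g t) (hx : Commute x t) : Commute (g * x * g⁻¹) t :=
  (h.mul_left hx).mul_left h.inv_left

theorem memN (ht : IsInv t) (hu : u * u = t) :
    g ∈ N[zpowers u] ↔ g * u * g⁻¹ = u ∨ g * u * g⁻¹ = u * t := by
  refine ⟨fun h => ?_, fun h => UI.mem_normalizer_zpowers (by rwa [inv_eq ht hu])⟩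
  have h2 : g * u * g⁻¹ * (g * u * g⁻¹) ≠ 1 := by
    rw [show g * u * g⁻¹ * (g * u * g⁻¹) = g * (u * u) * g⁻¹ by group, hu]
    exact (ht.conj g).1
  rcases (zp4 ht hu).1 ((mem_normalizer_iff.1 h u).1 (mem_zpowers u)) with e | e | e | e
  · exact absurd (by rw [e, mul_one]) h2
  · exact .inl e
  · exact absurd (by rw [e, ht.2]) h2
  · exact .inr e

theorem memN_of_comm (h : Commute g u) : g ∈ N[zpowers u] :=
  UI.mem_normalizer_zpowers (.inl (by rw [h.eq]; group))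

theorem memN_of_inv (h : g * u * g⁻¹ = u⁻¹) : g ∈ N[zpowers u] := UI.mem_normalizer_zpowers (.inr h)

theorem comm_of_memN (ht : IsInv t) (hu : u * u = t) (h : g ∈ N[zpowers u]) : Commute g t := by
  have : g * t * g⁻¹ = t := by
    rw [← hu, show g * (u * u) * g⁻¹ = g * u * g⁻¹ * (g * u * g⁻¹) by group]
    rcases (memN ht hu).1 h with e | e <;> rw [e]
    exact sq_mul_t ht (comm_t hu)
  exact mul_inv_eq_iff_eq_mul.1 this

/-- normalizing is symmetric for square roots of `t` -/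
theorem memN_symm (ht : IsInv t) (hu : u * u = t) {v : G} (hv : v * v = t) (h : v ∈ N[zpowers u]) :
    u ∈ N[zpowers v] := by
  rcases (memN ht hu).1 h with e | e
  · exact memN_of_comm (mul_inv_eq_iff_eq_mul.1 e : Commute v u).symm
  · refine (memN ht hv).2 (.inr ?_)
    have e1 : v * u = u * t * v := mul_inv_eq_iff_eq_mul.1 e
    have e2 : u * v = v * t * u := by
      rw [mul_assoc, ← (comm_t hu).eq, ← mul_assoc, e1, mul_assoc (u * t), (comm_t hv).eq,
        ← mul_assoc, mul_t_t ht]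
    rw [e2]; group

theorem comm_conj_N (h : g ∈ N[zpowers u]) (hx : Commute x u) : Commute (g * x * g⁻¹) u := by
  obtain ⟨k, hk⟩ := (mem_normalizer_iff.1 (inv_mem h) u).1 (mem_zpowers u)
  have h1 : Commute x (g⁻¹ * u * g⁻¹⁻¹) := hk ▸ hx.zpow_right k
  have := h1.eq
  change g * x * g⁻¹ * u = u * (g * x * g⁻¹)
  calc g * x * g⁻¹ * u = g * (x * (g⁻¹ * u * g⁻¹⁻¹)) * g⁻¹ := by group
    _ = _ := by rw [this]; group

theorem fix_t (hu : u * u = t) {a : Ω} (h : u • a = a) : t • a = a := by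
  rw [← hu, mul_smul, h, h]

theorem fix_inv {a : Ω} (h : x • a = a) : x⁻¹ • a = a := by
  conv_lhs => rw [← h]
  rw [inv_smul_smul]

theorem fix_mul {a : Ω} (h : x • a = a) (h' : y • a = a) : (x * y) • a = a := by
  rw [mul_smul, h', h]

theorem fix_of_mul {a : Ω} (h : (x * y) • a = a) (h' : y • a = a) : x • a = a := by
  rwa [mul_smul, h'] at h

theorem fix_of_mul' {a : Ω} (h : (x * y) • a = a) (h' : x • a = a) : y • a = a := by
  have := fix_mul (fix_inv h') h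
  rwa [inv_mul_cancel_left] at this

theorem fix_zp (hy : y ∈ zpowers x) {a : Ω} (h : x • a = a) : y • a = a :=
  (zpowers_le.2 (show x ∈ stabilizer G a from h)) hy

theorem fix_conj {a : Ω} : (g * x * g⁻¹) • a = a ↔ x • g⁻¹ • a = g⁻¹ • a := by
  rw [mul_smul, mul_smul, smul_eq_iff_eq_inv_smul]

theorem fix_comm (h : Commute g t) {a : Ω} (ha : t • a = a) : t • g • a = g • a := by
  rw [smul_smul, ← h.eq, mul_smul, ha]

theorem fix_N (h : g ∈ N[zpowers u]) {a : Ω} (ha : u • a = a) : u • g • a = g • a := by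
  have := fix_zp ((mem_normalizer_iff.1 (inv_mem h) u).1 (mem_zpowers u)) ha
  rwa [fix_conj, inv_inv] at this

theorem N_le_NL (ht : IsInv t) (hu : u * u = t) : N[zpowers u] ≤ NL Ω t u := fun g h =>
  ⟨comm_of_memN ht hu h, fun a => ⟨fun e => by simpa using fix_N (inv_mem h) e, fix_N h⟩⟩

theorem One.mono (h : One Ω r x) {s : G} (h' : ∀ a : Ω, s • a = a → y • a = a → r • a = a ∧ x • a = a) :
    One Ω s y := fun a b h1 h2 h3 h4 =>
  h a b (h' a h1 h3).1 (h' b h2 h4).1 (h' a h1 h3).2 (h' b h2 h4).2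

theorem One.sq (h : One Ω t x) (hu : u * u = t) : One Ω u x :=
  One.mono h fun _ h1 h2 => ⟨fix_t hu h1, h2⟩

theorem One.symm (h : One Ω r x) : One Ω x r := One.mono h fun _ h1 h2 => ⟨h2, h1⟩

theorem One.mul_t (h : One Ω t x) : One Ω t (x * t) :=
  One.mono h fun _ h1 h2 => ⟨h1, fix_of_mul h2 h1⟩

theorem One.of_mul_t (h : One Ω t (x * t)) : One Ω t x :=
  One.mono h fun _ h1 h2 => ⟨h1, fix_mul h2 h1⟩

theorem One.conj (h : One Ω t x) (hg : Commute g t) : One Ω t (g * x * g⁻¹) := fun a b h1 h2 h3 h4 =>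
  smul_left_cancel g⁻¹ (h _ _ (fix_comm hg.inv_left h1) (fix_comm hg.inv_left h2) (fix_conj.1 h3)
    (fix_conj.1 h4))

theorem One.of_conj (h : One Ω t (g * x * g⁻¹)) (hg : Commute g t) : One Ω t x := by
  simpa [mul_assoc] using One.conj h hg.inv_left

theorem two_of_not_one (h : ¬ One Ω r x) : Two Ω x := by
  simp only [One, not_forall] at h
  obtain ⟨a, b, -, -, h1, h2, h3⟩ := h
  exact ⟨a, b, h3, h1, h2⟩

/-- an element fixing all fixed points of `u` -/
theorem not_one_of_fix (h : Two Ω u) (hr : ∀ a : Ω, u • a = a → r • a = a)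
    (hx : ∀ a : Ω, u • a = a → x • a = a) : ¬ One Ω r x := fun h1 => by
  obtain ⟨a, b, h2, h3, h4⟩ := h
  exact h2 (h1 a b (hr a h3) (hr b h4) (hx a h3) (hx b h4))

theorem UU.not_one (h : UU Ω t u) : ¬ One Ω t u :=
  not_one_of_fix h.2 (fun _ => fix_t h.1) fun _ e => e

theorem t_mem_Kr (hu : u * u = t) : t ∈ Kr Ω N[zpowers u] u :=
  mem_Kr.2 ⟨memN_of_comm (comm_t hu).symm, fun _ => fix_t hu⟩

theorem comm_el (h : Commute x y) : ⁅x, y⁆ = 1 := commutatorElement_eq_one_iff_commute.2 h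

variable [Finite G]

theorem mem_syl {T N : Subgroup G} (hT : IsSylowIn 2 T N) (hx : P2 x) (h1 : x ∈ N)
    (h2 : T ≤ N[zpowers x]) : x ∈ T :=
  hT.le_of_normalizes hx.isPGroup (zpowers_le.2 h1) h2 (mem_zpowers x)

theorem exists_conj_mem {T N : Subgroup G} (hT : IsSylowIn 2 T N) (hx : P2 x) (h1 : x ∈ N) :
    ∃ k ∈ N, k * x * k⁻¹ ∈ T := by
  obtain ⟨k, hk, h⟩ := hT.exists_conj_le hx.isPGroup (zpowers_le.2 h1)
  exact ⟨k, hk, h (mem_map_of_mem _ (mem_zpowers x))⟩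

end Cfsg.Lib.TGC.AC
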