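import Cfsg.Agent.Lib.TGC.Basic

/-! The F-lemma (plan, section Flem). -/

set_option autoImplicit false

namespace Cfsg.Lib.TGC
open Subgroup MulAction Cfsg.Lib Cfsg.Lib.FT Cfsg.Lib.Bender
open scoped commutatorElement

variable {G Ω : Type*} [Group G] [MulAction G Ω] [Finite G]

omit [Finite G] in
theorem c1_cj (g x : G) : C1[g * x * g⁻¹] = g •ᶜ C1[x] := by
  ext y
  rw [mem_map_conj, mem_C1, mem_C1]
  constructor
  · intro h
    calc _ = g⁻¹ * (y * (g * x * g⁻¹)) * g := by group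
      _ = _ := by rw [h]; group
  · intro h
    calc _ = g * (g⁻¹ * y * g * x) * g⁻¹ := by group
      _ = _ := by rw [h]; group

omit [Finite G] in
theorem anti_of_sq {t q q' : G} (ht : t * t = 1) (e : q * q = t) (e' : q' * q' = t)
    (h : q * q' * (q * q') = t) : q * q' = q' * q * t := by
  have c : q * t = t * q := by rw [← e, mul_assoc]
  have h1 : q' * q * q' = q := mul_left_cancel (a := q) (by rw [e, ← h]; group)
  calc q * q' = q' * q * q' * q' := by rw [h1]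
    _ = _ := by rw [mul_assoc _ q', e']

omit [Finite G] in
/-- two elements of a quaternion group commute modulo `t` -/
theorem comm_mod {Q : Subgroup G} {t : G} (ht : t * t = 1) (hc : ∀ q ∈ Q, q * t = t * q)
    (hq : ∀ q ∈ Q, q = 1 ∨ q = t ∨ q * q = t) {q q' : G} (h : q ∈ Q) (h' : q' ∈ Q) :
    q * q' = q' * q ∨ q * q' = q' * q * t := by
  rcases hq q h with rfl | rfl | e
  · simp
  · exact .inl (hc _ h').symm
  rcases hq q' h' with rfl | rfl | e'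
  · simp
  · exact .inl (hc _ h)
  rcases hq _ (mul_mem h h') with e2 | e2 | e2
  · exact .inl (by rw [eq_inv_of_mul_eq_one_left e2]; group)
  · obtain rfl : q = q' := mul_left_cancel (e.trans e2.symm)
    exact .inl rfl
  · exact .inr (anti_of_sq ht e e' e2)

theorem exists_anti {Q : Subgroup G} {t : G} (ht : t * t = 1)
    (hq : ∀ q ∈ Q, q = 1 ∨ q = t ∨ q * q = t) (h8 : Nat.card Q = 8) {q : G} (h : q ∈ Q) (e : q * q = t) :
    ∃ q' ∈ Q, q' * q' = t ∧ q * q' = q' * q * t := by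
  classical
  obtain ⟨q', h1, h2⟩ : ∃ q' ∈ (Q : Set G), q' ∉ ({1, t, q, q⁻¹} : Set G) := by
    by_contra hn
    push Not at hn
    have h1 := Set.ncard_le_ncard hn (Set.toFinite _)
    have h2 : ({1, t, q, q⁻¹} : Set G).ncard ≤ 4 := (Set.ncard_insert_le _ _).trans (by
      have := Set.ncard_insert_le t ({q, q⁻¹} : Set G)
      have := Set.ncard_insert_le q ({q⁻¹} : Set G)
      rw [Set.ncard_singleton] at this
      omega)
    rw [← Nat.card_coe_set_eq] at h1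
    change Nat.card Q ≤ _ at h1
    omega
  simp only [Set.mem_insert_iff, Set.mem_singleton_iff, not_or] at h2
  have e' := ((hq q' h1).resolve_left h2.1).resolve_left h2.2.1
  refine ⟨q', h1, e', anti_of_sq ht e e' (((hq _ (mul_mem h h1)).resolve_left fun e2 => h2.2.2.2
    (eq_inv_of_mul_eq_one_right e2)).resolve_left fun e2 => h2.2.2.1
      (mul_left_cancel (e2.trans e.symm)))⟩

theorem Ctx.flemma (C : Ctx G Ω) {t : G} (ht : IsInv t) {T R Q : Subgroup G} (hT : IsSylowIn 2 T C1[t])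
    (hR : R ≤ T) (hQ : Q ≤ T) (hc : ∀ r ∈ R, ∀ q ∈ Q, Commute r q) (htR : t ∈ R)
    (hu : ∀ r ∈ R, r * r = 1 → r = 1 ∨ r = t) (hq : ∀ q ∈ Q, q = 1 ∨ q = t ∨ q * q = t)
    (h8 : Nat.card Q = 8) (hall : ∀ y ∈ T, y * y = 1 → ∃ r ∈ R, ∃ q ∈ Q, y = r * q) : False := by
  have t2 := ht.mul_self
  have ct : ∀ x ∈ T, x * t = t * x := fun x hx => mem_C1.1 (hT.le hx)
  have sw : ∀ r ∈ R, ∀ q ∈ Q, ∀ r' ∈ R, ∀ q' : G, r * q * (r' * q') = r * r' * (q * q') :=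
    fun r _ q h1 r' h2 q' => by rw [mul_assoc, ← mul_assoc q, ← (hc r' h2 q h1).eq]; group
  have dec : ∀ a ∈ T, a * a = 1 → a ≠ 1 → a ≠ t → ∃ r ∈ R, ∃ q ∈ Q, a = r * q ∧ r * r = t ∧ q * q = t := by
    intro a ha a2 a1 at'
    obtain ⟨r, hr, q, hq', rfl⟩ := hall a ha a2
    have k : q ∉ R := fun e => (hu _ (mul_mem hr e) a2).elim a1 at'
    have e := ((hq q hq').resolve_left fun e => k (e ▸ one_mem _)).resolve_left fun e => k (e ▸ htR)
    refine ⟨r, hr, q, hq', rfl, ?_, e⟩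
    rw [sw r hr q hq' r hr, e] at a2
    rw [eq_inv_of_mul_eq_one_left a2, ht.inv_eq]
  have ch : ∀ x ∈ T, ∀ y ∈ T, x * x = 1 → y * y = 1 → ∀ s, IsInv s → x * y = y * x * s → s = t := by
    intro x hx y hy x2 y2 s hs e
    obtain ⟨r, hr, q, hq1, rfl⟩ := hall x hx x2
    obtain ⟨r', hr', q', hq2, rfl⟩ := hall y hy y2
    rw [sw r hr q hq1 r' hr', sw r' hr' q' hq2 r hr] at e
    refine (hu s ?_ hs.2).resolve_left hs.1
    have k := fun x hx => (hc x hx _ (mul_mem hq2 hq1)).eq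
    have e1 : (r' * r)⁻¹ * (r * r') ∈ R := mul_mem (inv_mem (mul_mem hr' hr)) (mul_mem hr hr')
    rcases comm_mod t2 (fun q h => ct q (hQ h)) hq hq1 hq2 with e2 | e2
    · rw [e2, k _ (mul_mem hr hr'), k _ (mul_mem hr' hr), mul_assoc (q' * q)] at e
      exact mem_of_mem_of_eq e1 (by rw [mul_left_cancel e]; group)
    · rw [e2, ← mul_assoc, k _ (mul_mem hr hr'), k _ (mul_mem hr' hr), mul_assoc (q' * q),
        mul_assoc (q' * q)] at e
      exact mem_of_mem_of_eq (mul_mem e1 htR) (by rw [mul_assoc, mul_left_cancel e]; group)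
  obtain ⟨a, ha, b, hb, ia, ib, ab, a1, b1, n1, n2⟩ := C.e8_sylow ht hT
  obtain ⟨r₁, hr₁, q₁, hq₁, rfl, e₁, f₁⟩ := dec a ha ia.2 ia.1 a1
  obtain ⟨r₂, hr₂, q₂, hq₂, rfl, e₂, f₂⟩ := dec b hb ib.2 ib.1 b1
  have hn : r₁ * r₂ ≠ r₂ * r₁ := fun e => by
    have i3 := (ia.mul_of_comm ib (fun e => n1 (e ▸ ib.2)) ab).2
    have e3 := ab.eq
    rw [sw _ hr₁ _ hq₁ _ hr₂] at n1 n2 i3 e3
    rw [sw _ hr₂ _ hq₂ _ hr₁, e] at e3
    have k : q₁ * q₂ ∉ R := fun e => (hu _ (mul_mem (mul_mem hr₁ hr₂) e) i3).elim n1 n2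
    have e4 := anti_of_sq t2 f₁ f₂ (((hq _ (mul_mem hq₁ hq₂)).resolve_left
      fun e => k (e ▸ one_mem _)).resolve_left fun e => k (e ▸ htR))
    rw [mul_left_cancel e3] at e4
    exact ht.1 (by simpa using e4)
  obtain ⟨g, g1, g2⟩ : ∃ g : G, Commute t (g * t * g⁻¹) ∧ g * t * g⁻¹ ≠ t := by
    simpa [IsIsolated] using C.noc t ht
  obtain ⟨k, hk, h1⟩ := hT.exists_conj_le (ht.conj g).isPGroup (zpowers_le.2 (mem_C1.2 g1.eq.symm))
  have h2 : k * g * t * (k * g)⁻¹ ∈ T := mem_of_mem_of_eq (h1 (mem_map_of_mem _ (mem_zpowers _)))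
    (by simp [mul_assoc])
  have h3 : k * g * t * (k * g)⁻¹ ≠ t := fun e => g2 (by
    calc g * t * g⁻¹ = k⁻¹ * (k * g * t * (k * g)⁻¹) * k := by group
      _ = t := by rw [e, mul_assoc, ← mem_C1.1 hk]; group)
  generalize k * g = h at h2 h3
  obtain ⟨r, hr, q, hq', e, e1, e2⟩ := dec _ h2 (ht.conj h).2 (ht.conj h).1 h3
  obtain ⟨r', hr', e3, e4⟩ := exists_inverting (hT.isPGroup.to_le hR) ht hu hr₁ hr₂ e₁ e₂ hn hr e1
  obtain ⟨q', hq'', e5, e6⟩ := exists_anti t2 hq h8 hq' e2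
  have tt : ∀ x ∈ T, t * (x * t) = x := fun x hx => by rw [ct x hx, ← mul_assoc, t2, one_mul]
  have m1 : r' * q' ∈ T ⊓ C1[h * t * h⁻¹] := ⟨mul_mem (hR hr') (hQ hq''), mem_C1.2 (by
    rw [e, sw _ hr' _ hq'' _ hr, sw _ hr _ hq' _ hr', e4, e6, mul_assoc _ t,
      tt _ (hQ (mul_mem hq'' hq'))])⟩
  have m2 : r' * (q' * q) ∈ T ⊓ C1[h * t * h⁻¹] := ⟨mul_mem (hR hr') (hQ (mul_mem hq'' hq')), mem_C1.2 (by
    rw [e, sw _ hr' _ (mul_mem hq'' hq') _ hr, sw _ hr _ hq' _ hr', e4, ← mul_assoc q, e6, mul_assoc _ t,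
      ← mul_assoc t, tt _ (hQ (mul_mem hq'' hq'))])⟩
  have e7 : q' * q * q' = q := by rw [mul_assoc, e6, ← mul_assoc, ← mul_assoc, e5, mul_assoc, tt _ (hQ hq')]
  obtain ⟨c, hc', h4⟩ := hT.exists_conj_le (U := h⁻¹ •ᶜ (T ⊓ C1[h * t * h⁻¹]))
    (hT.isPGroup.to_inf_left.map _) (by
      rw [map_conj_le_iff, inv_inv, ← c1_cj]; exact inf_le_right)
  have m3 : ∀ x ∈ T ⊓ C1[h * t * h⁻¹], c * h⁻¹ * x * (c * h⁻¹)⁻¹ ∈ T := fun x hx =>
    mem_of_mem_of_eq (h4 (mem_map_of_mem _ (mem_map_of_mem _ hx))) (by simp [mul_assoc])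
  have h5 := ch _ (m3 _ m1) _ (m3 _ m2)
    (by rw [conj_mul, sw _ hr' _ hq'' _ hr', e3, e5, t2]; group)
    (by rw [conj_mul, sw _ hr' _ (mul_mem hq'' hq') _ hr', e3, ← mul_assoc (q' * q), e7, e2, t2]; group)
    _ (ht.conj (c * h⁻¹)) (by
      rw [conj_mul, conj_mul, conj_mul, sw _ hr' _ hq'' _ hr', sw _ hr' _ (mul_mem hq'' hq') _ hr', e7,
        ← mul_assoc q', e5, ← ct q (hQ hq'), mul_assoc (r' * r')])
  refine h3 ?_
  calc h * t * h⁻¹ = h * c⁻¹ * (c * t) * h⁻¹ := by group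
    _ = h * c⁻¹ * (c * h⁻¹ * t * (c * h⁻¹)⁻¹) * c * h⁻¹ := by rw [h5, mem_C1.1 hc', ← mul_assoc]
    _ = t := by group

end Cfsg.Lib.TGC
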