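import Cfsg.Agent.Lib.TGC.Ben
import Cfsg.Agent.Lib.TGC.Flem

/-! Local facts for an element `u` of type (b) (plan, section B1). -/

set_option autoImplicit false

namespace Cfsg.Lib.TGC
open Subgroup MulAction Cfsg.Lib Cfsg.Lib.FT Cfsg.Lib.Bender
open scoped commutatorElement

variable {G Ω : Type*} [Group G] [MulAction G Ω]

theorem fix_zp {u x : G} {a : Ω} (ha : u • a = a) (hx : x ∈ zpowers u) : x • a = a :=
  (zpowers_le (H := stabilizer G a)).2 ha hx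

theorem fix_N {u g : G} (hg : g ∈ N[zpowers u]) {a : Ω} (ha : u • a = a) : u • g • a = g • a := by
  have := fix_zp ha (conj_mem' hg (mem_zpowers u))
  rw [mul_smul, mul_smul, inv_smul_eq_iff] at this; exact this

theorem mem_NL {t r g : G} : g ∈ NL Ω t r ↔ Commute g t ∧ ∀ a : Ω, r • g • a = g • a ↔ r • a = a := Iff.rfl

theorem conj_u {t u g : G} (ht : IsInv t) (hu : u * u = t) (hg : g ∈ N[zpowers u]) :
    g * u * g⁻¹ = u ∨ g * u * g⁻¹ = u * t := by
  have e : g * u * g⁻¹ * (g * u * g⁻¹) ≠ 1 := fun h => (ht.conj g).1 (by rw [← h, ← hu]; group)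
  rcases (mem_zp4 ht hu).1 (conj_mem hg (mem_zpowers u)) with h | h | h | h
  · exact absurd (by rw [h, mul_one]) e
  · exact absurd (by rw [h, ht.2]) e
  · exact Or.inl h
  · exact Or.inr h

theorem N_comm_t {t u g : G} (ht : IsInv t) (hu : u * u = t) (hg : g ∈ N[zpowers u]) : Commute g t := by
  have c : u * t = t * u := by rw [← hu, mul_assoc]
  have : g * t * g⁻¹ = t := by
    rw [show g * t * g⁻¹ = g * u * g⁻¹ * (g * u * g⁻¹) by rw [← hu]; group]
    rcases conj_u ht hu hg with h | h <;> rw [h]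
    · exact hu
    · rw [show u * t * (u * t) = u * (t * u) * t by group, ← c, show u * (u * t) * t = u * u * (t * t) by group, ht.2,
        mul_one, hu]
  exact mul_inv_eq_iff_eq_mul.1 this

theorem N_le_NL {t u : G} (ht : IsInv t) (hu : u * u = t) : N[zpowers u] ≤ NL Ω t u := fun g hg =>
  ⟨N_comm_t ht hu hg, fun a => ⟨fun h => by simpa using fix_N (inv_mem hg) h, fix_N hg⟩⟩

theorem mem_N_of_mod [Finite G] {t u g : G} (hu : u * u = t) (h : g * u * g⁻¹ = u ∨ g * u * g⁻¹ = u * t) :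
    g ∈ N[zpowers u] := by
  refine mem_N_zp ?_
  rcases h with h | h <;> rw [h]
  · exact mem_zpowers u
  · rw [← hu]; exact mul_mem (mem_zpowers u) (mul_mem (mem_zpowers u) (mem_zpowers u))

/-- if `g` normalizes `⟨u⟩` and `g² = t`, then `u` normalizes `⟨g⟩` -/
theorem mem_N_symm [Finite G] {t u g : G} (ht : IsInv t) (hg : g * g = t) (hu : Commute u t)
    (h : g * u * g⁻¹ = u ∨ g * u * g⁻¹ = u * t) : u ∈ N[zpowers g] := by
  refine mem_N_of_mod hg (h.imp (fun h => ?_) fun h => ?_)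
  · rw [← mul_inv_eq_iff_eq_mul.1 h, mul_inv_cancel_right]
  · have c : g * t = t * g := by rw [← hg, mul_assoc]
    have h' := mul_inv_eq_iff_eq_mul.1 h
    rw [mul_inv_eq_iff_eq_mul, mul_assoc, ← hu.eq, ← mul_assoc, h', mul_assoc u, ← c,
      show u * (g * t) * t = u * g * (t * t) by group, ht.2, mul_one]

theorem mem_N_zp_of_comm' {x g : G} (h : g * x = x * g) : g ∈ N[zpowers x] :=
  centralizer_le_normalizer _ (mem_C_iff.2 fun z hz => mem_C1.1 (zpowers_le.2 (mem_C1.2 h.symm) hz))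

theorem ncard_fix_conj (g u : G) : (fixedBy Ω (g * u * g⁻¹)).ncard = (fixedBy Ω u).ncard := by
  rw [← smul_fixedBy, Set.ncard_smul_set]

/-- the eight elements of a quaternion group -/
theorem q8_enum {Q : Subgroup G} {t i j : G} (ht : IsInv t) (h8 : Nat.card Q = 8) (htQ : t ∈ Q) (hi : i ∈ Q)
    (hj : j ∈ Q) (ei : i * i = t) (ej : j * j = t) (eij : i * j ∉ zpowers t) {q : G} (hq : q ∈ Q) :
    q ∈ zpowers t ∨ i * q ∈ zpowers t ∨ j * q ∈ zpowers t ∨ i * j * q ∈ zpowers t := by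
  haveI : Finite Q := Nat.finite_of_card_ne_zero (by omega)
  by_contra hn
  simp only [not_or] at hn
  obtain ⟨n1, n2, n3, n4⟩ := hn
  have hz : ∀ x, x * x = t → x ∉ zpowers t := fun x e h => by
    rcases (mem_zp ht).1 h with rfl | rfl
    · exact ht.1 (by simpa using e.symm)
    · exact ht.1 (by simpa using e)
  have tt : t ∈ zpowers t := mem_zpowers t
  have ci : i * t = t * i := by rw [← ei, mul_assoc]
  have cj : j * t = t * j := by rw [← ej, mul_assoc]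
  have ii : i⁻¹ = t * i := by rw [eq_comm, eq_inv_iff_mul_eq_one, mul_assoc, ei, ht.2]
  have jj : j⁻¹ = t * j := by rw [eq_comm, eq_inv_iff_mul_eq_one, mul_assoc, ej, ht.2]
  let f : Fin 5 → G := ![1, i⁻¹, j⁻¹, (i * j)⁻¹, q]
  have hf : ∀ a, f a ∈ Q := fun a => by
    fin_cases a
    exacts [one_mem _, inv_mem hi, inv_mem hj, inv_mem (mul_mem hi hj), hq]
  have m1 : ∀ x, x ∈ zpowers t → t * x ∈ zpowers t := fun x h => mul_mem tt h
  have m2 : ∀ x, t * x ∈ zpowers t → x ∈ zpowers t := fun x h => by simpa using mul_mem (inv_mem tt) h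
  have a1 : i * j⁻¹ ∉ zpowers t := fun h => eij (m2 _ (by rwa [jj, ← mul_assoc, ci, mul_assoc] at h))
  have a2 : i * (i * j)⁻¹ ∉ zpowers t := fun h => by
    have : i * (i * j)⁻¹ = i * j⁻¹ * i⁻¹ := by group
    rw [this] at h
    have h2 := conj_mem' (mem_N_zp_of_comm' ci) h
    exact hz j ej (by simpa [mul_assoc] using inv_mem h2)
  have a3 : j * (i * j)⁻¹ ∉ zpowers t := fun h => hz i ei (by simpa using inv_mem h)
  have key : ∀ a b : Fin 5, a < b → (f a)⁻¹ * f b ∉ zpowers t := by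
    intro a b hab
    fin_cases a <;> fin_cases b <;> simp at hab <;> simp only [f] <;> simp
    · exact hz i ei
    · exact hz j ej
    · simpa using fun h => eij (by simpa using inv_mem h)
    · exact n1
    · exact a1
    · simpa using a2
    · exact n2
    · simpa using a3
    · exact n3
    · exact n4
  let F : Fin 5 × zpowers t → Q := fun p => ⟨f p.1 * p.2, mul_mem (hf _) (zpowers_le.2 htQ p.2.2)⟩
  have hF : Function.Injective F := by
    rintro ⟨a, x⟩ ⟨b, y⟩ h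
    have h' : f a * x = f b * y := congrArg Subtype.val h
    have e1 : (f a)⁻¹ * f b = x * (y : G)⁻¹ := by
      rw [inv_mul_eq_iff_eq_mul, ← mul_assoc, h', mul_inv_cancel_right]
    have m : (f a)⁻¹ * f b ∈ zpowers t := e1 ▸ mul_mem x.2 (inv_mem y.2)
    rcases lt_trichotomy a b with hab | rfl | hab
    · exact absurd m (key a b hab)
    · rw [Subtype.ext (mul_left_cancel h')]
    · exact absurd (by simpa using inv_mem m) (key b a hab)
  have := Nat.card_le_card_of_injective F hF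
  rw [Nat.card_prod, ht.card_zpowers, h8] at this
  simp at this

/-- the transposition lemma -/
theorem transp {R : Subgroup G} {t u r s : G} {δ : Ω} (ht : IsInv t) (h8 : Nat.card R = 8) (htR : t ∈ R)
    (hu : u ∈ R) (hr : r ∈ R) (eu : u * u = t) (er : r * r = t) (eur : u * r ∉ zpowers t)
    (hq : ∀ q ∈ R, q * t = t * q) (hst : s * t = t * s)
    (su : u * (s * u * s⁻¹) ∈ zpowers t) (sr : u * r * (s * r * s⁻¹) ∈ zpowers t)
    (reg : ∀ ρ ∈ R, ρ • δ = δ → ρ ∈ zpowers t) (htδ : t • δ = δ) {ρ : G} (hρ : ρ ∈ R) (h1 : s • δ = ρ • δ)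
    (h2 : s • s • δ = δ) (hc : u * r = r * u * t) : ∃ ρ' ∈ R, s • ρ' • δ = ρ' • δ := by
  have ft : ∀ x ∈ zpowers t, x • δ = δ := fun x hx => fix_zp htδ hx
  have ft' : ∀ x ∈ zpowers t, ∀ y ∈ R, x • y • δ = y • δ := fun x hx y hy =>
    fix_zp (by rw [← mul_smul, ← hq y hy, mul_smul, htδ]) hx
  have iu : u⁻¹ = u * t := by rw [eq_comm, eq_inv_iff_mul_eq_one, mul_assoc, ← hq u hu, ← mul_assoc, eu, ht.2]
  have ir : r⁻¹ = r * t := by rw [eq_comm, eq_inv_iff_mul_eq_one, mul_assoc, ← hq r hr, ← mul_assoc, er, ht.2]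
  have tt : t ∈ zpowers t := mem_zpowers t
  have act : ∀ x y : G, x * y ∈ zpowers t → ∀ z ∈ R, x ∈ R → y • z • δ = x⁻¹ • z • δ := fun x y h z hz hx => by
    rw [eq_inv_smul_iff, ← mul_smul x y, ft' _ h z hz]
  have cs : ∀ x : G, ∀ a : Ω, s • x • a = (s * x * s⁻¹) • s • a := fun x a => by
    rw [← mul_smul, ← mul_smul, inv_mul_cancel_right]
  have tu : ∀ z ∈ R, u⁻¹ • z • δ = u • z • δ := fun z hz => by rw [iu, mul_smul, ft' t tt z hz]
  have tr : ∀ z ∈ R, r⁻¹ • z • δ = r • z • δ := fun z hz => by rw [ir, mul_smul, ft' t tt z hz]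
  have one := fun x y h hx => act x y h 1 (one_mem _) hx
  simp only [one_smul] at one
  have tu1 := tu 1 (one_mem _)
  have tr1 := tr 1 (one_mem _)
  simp only [one_smul] at tu1 tr1
  have uu : ∀ z ∈ R, u • u • z • δ = z • δ := fun z hz => by rw [← mul_smul, eu, ft' t tt z hz]
  have rr : r • r • δ = δ := by rw [← mul_smul, er, htδ]
  have ur : ∀ z ∈ R, u • r • z • δ = r • u • z • δ := fun z hz => by
    rw [← mul_smul, hc, mul_smul, mul_smul, ft' t tt z hz]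
  have ur1 := ur 1 (one_mem _)
  simp only [one_smul] at ur1
  have sr' : ∀ z ∈ R, (s * r * s⁻¹) • z • δ = r • u • z • δ := fun z hz => by
    rw [act _ _ sr z hz (mul_mem hu hr), mul_inv_rev, mul_smul, tu z hz, ← mul_smul u z, tr _ (mul_mem hu hz)]
  have su' : ∀ z ∈ R, (s * u * s⁻¹) • z • δ = u • z • δ := fun z hz => by rw [act _ _ su z hz hu, tu z hz]
  have nu : u • δ ≠ δ := fun h => by
    rcases (mem_zp ht).1 (reg u hu h) with e | e
    · rw [e, mul_one] at eu; exact ht.1 eu.symm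
    · rw [e, ht.2] at eu; exact ht.1 eu.symm
  rcases q8_enum ht h8 htR hu hr eu er eur hρ with h | h | h | h
  · exact ⟨1, one_mem _, by rw [one_smul, h1, ft ρ h]⟩
  · refine ⟨r, hr, ?_⟩
    rw [cs, h1, one _ _ h hu, tu1, sr' u hu]
    have := uu 1 (one_mem _)
    simp only [one_smul] at this
    rw [this]
  · exfalso
    rw [one _ _ h hr, tr1] at h1
    rw [h1, cs, h1, sr' r hr, ← ur r hr, rr] at h2
    exact nu h2
  · exfalso
    rw [one _ _ h (mul_mem hu hr), mul_inv_rev, mul_smul, tu1, tr u hu] at h1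
    rw [h1, cs, cs u, h1, ← mul_smul r u, su' _ (mul_mem hr hu), ← mul_smul u, sr' _ (mul_mem hu (mul_mem hr hu)),
      mul_smul, uu _ (mul_mem hr hu), mul_smul, ← ur1, ← ur r hr, rr] at h2
    exact nu h2

/-- congruence modulo `⟨t⟩` -/
def Md (t a b : G) : Prop := a * b⁻¹ ∈ zpowers t

namespace Md
variable {t a b c d x : G}
theorem refl (t a : G) : Md t a a := by simp [Md]
theorem of_eq (h : a = b) : Md t a b := h ▸ refl t a
theorem symm (h : Md t a b) : Md t b a := by simpa [Md] using inv_mem h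
theorem trans (h : Md t a b) (h' : Md t b c) : Md t a c := by simpa [Md, mul_assoc] using mul_mem h h'
theorem conj (h : Md t a b) (hx : x * t = t * x) : Md t (x * a * x⁻¹) (x * b * x⁻¹) := by
  simpa [Md, mul_assoc] using conj_mem (mem_N_zp_of_comm' hx) h
theorem of_conj (h : Md t (x * a * x⁻¹) (x * b * x⁻¹)) (hx : x * t = t * x) : Md t a b := by
  simpa [mul_assoc] using h.conj (x := x⁻¹) (Commute.inv_left hx)
theorem mul (h : Md t a b) (h' : Md t c d) (ha : a * t = t * a) : Md t (a * c) (b * d) := by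
  simpa [Md, mul_assoc] using mul_mem (conj_mem (mem_N_zp_of_comm' ha) h') h
theorem mul_right (h : Md t a b) (c : G) : Md t (a * c) (b * c) := by simpa [Md, mul_assoc] using h
theorem mul_left (h : Md t a b) (hc : c * t = t * c) : Md t (c * a) (c * b) := (refl t c).mul h hc
theorem inv (h : Md t a b) (ha : a * t = t * a) : Md t a⁻¹ b⁻¹ := by
  simpa [Md, mul_assoc] using inv_mem (conj_mem' (mem_N_zp_of_comm' ha) h)
theorem one_iff : Md t a 1 ↔ a ∈ zpowers t := by simp [Md]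
theorem smul (h : Md t a b) {p : Ω} (hp : t • b • p = b • p) : a • p = b • p := by
  have := fix_zp hp h
  rwa [← mul_smul, inv_mul_cancel_right] at this
theorem mem {X : Subgroup G} (h : Md t a b) (ht : t ∈ X) (hb : b ∈ X) : a ∈ X := by
  simpa using mul_mem (zpowers_le.2 ht h) hb
theorem iff (ht : IsInv t) (hb : b * t = t * b) : Md t a b ↔ a = b ∨ a = b * t := by
  rw [Md, mem_zp ht, mul_inv_eq_one, mul_inv_eq_iff_eq_mul, hb]
theorem mul_t (hb : b * t = t * b) : Md t (b * t) b := by rw [Md, hb, mul_inv_cancel_right]; exact mem_zpowers t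
theorem sq (ht : IsInv t) (h : Md t a b) (hb : b * t = t * b) : a * a = b * b := by
  rcases (iff ht hb).1 h with rfl | rfl
  · rfl
  · rw [mul_assoc, ← mul_assoc t, ← hb, mul_assoc b t, ht.2, mul_one]
theorem inv_self (h : a * a ∈ zpowers t) : Md t a a⁻¹ := by simpa [Md] using h
end Md

theorem q8_enum' {Q : Subgroup G} {t i j : G} (ht : IsInv t) (h8 : Nat.card Q = 8) (htQ : t ∈ Q) (hi : i ∈ Q)
    (hj : j ∈ Q) (ei : i * i = t) (ej : j * j = t) (eij : i * j ∉ zpowers t) {q : G} (hq : q ∈ Q) :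
    Md t q 1 ∨ Md t q i ∨ Md t q j ∨ Md t q (i * j) := by
  rcases q8_enum ht h8 htQ hi hj ei ej eij (inv_mem hq) with h | h | h | h
  · exact Or.inl (Md.one_iff.2 (by simpa using inv_mem h))
  · exact Or.inr (Or.inl (Md.symm h))
  · exact Or.inr (Or.inr (Or.inl (Md.symm h)))
  · exact Or.inr (Or.inr (Or.inr (Md.symm h)))

variable (Ω) in
/-- the local data of an element `u` of type (b) -/
structure LB (t u : G) (S R Q J O : Subgroup G) (α : Ω) : Prop where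
  inv : IsInv t
  sq : u * u = t
  fix : ∀ x ∈ S, x • α = α
  sylu : IsSylowIn 2 S N[zpowers u]
  ben : Ben Ω t u t N[zpowers u] J O
  full : ∀ y, Commute y u → (y * y = 1 ∨ y * y = t) → y ∈ J
  benS : BenS Ω t u t N[zpowers u] J O S Q α
  memR : ∀ x, x ∈ R ↔ x ∈ S ∧ ∀ a : Ω, u • a = a → x • a = a

theorem St.lb {t u w : G} {T S R Q J O : Subgroup G} {α : Ω} (h : St Ω t u w T S R Q J O α) :
    LB Ω t u S R Q J O α :=
  ⟨h.inv, h.sq, fun x hx => h.fix x (h.ST hx), h.sylu, h.ben, h.full, h.benS, h.memR⟩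

theorem not_zp_of_sq {t x : G} (ht : IsInv t) (e : x * x = t) : x ∉ zpowers t := fun h => by
  rcases (mem_zp ht).1 h with rfl | rfl
  · exact ht.1 (by simpa using e.symm)
  · exact ht.1 (by simpa using e)

namespace LB
variable {t u : G} {S R Q J O : Subgroup G} {α : Ω} (h : LB Ω t u S R Q J O α)
include h

theorem ct {x : G} (hx : x ∈ S) : x * t = t * x := N_comm_t h.inv h.sq (h.sylu.le hx)
theorem QS : Q ≤ S := fun x hx => ((h.benS.mem x).1 hx).1
theorem QJ : Q ≤ J := fun x hx => ((h.benS.mem x).1 hx).2.1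
theorem RS : R ≤ S := fun x hx => ((h.memR x).1 hx).1
theorem fR {r : G} (hr : r ∈ R) {a : Ω} (ha : u • a = a) : r • a = a := ((h.memR r).1 hr).2 a ha
theorem uS : u ∈ S := h.sylu.le_of_normalizes
  (isPGroup_zpowers_of (n := 2) (by rw [show 2 ^ 2 = 2 + 2 by rfl, pow_add, pow_two, h.sq, h.inv.2]))
  le_normalizer h.sylu.le (mem_zpowers u)
theorem tS : t ∈ S := h.sq ▸ mul_mem h.uS h.uS
theorem uR : u ∈ R := (h.memR u).2 ⟨h.uS, fun _ ha => ha⟩
theorem tR : t ∈ R := h.sq ▸ mul_mem h.uR h.uR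
theorem uα : u • α = α := h.fix u h.uS
theorem tα : t • α = α := h.fix t h.tS
theorem tQ : t ∈ Q := (h.benS.mem t).2 ⟨h.tS, h.sq ▸ mul_mem h.ben.rJ h.ben.rJ, Or.inr (Or.inl rfl)⟩
theorem hq {q : G} (hq : q ∈ Q) : q = 1 ∨ q = t ∨ q * q = t :=
  ((h.benS.mem q).1 hq).2.2.imp_right (Or.imp_right And.left)
theorem sqQ {q : G} (hq : q ∈ Q) (h1 : q ∉ zpowers t) : q * q = t := by
  rw [mem_zp h.inv, not_or] at h1
  exact ((h.hq hq).resolve_left h1.1).resolve_left h1.2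
theorem zpQ {q : G} (hq : q ∈ Q) (h1 : q ∈ zpowers u) : q ∈ zpowers t := by
  rw [mem_zp h.inv]
  exact ((h.benS.mem q).1 hq).2.2.imp_right fun e => e.resolve_right fun e => e.2 h1
theorem card8 : Nat.card Q = 8 := (h.benS.q8 rfl).1
theorem five : (fixedBy Ω u).ncard = 5 := (h.benS.q8 rfl).2.1
theorem RK {r : G} (hr : r ∈ R) : r ∈ Kr Ω N[zpowers u] u := mem_Kr.2 ⟨h.sylu.le (h.RS hr), fun _ => h.fR hr⟩
theorem KR {r : G} (hr : r ∈ S) (hk : r ∈ Kr Ω N[zpowers u] u) : r ∈ R := (h.memR r).2 ⟨hr, (mem_Kr.1 hk).2⟩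
theorem cRQ {r q : G} (hr : r ∈ R) (hq : q ∈ Q) : Commute r q := h.benS.comm r (h.RS hr) (h.RK hr) q hq
theorem fS {x : G} (hx : x ∈ S) {a : Ω} (ha : u • a = a) : u • x • a = x • a := fix_N (h.sylu.le hx) ha
theorem reg {q : G} (hq : q ∈ Q) {b : Ω} (hb : u • b = b) (hne : b ≠ α) (e : q • b = b) : q ∈ zpowers t :=
  h.zpQ hq (h.benS.reg2 q (h.QS hq) (h.QJ hq) b hb hne e)
theorem tr {b c : Ω} (hb : u • b = b) (hc : u • c = c) (h1 : b ≠ α) (h2 : c ≠ α) : ∃ q ∈ Q, q • b = c := by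
  obtain ⟨y, hy, hJ, rfl⟩ := h.benS.reg1 b c hb hc h1 h2
  obtain ⟨ρ, hρ, q, hq, rfl⟩ := (h.benS.q8 rfl).2.2 y hy hJ
  exact ⟨q, hq, by rw [mul_smul, fix_zp (h.fS (h.QS hq) hb) hρ]⟩
theorem exβ : ∃ β : Ω, u • β = β ∧ β ≠ α := by
  obtain ⟨a, b, hab, ha, hb⟩ := h.ben.two
  by_cases e : a = α
  · exact ⟨b, hb, fun e' => hab (e.trans e'.symm)⟩
  · exact ⟨a, ha, e⟩
theorem infRQ {x : G} (hr : x ∈ R) (hq : x ∈ Q) : x ∈ zpowers t := by
  obtain ⟨β, h1, h2⟩ := h.exβ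
  exact h.reg hq h1 h2 (h.fR hr h1)
theorem neα {x : G} (hx : x ∈ S) {b : Ω} (hb : b ≠ α) : x • b ≠ α := fun e =>
  hb (by rw [← h.fix x hx] at e; simpa using e)
theorem not_one {r : G} (hr : ∀ a : Ω, u • a = a → r • a = a) : ¬ One Ω t r := fun e => by
  obtain ⟨a, b, hab, ha, hb⟩ := h.ben.two
  exact hab (e a b (fix_sq h.sq ha) (fix_sq h.sq hb) (hr a ha) (hr b hb))
theorem hu (C : Ctx G Ω) {r : G} (hr : r ∈ R) (e : r * r = 1) : r = 1 ∨ r = t :=
  C.mem_of_two h.inv (h.ct (h.RS hr)) e (h.not_one fun _ => h.fR hr)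
theorem rank : ∃ i ∈ Q, ∃ j ∈ Q, i * i = t ∧ j * j = t ∧ i * j ∉ zpowers t ∧ i * j = j * i * t := by
  obtain ⟨x, hx, y, hy, h1, h2, h3⟩ := h.benS.rank
  exact ⟨x, hx, y, hy, h.sqQ hx h1, h.sqQ hy h2, h3,
    anti_of_sq h.inv.2 (h.sqQ hx h1) (h.sqQ hy h2) (h.sqQ (mul_mem hx hy) h3)⟩
theorem anti {i j : G} (hi : i ∈ Q) (hj : j ∈ Q) (h1 : i ∉ zpowers t) (h2 : j ∉ zpowers t)
    (h3 : i * j ∉ zpowers t) : i * j = j * i * t :=
  anti_of_sq h.inv.2 (h.sqQ hi h1) (h.sqQ hj h2) (h.sqQ (mul_mem hi hj) h3)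

variable [Finite G]

theorem nQ : S ≤ N[Q] := fun x hx => mem_N_of fun q hq => by
  have hN := h.sylu.le hx
  have hxt : x * t * x⁻¹ = t := by rw [h.ct hx, mul_inv_cancel_right]
  obtain ⟨h1, h2, h3⟩ := (h.benS.mem q).1 hq
  refine (h.benS.mem _).2 ⟨mul_mem (mul_mem hx h1) (inv_mem hx), conj_mem (h.ben.Jn hN) h2, ?_⟩
  rcases h3 with rfl | rfl | ⟨e1, e2⟩
  · simp
  · exact Or.inr (Or.inl hxt)
  · exact Or.inr (Or.inr ⟨by rw [← hxt, ← e1]; group, fun e => e2 ((mem_N_iff.1 hN q).2 e)⟩)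

theorem nR : S ≤ N[R] := fun x hx => mem_N_of fun r hr => (h.memR _).2
  ⟨mul_mem (mul_mem hx (h.RS hr)) (inv_mem hx), fun a ha => by
    simpa using fix_conj (g := x) (h.fR hr (h.fS (inv_mem hx) ha))⟩

theorem memF {x : G} : x ∈ R ⊔ Q ↔ ∃ r ∈ R, ∃ q ∈ Q, x = r * q := by
  constructor
  · intro hx
    obtain ⟨r, hr, q, hq, rfl⟩ := (mem_sup_of_le_normalizer_right (h.RS.trans h.nQ)).1 hx
    exact ⟨r, hr, q, hq, rfl⟩
  · rintro ⟨r, hr, q, hq, rfl⟩
    exact mul_mem (mem_sup_left hr) (mem_sup_right hq)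

theorem FS : R ⊔ Q ≤ S := sup_le h.RS h.QS

/-- an element of `S` centralizing `Q` modulo `t` lies in `F` -/
theorem cenQ {x : G} (hx : x ∈ S) (hc : ∀ q ∈ Q, q * (x * q * x⁻¹) ∈ zpowers t) : x ∈ R ⊔ Q := by
  obtain ⟨β, h1, h2⟩ := h.exβ
  obtain ⟨q, hq, e⟩ := h.tr h1 (h.fS hx h1) h2 (h.neα hx h2)
  have : q⁻¹ * x ∈ R := (h.memR _).2 ⟨mul_mem (inv_mem (h.QS hq)) hx, fun a ha => by
    by_cases e1 : a = α
    · rw [e1]; exact h.fix _ (mul_mem (inv_mem (h.QS hq)) hx)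
    obtain ⟨p, hp, rfl⟩ := h.tr h1 ha h2 e1
    have hp' := conj_mem (h.nQ hx) hp
    have e2 : x • p • β = (x * p * x⁻¹) • q • β := by rw [e, ← mul_smul, ← mul_smul, inv_mul_cancel_right]
    have ft : ∀ z ∈ zpowers t, ∀ b : Ω, u • b = b → z • b = b := fun z hz b hb => fix_zp (fix_sq h.sq hb) hz
    have e3 : (x * p * x⁻¹) • q • β = p⁻¹ • q • β := by
      rw [eq_inv_smul_iff, ← mul_smul p, ft _ (hc p hp) _ (h.fS (h.QS hq) h1)]
    have e4 : p * p ∈ zpowers t := by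
      rcases h.hq hp with rfl | rfl | e
      · simp
      · exact mul_mem (mem_zpowers _) (mem_zpowers _)
      · rw [e]; exact mem_zpowers t
    rw [mul_smul, e2, e3, inv_smul_eq_iff, inv_smul_eq_iff, ← mul_smul p]
    rcases comm_mod h.inv.2 (fun q hq => h.ct (h.QS hq)) (fun q hq => h.hq hq) hp hq with e5 | e5 <;> rw [e5, mul_smul]
    · rw [← mul_smul p, ft _ e4 _ h1]
    · rw [fix_sq h.sq ha, mul_smul, ← mul_smul p, ft _ e4 _ h1]⟩
  simpa using mul_mem (mem_sup_right hq : q ∈ R ⊔ Q) (mem_sup_left this)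

theorem sqz {q : G} (hq : q ∈ Q) : q * q ∈ zpowers t := by
  rcases h.hq hq with rfl | rfl | e
  · simp
  · exact mul_mem (mem_zpowers _) (mem_zpowers _)
  · rw [e]; exact mem_zpowers t

theorem cenQ' {x : G} (hx : x ∈ S) (hc : ∀ q ∈ Q, Md t (x * q * x⁻¹) q) : x ∈ R ⊔ Q :=
  h.cenQ hx fun q hq => Md.one_iff.1 (((hc q hq).mul_left (h.ct (h.QS hq))).trans (Md.one_iff.2 (h.sqz hq)))

theorem cenQ2 {x i j : G} (hx : x ∈ S) (hi : i ∈ Q) (hj : j ∈ Q) (ei : i * i = t) (ej : j * j = t)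
    (eij : i * j ∉ zpowers t) (h1 : Md t (x * i * x⁻¹) i) (h2 : Md t (x * j * x⁻¹) j) : x ∈ R ⊔ Q := by
  refine h.cenQ' hx fun q hq => ?_
  rcases q8_enum' h.inv h.card8 h.tQ hi hj ei ej eij hq with e | e | e | e <;>
    refine ((e.conj (h.ct hx)).trans ?_).trans e.symm
  · exact Md.of_eq (by simp)
  · exact h1
  · exact h2
  · simpa [mul_assoc] using h1.mul h2 (h.ct (conj_mem (le_normalizer hx) (h.QS hi)))

theorem sqF (C : Ctx G Ω) {x : G} (hx : x ∈ R ⊔ Q) (e : x * x = t) : x ∈ R ∨ x ∈ Q := by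
  obtain ⟨r, hr, q, hq, rfl⟩ := h.memF.1 hx
  by_cases e1 : q ∈ zpowers t
  · exact Or.inl (mul_mem hr (zpowers_le.2 h.tR e1))
  · rw [← pow_two, (h.cRQ hr hq).mul_pow, pow_two, pow_two, h.sqQ hq e1] at e
    exact Or.inr (mul_mem (zpowers_le.2 h.tQ ((mem_zp h.inv).2 (h.hu C hr (by simpa using e)))) hq)

theorem exj {i : G} (hi : i ∈ Q) (ei : i * i = t) :
    ∃ j ∈ Q, j * j = t ∧ i * j ∉ zpowers t ∧ i * j = j * i * t := by
  obtain ⟨j, hj, ej, e⟩ := exists_anti h.inv.2 (fun _ hq => h.hq hq) h.card8 hi ei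
  refine ⟨j, hj, ej, fun e1 => h.inv.1 ?_, e⟩
  have : i * j ∈ C1[i] := zpowers_le.2 (mem_C1.2 (h.ct (h.QS hi)).symm) e1
  have e2 : j ∈ C1[i] := by simpa using mul_mem (inv_mem (mem_C1_self i)) this
  rw [← mem_C1.1 e2] at e
  simpa using e

/-- a square root of `t` in `R` has type (b) and the same fixed points -/
theorem typeB (C : Ctx G Ω) {r : G} (hr : r ∈ R) (e : r * r = t) :
    TypeII Ω t r t ∧ ∀ a : Ω, r • a = a ↔ u • a = a := by
  haveI := C.finite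
  obtain ⟨i, hi, j, hj, ei, ej, eij, -⟩ := h.rank
  have two : Two Ω r := by
    obtain ⟨a, b, hab, ha, hb⟩ := h.ben.two
    exact ⟨a, b, hab, h.fR hr ha, h.fR hr hb⟩
  have k1 : ∀ q ∈ Q, q * q = t → q * r ∉ zpowers t ∧ q * r * (q * r) = 1 := fun q hq eq =>
    ⟨fun e1 => not_zp_of_sq h.inv eq (h.infRQ (by simpa using mul_mem (zpowers_le.2 h.tR e1) (inv_mem hr)) hq), by
      rw [← pow_two, (h.cRQ hr hq).symm.mul_pow, pow_two, pow_two, eq, e, h.inv.2]⟩
  have k2 : ∀ q ∈ Q, q * q = t → IsInv (q * r) ∧ q * r ≠ t ∧ Commute (q * r) r := fun q hq eq =>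
    ⟨⟨fun e1 => (k1 q hq eq).1 (e1 ▸ one_mem _), (k1 q hq eq).2⟩, fun e1 => (k1 q hq eq).1 (e1 ▸ mem_zpowers _),
      (h.cRQ hr hq).symm.mul_left (Commute.refl r)⟩
  have hS := fun q hq => mul_mem (h.QS (x := q) hq) (h.RS hr)
  have tt : t ∈ zpowers t := mem_zpowers t
  rcases C.ben_u h.inv ⟨e, two⟩ with hA | ⟨J', O', hB, hf⟩ | hB
  · exfalso
    rcases hA.uniq S h.sylu.isPGroup _ (hS i hi) _ (hS j hj) (k2 i hi ei).1 (k2 j hj ej).1 (k2 i hi ei).2.2
      (k2 j hj ej).2.2 (k2 i hi ei).2.1 (k2 j hj ej).2.1 with e1 | e1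
    · rw [mul_right_cancel e1, ei] at eij; exact eij tt
    · rw [mul_assoc, h.ct (h.RS hr), ← mul_assoc] at e1
      rw [mul_right_cancel e1, ← mul_assoc, ei] at eij; exact eij (mul_mem tt tt)
  · exfalso
    obtain ⟨T', hT', hle⟩ := exists_isSylowIn_ge (U := S ⊓ N[zpowers r]) h.sylu.isPGroup.to_inf_left inf_le_right
    obtain ⟨a, ha⟩ := C.fix2 T' hT'.isPGroup
    obtain ⟨Q', hQ'⟩ := hB.syl T' hT' a (ha r (hle ⟨h.RS hr, le_normalizer (mem_zpowers r)⟩)) ha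
    have k3 : ∀ q ∈ Q, q * q = t → q * r ∈ Q' := fun q hq eq => (hQ'.mem _).2
      ⟨hle ⟨hS q hq, mem_N_zp_of_comm (k2 q hq eq).2.2⟩, hf _ (k2 q hq eq).2.2 (Or.inl (k1 q hq eq).2),
        Or.inr (Or.inr ⟨(k1 q hq eq).2, fun e1 => not_zp_of_sq h.inv eq (h.infRQ
          (by simpa using mul_mem (zpowers_le.2 hr e1) (inv_mem hr)) hq)⟩)⟩
    have e2 : i * r * (j * r) = i * j * t := by
      rw [mul_assoc, ← mul_assoc r, (h.cRQ hr hj).eq, mul_assoc j, e, mul_assoc]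
    have m : Md t (i * j * t) (i * j) := Md.mul_t (h.ct (h.QS (mul_mem hi hj)))
    have := ((hQ'.mem _).1 (mul_mem (k3 i hi ei) (k3 j hj ej))).2.2
    rw [e2] at this
    rcases this with e3 | e3 | ⟨e3, -⟩
    · exact eij (m.symm.mem tt (e3 ▸ one_mem _))
    · exact eij (m.symm.mem tt (e3.symm ▸ tt))
    · rw [m.sq h.inv (h.ct (h.QS (mul_mem hi hj))), h.sqQ (mul_mem hi hj) eij] at e3; exact h.inv.1 e3
  · refine ⟨hB, ?_⟩
    obtain ⟨J', O', hB, -⟩ := hB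
    obtain ⟨T', hT', hle⟩ := exists_isSylowIn_ge (U := S ⊓ N[zpowers r]) h.sylu.isPGroup.to_inf_left inf_le_right
    obtain ⟨a, ha⟩ := C.fix2 T' hT'.isPGroup
    obtain ⟨Q', hQ'⟩ := hB.syl T' hT' a (ha r (hle ⟨h.RS hr, le_normalizer (mem_zpowers r)⟩)) ha
    have := Set.eq_of_subset_of_ncard_le (s := fixedBy Ω u) (t := fixedBy Ω r) (fun a ha => h.fR hr ha)
      (by rw [h.five, (hQ'.q8 rfl).2.1])
    exact fun a => (Set.ext_iff.1 this a).symm

theorem fixR (C : Ctx G Ω) {r : G} (hr : r ∈ R) (h1 : r ∉ zpowers t) {a : Ω} (ha : r • a = a) : u • a = a := by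
  obtain ⟨n, hn⟩ := pow_eq_one_of_mem h.sylu.isPGroup (h.RS hr)
  obtain ⟨m, e1, e2⟩ := exists_last (g := r) (p := fun y => y ∈ zpowers t) h1 (n := n) (by rw [hn]; exact one_mem _)
  have e3 := ((mem_zp h.inv).1 e2).resolve_left fun e => e1 ((mem_zp h.inv).2 (h.hu C (pow_mem hr _) e))
  exact ((h.typeB C (pow_mem hr _) e3).2 a).1 (fix_zp ha (npow_mem_zpowers r _))

theorem NL_of (C : Ctx G Ω) {r g : G} (hr : r ∈ R) (e : r * r = t) (hg : Commute g t) (hr' : g * r * g⁻¹ ∈ R) :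
    g ∈ NL Ω t u := by
  refine ⟨hg, fun a => ?_⟩
  rw [← (h.typeB C hr' (by
    rw [show g * r * g⁻¹ * (g * r * g⁻¹) = g * (r * r) * g⁻¹ by group, e, hg.eq, mul_inv_cancel_right])).2,
    ← (h.typeB C hr e).2, ← mul_smul, inv_mul_cancel_right, mul_smul, smul_left_cancel_iff]

theorem invF (C : Ctx G Ω) {y : G} (hy : y ∈ S) (e : y * y = 1) : ∃ r ∈ R, ∃ q ∈ Q, y = r * q := by
  by_cases e1 : y = 1
  · exact ⟨1, one_mem _, 1, one_mem _, by simp [e1]⟩
  by_cases e2 : y = t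
  · exact ⟨t, h.tR, 1, one_mem _, by simp [e2]⟩
  obtain ⟨q, hq, -, hk⟩ := h.benS.f1 y hy (e ▸ one_mem _) ((C.one_inv h.inv ⟨e1, e⟩ e2 (h.ct hy)).of_sq h.sq)
  exact ⟨_, h.KR (mul_mem hy (inv_mem (h.QS hq))) hk, q, hq, by simp⟩

theorem not_sylow (C : Ctx G Ω) {T : Subgroup G} (hT : IsSylowIn 2 T C1[t]) (hST : S ≤ T)
    (hall : ∀ y ∈ T, y * y = 1 → y ∈ S) : False :=
  C.flemma h.inv hT (h.RS.trans hST) (h.QS.trans hST) (fun _ hr _ hq => h.cRQ hr hq) h.tR (fun _ hr => h.hu C hr)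
    (fun _ hq => h.hq hq) h.card8 fun y hy e => h.invF C (hall y hy e) e

end LB

theorem exists_lb [Finite G] (C : Ctx G Ω) {t u : G} (ht : IsInv t) (hu : u * u = t) (hb : TypeII Ω t u t)
    {S : Subgroup G} (hS : IsSylowIn 2 S N[zpowers u]) : ∃ Q J O α, LB Ω t u S (Kr Ω S u) Q J O α := by
  obtain ⟨J, O, hB, hf⟩ := hb
  obtain ⟨a, ha⟩ := C.fix2 S hS.isPGroup
  have huS : u ∈ S := hS.le_of_normalizes
    (isPGroup_zpowers_of (n := 2) (by rw [show 2 ^ 2 = 2 + 2 by rfl, pow_add, pow_two, hu, ht.2]))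
    le_normalizer hS.le (mem_zpowers u)
  obtain ⟨Q, hQ⟩ := hB.syl S hS a (ha u huS) ha
  exact ⟨Q, J, O, a, ht, hu, ha, hS, hB, hf, hQ, fun _ => mem_Kr⟩

end Cfsg.Lib.TGC
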