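import Cfsg.Agent.Lib.TGC.Sig
import Cfsg.Agent.Lib.Core.Balance

/-! Groups whose Sylow 2-subgroups have a normal elementary abelian subgroup of order eight; balance. -/

set_option autoImplicit false

namespace Cfsg.Lib.TGC
open Subgroup MulAction Cfsg.Lib Cfsg.Lib.FT Cfsg.Lib.Bender
open scoped commutatorElement

variable {G : Type*} [Group G] [Finite G]

theorem klein_iff {V : Subgroup G} : IsKleinFour V ↔ IsElementaryAbelian 2 V ∧ Nat.card V = 2 ^ 2 := by
  refine ⟨fun h => ⟨⟨IsKleinFour.isMulCommutative, fun a ha => ?_⟩, h.card_four⟩, fun h => ⟨h.2, ?_⟩⟩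
  · rw [pow_two]; exact congrArg Subtype.val (IsKleinFour.mul_self (⟨a, ha⟩ : V))
  · have : Nontrivial V := Finite.one_lt_card_iff_nontrivial.1 (by rw [h.2]; norm_num)
    exact (Monoid.exponent_eq_prime_iff Nat.prime_two).2 fun g hg =>
      orderOf_eq_prime (Subtype.ext (h.1.2 g g.2)) hg

theorem four_le_card_cent {E : Subgroup G} (hE : IsElementaryAbelian 2 E) (h8 : 2 ^ 3 ≤ Nat.card E) {u : G}
    (hu : u ∈ N[E]) (hu2 : u ^ 2 = 1) : 2 ^ 2 ≤ Nat.card ↥(E ⊓ C[zpowers u]) := by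
  have h1 := card_le_sq_of_sq_eq_one hE hu hu2
  refine pow_succ_le_card_of_lt (elemAb_isPGroup (elemAb_mono hE inf_le_left)) ?_
  by_contra hc
  push Not at hc
  have := Nat.pow_le_pow_left hc 2
  omega

theorem exists_cent_inv {E V : Subgroup G} (hE : IsElementaryAbelian 2 E) (h8 : 2 ^ 3 ≤ Nat.card E)
    (hV : IsPGroup 2 V) (hn : V ≤ N[E]) : ∃ z ∈ E, IsInv z ∧ z ∈ C[V] := by
  obtain ⟨⟨z, hz⟩, h1⟩ := ne_bot_iff_exists_ne_one.1
    (pg_inf_centralizer_ne_bot (elemAb_isPGroup hE) hV hn (ne_bot_of_pow_le_card h8))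
  exact ⟨z, hz.1, isInv_of_ea hE hz.1 fun e => h1 (Subtype.ext e), hz.2⟩

theorem fourConnected_of_normal {E : Subgroup G} (hE : IsElementaryAbelian 2 E) (h8 : 2 ^ 3 ≤ Nat.card E)
    (hn : N[E] = ⊤) : IsFourConnected G := by
  set R := fun A B : Subgroup G => IsKleinFour A ∧ IsKleinFour B ∧ ∀ a ∈ A, ∀ b ∈ B, a * b = b * a with hR
  have hs : Std.Symm R := ⟨fun A B h => ⟨h.2.1, h.1, fun b hb a ha => (h.2.2 a ha b hb).symm⟩⟩
  have key : ∀ V : Subgroup G, IsKleinFour V → ∃ W ≤ E, IsKleinFour W ∧ Relation.ReflTransGen R V W := by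
    intro V hV
    obtain ⟨v1, v2⟩ := klein_iff.1 hV
    obtain ⟨z, hz, hz1, hzc⟩ := exists_cent_inv hE h8 (elemAb_isPGroup v1) (hn ▸ le_top)
    obtain ⟨x, hx, hx1, hne⟩ := exists_pair v1 v2.ge hz1.sq
    obtain ⟨U, u1, u2, u3⟩ := exists_four hx1 hz1 hne (hzc x hx)
    have hB := elemAb_mono hE (inf_le_left : E ⊓ C[zpowers x] ≤ E)
    obtain ⟨W, w1, w2⟩ := exists_le_card_eq (elemAb_isPGroup hB)
      (four_le_card_cent hE h8 (hn ▸ mem_top x) hx1.sq)
    have hU := klein_iff.2 ⟨u1, u2⟩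
    have hW := klein_iff.2 ⟨elemAb_mono hB w1, w2⟩
    have r1 : R V U := by
      refine ⟨hV, hU, fun a ha b hb => ?_⟩
      have c1 : Commute a x := Quad.ea_comm v1 ha hx
      have c2 : Commute a z := hzc a ha
      rcases (u3 b).1 hb with rfl | rfl | rfl | rfl
      exacts [by simp, c1, c2, c1.mul_right c2]
    have r2 : R U W := by
      refine ⟨hU, hW, fun a ha b hb => ?_⟩
      have c1 : Commute x b := (w1 hb).2 x (mem_zpowers x)
      have c2 : Commute z b := Quad.ea_comm hE hz (w1 hb).1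
      rcases (u3 a).1 ha with rfl | rfl | rfl | rfl
      exacts [by simp, c1, c2, c1.mul_left c2]
    exact ⟨W, w1.trans inf_le_left, hW, (Relation.ReflTransGen.single r1).tail r2⟩
  intro U V hU hV
  obtain ⟨U', u1, u2, u3⟩ := key U hU
  obtain ⟨V', v1, v2, v3⟩ := key V hV
  exact (u3.tail ⟨u2, v2, fun a ha b hb => Quad.ea_comm hE (u1 ha) (v1 hb)⟩).trans
    (Relation.ReflTransGen.symmetric.symm _ _ v3)

theorem exists_e8_ge {E V : Subgroup G} (hE : IsElementaryAbelian 2 E) (h8 : 2 ^ 3 ≤ Nat.card E)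
    (hV : IsElementaryAbelian 2 V) (h4 : Nat.card V = 2 ^ 2) (hn : V ≤ N[E]) :
    ∃ A : Subgroup G, IsElementaryAbelian 2 A ∧ 2 ^ 3 ≤ Nat.card A ∧ V ≤ A := by
  obtain ⟨z, hz, hz1, hzc⟩ := exists_cent_inv hE h8 (elemAb_isPGroup hV) hn
  by_cases hzV : z ∈ V
  · obtain ⟨x, hx, hx1, hne⟩ := exists_pair hV h4.ge hz1.sq
    obtain ⟨F, f1, f2, f3, f4, -⟩ := exists_e8_of_normalizes hE h8 (hn hx) hx1.sq
    obtain ⟨U, -, u2, u3⟩ := exists_four hx1 hz1 hne (hzc x hx)
    have hUV : U = V := eq_of_le_of_card_ge (fun g hg => by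
      rcases (u3 g).1 hg with rfl | rfl | rfl | rfl
      exacts [one_mem _, hx, hzV, mul_mem hx hzV]) (by rw [u2, h4])
    have hc : zpowers z ≤ C[F] := zpowers_le.2 (centralizer_le f4 (by
      rw [centralizer_sup, centralizer_zpowers]
      exact ⟨mem_C1.2 (hzc x hx).symm, fun e he => Quad.ea_comm hE he hz⟩))
    refine ⟨_, elemAb_sup (elemAb_zpowers hz1.sq) f1 hc, f2.trans (card_le_of_le le_sup_right),
      hUV ▸ fun g hg => ?_⟩
    have a := mem_sup_left (T := F) (mem_zpowers z)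
    have b := mem_sup_right (S := zpowers z) f3
    rcases (u3 g).1 hg with rfl | rfl | rfl | rfl
    exacts [one_mem _, b, a, mul_mem b a]
  · obtain ⟨h1, h2⟩ := ea_zpowers_sup hV hz1.sq hzc hzV
    exact ⟨_, h1, by rw [h2, h4]; rfl, le_sup_right⟩

/-- every Sylow 2-subgroup has a normal elementary abelian subgroup of order at least eight -/
def Scn (G : Type*) [Group G] : Prop := ∀ S : Sylow 2 G, ∃ E : Subgroup G,
  IsElementaryAbelian 2 E ∧ 2 ^ 3 ≤ Nat.card E ∧ E ≤ S ∧ (S : Subgroup G) ≤ N[E]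

theorem Scn.rank (h : Scn G) : ¬ PRankLE 2 2 G := by
  obtain ⟨E, h1, h2, -⟩ := h default
  exact not_pRankLE_iff.2 ⟨E, h1, h2⟩

theorem Scn.conn (h : Scn G) : IsFourConnected G ∨ ∃ S : Sylow 2 G, IsFourConnected (S : Subgroup G) := by
  obtain ⟨E, h1, h2, h3, h4⟩ := h default
  refine Or.inr ⟨default, fourConnected_of_normal (elemAb_subgroupOf h1 _)
    (by rwa [card_subgroupOf_of_le h3]) ?_⟩
  exact normalizer_eq_top_iff.2 (normal_subgroupOf_of_le_normalizer h4)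

theorem Scn.exists_ge (h : Scn G) {x y : G} (hx : IsInv x) (hy : IsInv y) (hc : Commute x y) :
    ∃ A : Subgroup G, IsElementaryAbelian 2 A ∧ 2 ^ 3 ≤ Nat.card A ∧ x ∈ A ∧ y ∈ A := by
  by_cases hne : x = y
  · subst hne
    obtain ⟨S, hS⟩ := (elemAb_isPGroup (elemAb_zpowers (p := 2) hx.sq)).exists_le_sylow
    obtain ⟨E, h1, h2, -, h4⟩ := h S
    obtain ⟨F, f1, f2, f3, -⟩ := exists_e8_of_normalizes h1 h2 (h4 (hS (mem_zpowers x))) hx.sq
    exact ⟨F, f1, f2, f3, f3⟩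
  obtain ⟨V, v1, v2, v3⟩ := exists_four hx hy hne hc
  obtain ⟨S, hS⟩ := (elemAb_isPGroup v1).exists_le_sylow
  obtain ⟨E, h1, h2, -, h4⟩ := h S
  obtain ⟨A, a1, a2, a3⟩ := exists_e8_ge h1 h2 v1 v2 (hS.trans h4)
  exact ⟨A, a1, a2, a3 ((v3 _).2 (by simp)), a3 ((v3 _).2 (by simp))⟩

theorem Scn.fun (h : Scn G) {θ : G → Subgroup G} (heq : ∀ g a : G, θ (g * a * g⁻¹) = g •ᶜ θ a)
    (hθ : ∀ B : Subgroup G, IsMulCommutative B → IsPGroup 2 B → ¬ PRankLE 2 2 B → IsSignalizerFunctor 2 B θ) :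
    Fun θ := by
  have key : ∀ a b : G, IsInv a → IsInv b → Commute a b →
      ∃ A : Subgroup G, IsSignalizerFunctor 2 A θ ∧ a ∈ A ∧ b ∈ A := fun a b ha hb hc => by
    obtain ⟨A, a1, a2, a3, a4⟩ := h.exists_ge ha hb hc
    exact ⟨A, hθ A a1.1 (elemAb_isPGroup a1) (not_pRankLE_subgroup_iff.2 ⟨A, le_rfl, a1, a2⟩), a3, a4⟩
  refine ⟨fun a ha => ?_, fun a ha => ?_, fun g a _ => heq g a, fun a b ha hb hc => ?_⟩
  · obtain ⟨A, a1, a2, -⟩ := key a a ha ha (Commute.refl a)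
    exact a1.1 a a2 ha.1
  · obtain ⟨A, a1, a2, -⟩ := key a a ha ha (Commute.refl a)
    rw [← Nat.not_even_iff_odd, even_iff_two_dvd]; exact a1.2.1 a a2 ha.1
  · obtain ⟨A, a1, a2, a3⟩ := key a b ha hb hc
    exact a1.2.2.2 a a2 ha.1 b a3 hb.1

/-- failure of balance gives an unbalanced `p`-component -/
theorem exists_unbalanced {p : ℕ} [Fact p.Prime] {x : G} (hx : orderOf x = p) {D : Subgroup G}
    (hD : D ≤ centralizerPPrimeCore p x) (hn : ¬ D ≤ pPrimeCore p G) :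
    ∃ L : Subgroup G, IsPComponent p L ∧ x ∈ N[L] ∧ ⁅L, D⁆ = L := by
  set f := QuotientGroup.mk' (pPrimeCore p G) with hf
  have hs : Function.Surjective f := QuotientGroup.mk'_surjective _
  have hker : (Nat.card f.ker).Coprime p := by
    rw [QuotientGroup.ker_mk']; exact coprime_card_pPrimeCore
  have hx' := orderOf_map_of_ker_coprime f hker hx
  have h1 : D.map f ≤ centralizerPPrimeCore p (f x) := by
    rw [← map_centralizerPPrimeCore_of_ker_coprime f hs hker (isPGroup_zpowers_of_orderOf hx)]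
    exact map_mono hD
  have hO := pPrimeCore_quotient_pPrimeCore (p := p) (G := G)
  by_contra hc
  refine hn ?_
  rw [← QuotientGroup.ker_mk' (pPrimeCore p G), ← Subgroup.map_eq_bot_iff]
  refine eq_bot_of_centralizes_fstar hO (coprime_card_of_le h1 (coprime_card_pPrimeCoreOf _))
    (commutator_eq_bot_of_le h1 le_rfl (commutator_centralizerPPrimeCore_pCore hx')) fun K hK => ?_
  by_contra h2
  have h3 : ⁅K, zpowers (f x)⁆ = K := by
    by_contra h
    exact h2 (commutator_eq_bot_of_le le_rfl h1 (commutator_centralizerPPrimeCore_eq_bot hO hx' hK h))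
  have h4 := h1.trans (centralizerPPrimeCore_le_normalizer hO hx' hK)
  have h5 : ⁅K, D.map f⁆ = K := by
    by_contra h
    exact h2 (hK.isQuasisimple.commutator_eq_bot_of_ne h4 h)
  obtain ⟨L, hL, rfl⟩ := exists_isPComponent_map_eq hK
  have h6 : D ≤ N[L] := (map_le_iff_le_comap.1 h4).trans hL.comap_normalizer_le
  refine hc ⟨L, hL, hL.comap_normalizer_le
    (le_normalizer_iff_commutator_le_left.mpr h3.le (mem_zpowers _)), ?_⟩
  refine hL.isPQuasi.eq_of_isSubnormal_of_le_sup (le_normalizer_iff_commutator_le_left.mp h6)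
    (normal_subgroupOf_of_le_normalizer (le_normalizer_commutator_left L D)).isSubnormal
    le_normalizer_of_normal coprime_card_pPrimeCore ?_
  rw [← Subgroup.map_commutator] at h5
  rw [← QuotientGroup.ker_mk' (pPrimeCore p G), ← comap_map_eq, h5]
  exact le_comap_map _ _

theorem balance_or_triple {a x : G} (hx : IsInv x) (hc : Commute a x) :
    centralizerPPrimeCore 2 x ⊓ C1[a] ≤ centralizerPPrimeCore 2 a ∨
    ∃ L : Subgroup C1[a], IsPComponent 2 L ∧ (∀ l ∈ L.map C1[a].subtype, x * l * x⁻¹ ∈ L.map C1[a].subtype) ∧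
      L.map C1[a].subtype = (oddCore L).map (C1[a].subtype.comp L.subtype) ⊔
        ⁅L.map C1[a].subtype, centralizerPPrimeCore 2 x ⊓ C1[a]⁆ := by
  by_cases hn : (centralizerPPrimeCore 2 x).subgroupOf C1[a] ≤ pPrimeCore 2 C1[a]
  · exact Or.inl (by rw [← subgroupOf_map_subtype]; exact map_mono hn)
  have hxa : x ∈ C1[a] := mem_C1.2 hc.symm
  obtain ⟨L, hL, h1, h2⟩ := exists_unbalanced (x := (⟨x, hxa⟩ : C1[a]))
    (by rw [← orderOf_coe]; exact hx.orderOf_eq) (centralizerPPrimeCore_subgroupOf_le ⟨x, hxa⟩) hn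
  refine Or.inr ⟨L, hL, ?_, ?_⟩
  · rintro _ ⟨l, hl, rfl⟩
    exact ⟨_, conj_mem_of_mem_normalizer h1 hl, rfl⟩
  · rw [← subgroupOf_map_subtype, ← Subgroup.map_commutator, h2, right_eq_sup, ← map_map]
    exact map_mono (map_subtype_le _)

end Cfsg.Lib.TGC
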