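import Cfsg.Agent.Lib.TGC.Ben
import Cfsg.Agent.Lib.TGC.El

/-! An involution of type B has a square root of type (b) (plan, section TypeAC). -/

set_option autoImplicit false
set_option linter.unusedSectionVars false

namespace Cfsg.Lib.TGC
open Subgroup MulAction Cfsg.Lib Cfsg.Lib.FT Cfsg.Lib.Bender Cfsg.Lib.JK
open scoped commutatorElement

variable {G Ω : Type*} [Group G] [MulAction G Ω] [Finite G]

namespace AC

variable (Ω) in
/-- type (c) together with a Sylow subgroup -/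
structure CS (t c : G) (J O T Q : Subgroup G) (α : Ω) : Prop where
  sq : c * c = t
  ben : Ben Ω t c 1 N[zpowers c] J O
  full : ∀ y, Commute y c → (y * y = 1 ∨ y * y = t) → y ∈ J
  syl : IsSylowIn 2 T N[zpowers c]
  fix : ∀ x ∈ T, x • α = α
  bs : BenS Ω t c 1 N[zpowers c] J O T Q α

variable {t u c x y q : G}

theorem self_mem {T : Subgroup G} (ht : IsInv t) (hc : c * c = t) (hT : IsSylowIn 2 T N[zpowers c]) :
    c ∈ T := mem_syl hT (p2 ht (.inr hc)) (memN_of_comm (Commute.refl c)) hT.le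

theorem exists_CS (C : Ctx G Ω) (ht : IsInv t) (hc : c * c = t) (h : TypeII Ω t c 1) {P : Subgroup G}
    (hP : IsPGroup 2 P) (hPN : P ≤ N[zpowers c]) : ∃ J O T Q, ∃ α : Ω, CS Ω t c J O T Q α ∧ P ≤ T := by
  obtain ⟨J, O, hb, hf⟩ := h
  obtain ⟨T, hT, hPT⟩ := exists_isSylowIn_ge hP hPN
  obtain ⟨α, hα⟩ := C.fix2 T hT.isPGroup
  obtain ⟨Q, hQ⟩ := hb.syl T hT α (hα c (self_mem ht hc hT)) hα
  exact ⟨J, O, T, Q, α, ⟨hc, hb, hf, hT, hα, hQ⟩, hPT⟩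

namespace CS
variable {J O T Q : Subgroup G} {α : Ω} (h : CS Ω t c J O T Q α)
include h

theorem inv : IsInv t := h.ben.inv

theorem cT : c ∈ T := self_mem h.inv h.sq h.syl

theorem tT : t ∈ T := h.sq ▸ mul_mem h.cT h.cT

theorem QT (hq : q ∈ Q) : q ∈ T := ((h.bs.mem q).1 hq).1

theorem Qc (hq : q ∈ Q) : Commute q c := c1.1 (h.ben.Jc ((h.bs.mem q).1 hq).2.1)

theorem Qt (hq : q ∈ Q) : Commute q t := h.sq ▸ (h.Qc hq).mul_right (h.Qc hq)

theorem Tt (hx : x ∈ T) : Commute x t := comm_of_memN h.inv h.sq (h.syl.le hx)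

theorem sq1 (hq : q ∈ Q) : q * q = 1 := by
  rcases ((h.bs.mem q).1 hq).2.2 with e | e | e
  · rw [e, mul_one]
  · rw [e, h.inv.2]
  · exact e.1

theorem commQ (hx : x ∈ Q) (hy : y ∈ Q) : Commute x y := by
  have := h.sq1 (mul_mem hx hy)
  change x * y = y * x
  rw [← inv_eq_of_mul_eq_one_right this, mul_inv_rev, inv_eq_of_mul_eq_one_right (h.sq1 hx),
    inv_eq_of_mul_eq_one_right (h.sq1 hy)]

theorem memQ (hq : q ∈ T) (h1 : q * q = 1) (hc : Commute q c) : q ∈ Q := by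
  refine (h.bs.mem q).2 ⟨hq, h.full q hc (.inl h1), ?_⟩
  by_cases e : q ∈ zpowers c
  · exact (of_sq_one h.inv h.sq e h1).imp id .inl
  · exact .inr (.inr ⟨h1, e⟩)

theorem tQ : t ∈ Q := h.memQ h.tT h.inv.2 (comm_t h.sq).symm

theorem invQ (hq : q ∈ Q) (h1 : q ∉ zpowers t) : IsInv q ∧ q ≠ t :=
  ⟨⟨fun e => h1 (e ▸ one_mem _), h.sq1 hq⟩, fun e => h1 (e ▸ mem_zpowers _)⟩

theorem notA (hA : TypeA Ω t u) (hu : ∀ q ∈ Q, Commute q u) : False := by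
  obtain ⟨x, hx, y, hy, h1, h2, h3⟩ := h.bs.rank
  rcases hA.uniq T h.syl.isPGroup x (h.QT hx) y (h.QT hy) (h.invQ hx h1).1 (h.invQ hy h2).1 (hu x hx)
    (hu y hy) (h.invQ hx h1).2 (h.invQ hy h2).2 with e | e
  · exact h3 (by rw [e, h.sq1 hx]; exact one_mem _)
  · exact h3 (by rw [e, ← mul_assoc, h.sq1 hx, one_mul]; exact mem_zpowers _)

theorem exists_conj (hx : IsInv x) (h1 : x ≠ t) (h2 : Commute x c) :
    ∃ n ∈ N[zpowers c], n * x * n⁻¹ ∈ Q ∧ n * x * n⁻¹ ∉ zpowers t := by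
  obtain ⟨n, hn, e⟩ := exists_conj_mem h.syl (P2.of_sq hx.2) (memN_of_comm h2)
  refine ⟨n, hn, h.memQ e (hx.conj n).2 (comm_conj_N hn h2), fun e => ?_⟩
  rcases (zp2 h.inv).1 e with e | e
  · exact (hx.conj n).1 e
  · exact conj_ne (comm_of_memN h.inv h.sq hn) h1 e

theorem tor (hx : IsInv x) (h1 : x ≠ t) (h2 : Commute x c) (hy : IsInv y) (h3 : y ≠ t)
    (h4 : Commute y c) : ∃ g ∈ N[zpowers c], g * x * g⁻¹ = y ∨ g * x * g⁻¹ = y * t := by
  obtain ⟨n, hn, e1, e2⟩ := h.exists_conj hx h1 h2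
  obtain ⟨m, hm, e3, e4⟩ := h.exists_conj hy h3 h4
  obtain ⟨k, hk, -, -, e⟩ := h.bs.tor _ e1 _ e3 e2 e4
  refine ⟨m⁻¹ * k * n, mul_mem (mul_mem (inv_mem hm) (h.ben.JN hk)) hn, ?_⟩
  rw [show m⁻¹ * k * n * x * (m⁻¹ * k * n)⁻¹ = m⁻¹ * (k * (n * x * n⁻¹) * k⁻¹) * m by group]
  rcases e with e | e <;> rw [e]
  · left; group
  · right
    rw [mul_assoc, mul_assoc _ t, ← (comm_of_memN h.inv h.sq hm).eq]; group

/-- decomposition of an element with one fixed point -/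
theorem dec (hx : x ∈ T) (h2 : x * x = 1 ∨ x * x = t) (h1 : One Ω t x) :
    ∃ k ∈ T, ∃ q ∈ Q, q ∉ zpowers t ∧ k ∈ Kr Ω N[zpowers c] c ∧ Commute k q ∧ x = k * q ∧
      k * k = x * x := by
  obtain ⟨q, hq, e1, e2⟩ := h.bs.f1 x hx (by
    rcases h2 with e | e <;> rw [e]
    exacts [one_mem _, t_mem_Kr h.sq]) (One.sq h1 h.sq)
  have hk := mul_mem hx (inv_mem (h.QT hq))
  have hc := h.bs.comm _ hk e2 q hq
  refine ⟨_, hk, q, hq, e1, e2, hc, by group, ?_⟩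
  rw [← mul_one (x * q⁻¹ * _), ← h.sq1 hq, ← sq_mul hc]; group

theorem not_one_K {k : G} (hk : k ∈ Kr Ω N[zpowers c] c) : ¬ One Ω t k :=
  not_one_of_fix h.ben.two (fun _ => fix_t h.sq) (mem_Kr.1 hk).2

theorem inv_mem_Q (C : Ctx G Ω) (hx : x ∈ T) (h1 : IsInv x) (h2 : x ≠ t) : x ∈ Q := by
  obtain ⟨k, hk, q, hq, -, e1, -, e2, e3⟩ :=
    h.dec hx (.inl h1.2) (C.one_inv h.inv h1 h2 (h.Tt hx))
  rw [e2]
  rcases C.mem_of_two h.inv (h.Tt hk) (e3.trans h1.2) (h.not_one_K e1) with e | e <;> rw [e]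
  · rwa [one_mul]
  · exact mul_mem h.tQ hq

end CS

variable (Ω) in
/-- the condition `C'(u)` -/
def CP (t u : G) : Prop := ∀ y, Commute y u → y * y = t → y ∉ zpowers u → One Ω t y

theorem CP.mul (h : CP Ω t u) (ht : IsInv t) (hu : u * u = t) (h1 : q * q = 1) (h2 : q ∉ zpowers t)
    (h3 : Commute q u) : One Ω t (u * q) := by
  refine h _ ((Commute.refl u).mul_left h3) (by rw [sq_mul h3.symm, hu, h1, mul_one]) fun e => h2 ?_
  exact (zp2 ht).2 (of_sq_one ht hu ((mul_mem_cancel_left (mem_zpowers u)).1 e) h1)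

theorem CP.conj (h : CP Ω t u) {g : G} (hg : Commute g t) : CP Ω t (g * u * g⁻¹) := by
  intro y h1 h2 h3
  have := h (g⁻¹ * y * g⁻¹⁻¹) ?_ (conj_sq hg.inv_left h2) ?_
  · exact One.of_conj this hg.inv_left
  · have e := h1.eq
    change _ * _ = _ * _
    calc g⁻¹ * y * g⁻¹⁻¹ * u = g⁻¹ * (y * (g * u * g⁻¹)) * g := by group
      _ = _ := by rw [e]; group
  · rintro ⟨k, hk⟩
    refine h3 ⟨k, ?_⟩
    change u ^ k = _ at hk
    change (g * u * g⁻¹) ^ k = y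
    rw [conj_zpow, hk]; group

theorem c_of_one (C : Ctx G Ω) (ht : IsInv t) (hu : u * u = t) (hII : TypeII Ω t u 1) (hq : IsInv q)
    (h1 : q ≠ t) (h2 : Commute q u) (h3 : One Ω t (u * q)) : CP Ω t u := by
  intro y e1 e2 e3
  obtain ⟨J, O, T, Q, α, h, -⟩ := exists_CS C ht hu hII IsPGroup.of_bot bot_le
  have hx : IsInv (u⁻¹ * y) := ⟨fun e => e3 (by rw [← inv_mul_eq_one.1 e]; exact mem_zpowers _), by
    rw [sq_mul e1.symm.inv_left, e2, ← hu]; group⟩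
  obtain ⟨g, hg, e⟩ := h.tor hq h1 h2 hx (fun e => e3 (by
    rw [inv_mul_eq_iff_eq_mul.1 e]; exact mul_mem (mem_zpowers _) (t_mem hu)))
    ((Commute.refl u).inv_left.mul_left e1)
  have h4 := One.conj h3 (comm_of_memN ht hu hg)
  rw [show g * (u * q) * g⁻¹ = g * u * g⁻¹ * (g * q * g⁻¹) by group] at h4
  have ct : Commute (u⁻¹ * y) t := (comm_t hu).inv_left.mul_left (comm_t e2)
  rcases (memN ht hu).1 hg with e' | e' <;> rcases e with e | e <;> rw [e, e'] at h4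
  · rwa [mul_inv_cancel_left] at h4
  · rw [← mul_assoc, mul_inv_cancel_left] at h4; exact One.of_mul_t h4
  · rw [mul_assoc, ← ct.eq, ← mul_assoc, mul_inv_cancel_left] at h4; exact One.of_mul_t h4
  · rwa [mul_assoc, ← mul_assoc t, ← ct.eq, mul_t_t ht, mul_inv_cancel_left] at h4

theorem good_of_syl (C : Ctx G Ω) (ht : IsInv t) {T : Subgroup G} (hT : IsSylowIn 2 T C1[t])
    (hc : ∀ x ∈ T, ∀ y ∈ T, IsInv x → IsInv y → x ≠ t → y ≠ t → Commute x y) :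
    Good Ω t {d | IsInv d ∧ d ≠ t ∧ Commute d t} := by
  refine ⟨?_, fun d h => h.2.2, fun d h => .inl h.1.2, fun d h => ⟨h.1.1, h.2.1⟩,
    fun d h => C.one_inv ht h.1 h.2.1 h.2.2, fun d h => ⟨h.1.mul_of_comm ht h.2.1 h.2.2,
      fun e => h.1.1 (mul_eq_right.1 e), h.2.2.mul_left (Commute.refl t)⟩,
    fun d h g hg => ⟨h.1.conj g, conj_ne hg h.2.1, comm_conj hg h.2.2⟩, ?_⟩
  · obtain ⟨y, h1, h2, h3⟩ := C.four t ht
    exact ⟨y, h1, h2.symm, h3.symm⟩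
  rintro x ⟨x1, x2, x3⟩ y ⟨y1, y2, y3⟩ e h1 h2
  refine ⟨⟨h1, ?_⟩, h2, x3.mul_left y3⟩
  suffices Commute x y by rw [sq_mul this, x1.2, y1.2, mul_one]
  rcases e with e | e
  · exact e
  have hs : x * y * (x * y) = t := by
    conv_lhs => enter [2]; rw [e]
    rw [show x * y * (y * x * t) = x * (y * y) * x * t by group, y1.2, mul_one, x1.2, one_mul]
  have hn : zpowers x ≤ N[zpowers (x * y)] := zpowers_le.2 (memN_of_inv (by
    rw [mul_inv_rev, ← mul_assoc, x1.2, one_mul, y1.inv_eq]))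
  have hP := x1.isPGroup.to_sup_of_normal_right' (p2 ht (.inr hs)).isPGroup hn
  have hx : x ∈ zpowers x ⊔ zpowers (x * y) := mem_sup_left (mem_zpowers x)
  have hy : y ∈ zpowers x ⊔ zpowers (x * y) :=
    (mul_mem_cancel_left hx).1 (mem_sup_right (mem_zpowers _))
  obtain ⟨k, hk, hle⟩ := hT.exists_conj_le hP (sup_le (zpowers_le.2 (c1.2 x3))
    (zpowers_le.2 (c1.2 (x3.mul_left y3))))
  have := (hc (k * x * k⁻¹) (hle (mem_map_of_mem _ hx)) (k * y * k⁻¹) (hle (mem_map_of_mem _ hy))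
    (x1.conj k) (y1.conj k) (conj_ne (c1.1 hk) x2) (conj_ne (c1.1 hk) y2)).eq
  change x * y = y * x
  calc x * y = k⁻¹ * (k * x * k⁻¹ * (k * y * k⁻¹)) * k := by group
    _ = _ := by rw [this]; group

theorem cprime (C : Ctx G Ω) (ht : IsInv t) (hB : ∀ D, ¬ Good Ω t D) (hu : UU Ω t u)
    (hII : TypeII Ω t u 1) (hC : CP Ω t u) : ∃ v, UU Ω t v ∧ TypeII Ω t v t := by
  obtain ⟨J, O, T, Q, α, h, -⟩ := exists_CS C ht hu.1 hII IsPGroup.of_bot bot_le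
  obtain ⟨S, hS, hTS⟩ := exists_isSylowIn_ge h.syl.isPGroup (h.syl.le.trans (N_le_NL (Ω := Ω) ht hu.1))
  have hSC : S ≤ C1[t] := fun x hx => c1.2 (hS.le hx).1
  have uK : u ∈ Kr Ω S u := mem_Kr.2 ⟨hTS h.cT, fun _ e => e⟩
  obtain ⟨v, hv, v1, v2, v3⟩ := exists_central_mod (R := Kr Ω S u) hS.isPGroup ht hSC inf_le_left
    (fun g hg => mem_normalizer_fintype fun n hn => mem_Kr.2
      ⟨mul_mem (mul_mem hg (mem_Kr.1 hn).1) (inv_mem hg), fun a ha => fix_conj.2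
        ((mem_Kr.1 hn).2 _ (((hS.le (inv_mem hg)).2 a).2 ha))⟩)
    (hu.1 ▸ mul_mem uK uK) uK (not_mem_zp2 ht hu.1)
  obtain ⟨vS, vf⟩ := mem_Kr.1 hv
  have v4 : ¬ One Ω t v := not_one_of_fix hu.2 (fun _ => fix_t hu.1) vf
  have vs : v * v = t := v2.resolve_left fun e =>
    v1 ((zp2 ht).2 (C.mem_of_two ht (c1.1 (hSC vS)) e v4))
  have hv' : UU Ω t v := ⟨vs, two_of_not_one v4⟩
  have SN : S ≤ N[zpowers v] := fun x hx => (memN ht vs).2 (v3 x hx)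
  have vN : v ∈ N[zpowers u] := memN_symm ht vs hu.1 (SN (hTS h.cT))
  have vT : v ∈ T := by
    rw [← h.syl.maximal (S ⊓ N[zpowers u]) (hS.isPGroup.to_le inf_le_left) inf_le_right
      (le_inf hTS h.syl.le)]
    exact ⟨vS, vN⟩
  have vQ : ∀ q ∈ Q, Commute q v := fun q hq =>
    (h.bs.comm v vT (mem_Kr.2 ⟨vN, vf⟩) q hq).symm
  rcases C.ben_u ht hv' with hA | hc | hb
  · exact (h.notA hA vQ).elim
  swap
  · exact ⟨v, hv', hb⟩
  exfalso
  obtain ⟨J0, O0, T0, Q0, α0, h0, hT0⟩ := exists_CS C ht vs hc hS.isPGroup SN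
  have uK0 : u ∈ Kr Ω N[zpowers v] v := by
    by_contra hn
    obtain ⟨q, hq, -, -, q1, -, -⟩ := h.bs.rank
    exact h0.bs.b1 u (hT0 (hTS h.cT)) (hu.1 ▸ t_mem_Kr vs) hn
      (not_one_of_fix hu.2 vf fun _ e => e) q (h0.memQ (hT0 (hTS (h.QT hq))) (h.sq1 hq) (vQ q hq))
      (by rw [comm_el (h.Qc hq).symm]; exact one_mem _)
      (One.sq (hC.mul ht hu.1 (h.sq1 hq) q1 (h.Qc hq)) vs)
  have uf := (mem_Kr.1 uK0).2
  obtain rfl : T0 = S := hS.maximal T0 h0.syl.isPGroup (fun g hg => by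
    have := N_le_NL (Ω := Ω) ht vs (h0.syl.le hg)
    exact ⟨this.1, fun a => ⟨fun e => uf _ ((this.2 a).1 (vf _ e)),
      fun e => uf _ ((this.2 a).2 (vf _ e))⟩⟩) hT0
  have uQ : ∀ q ∈ Q0, Commute q u := fun q hq => (h0.bs.comm u (hTS h.cT) uK0 q hq).symm
  by_cases hs : IsSylowIn 2 T0 C1[t]
  · exact hB _ (good_of_syl C ht hs fun x hx y hy x1 y1 x2 y2 =>
      h0.commQ (h0.inv_mem_Q C hx x1 x2) (h0.inv_mem_Q C hy y1 y2))
  obtain ⟨g, g1, g2, g3, g4⟩ := exists_up hS.isPGroup hSC hs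
  have gt := c1.1 g1
  have wT : g * u * g⁻¹ ∈ T0 := (mem_normalizer_iff.1 g3 u).1 (hTS h.cT)
  have ws := conj_sq gt hu.1
  have wC := hC.conj gt
  by_cases hK : g * u * g⁻¹ ∈ Kr Ω N[zpowers v] v
  · have k1 : ∀ a : Ω, u • a = a → u • g⁻¹ • a = g⁻¹ • a := fun a e =>
      fix_conj.1 ((mem_Kr.1 hK).2 a (vf a e))
    refine g2 (hS.le_of_le_normalizer (P2.of_mul_self (P2.of_mem hS.isPGroup g4)).isPGroup
      (zpowers_le.2 ⟨gt, fun a => ⟨fun e => by simpa using k1 _ e, fun e => ?_⟩⟩) (zpowers_le.2 g3)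
      (mem_zpowers g))
    simpa [mul_smul] using ((hS.le g4).2 _).2 (k1 a e)
  by_cases h1 : One Ω v (g * u * g⁻¹)
  · obtain ⟨q, hq, e1, e2⟩ := h0.bs.f1 _ wT (ws ▸ t_mem_Kr vs) h1
    have hk := mul_mem wT (inv_mem (h0.QT hq))
    have hc := h0.bs.comm _ hk e2 q hq
    obtain ⟨w, hw⟩ : ∃ w, w = g * u * g⁻¹ := ⟨_, rfl⟩
    rw [← hw] at ws wC e2 hc
    refine h0.not_one_K e2 (wC _ ?_ ?_ fun e => e1 ?_)
    · simpa using (Commute.refl (w * q⁻¹)).mul_right hc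
    · rw [← mul_one (w * q⁻¹ * _), ← h0.sq1 hq, ← sq_mul hc, ← ws]; group
    · exact (zp2 ht).2 (of_sq_one ht ws
        (inv_mem_iff.1 ((mul_mem_cancel_left (mem_zpowers w)).1 e)) (h0.sq1 hq))
  obtain ⟨q, hq, -, -, q1, -, -⟩ := h0.bs.rank
  obtain ⟨q2, q3⟩ := h0.invQ hq q1
  have e := (uQ _ (h0.inv_mem_Q C ((mem_normalizer_iff.1 (inv_mem g3) q).1 (h0.QT hq)) (q2.conj _)
    (conj_ne gt.inv_left q3))).eq
  have qc : Commute q (g * u * g⁻¹) := by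
    change _ * _ = _ * _
    calc q * (g * u * g⁻¹) = g * (g⁻¹ * q * g⁻¹⁻¹ * u) * g⁻¹ := by group
      _ = _ := by rw [e]; group
  exact h0.bs.b1 _ wT (ws ▸ t_mem_Kr vs) hK h1 q hq (by rw [comm_el qc.symm]; exact one_mem _)
    (One.sq (wC.mul ht ws q2.2 q1 qc) vs)

/-- the starting configuration: `x`, `y` have one fixed point, `x y` has two -/
structure XY (Ω : Type*) [MulAction G Ω] (t x y : G) : Prop where
  x2 : x * x = 1 ∨ x * x = t
  y2 : y * y = 1 ∨ y * y = t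
  x1 : One Ω t x
  y1 : One Ω t y
  xt : Commute x t
  yt : Commute y t
  c : x * y = y * x ∨ x * y = y * x * t
  uu : UU Ω t (x * y)

theorem XY.xN (h : XY Ω t x y) (ht : IsInv t) : x ∈ N[zpowers (x * y)] := by
  refine (memN ht h.uu.1).2 (h.c.imp (fun e => ?_) fun e => ?_)
  · exact (congrArg (x * · * x⁻¹) e).trans (by group)
  · refine (congrArg (x * · * x⁻¹) e).trans ?_
    change x * (y * x * t) * x⁻¹ = _
    rw [mul_assoc y, h.xt.eq]; group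

theorem typeC (C : Ctx G Ω) (ht : IsInv t) (hB : ∀ D, ¬ Good Ω t D) (H : XY Ω t x y)
    (hII : TypeII Ω t (x * y) 1) : ∃ v, UU Ω t v ∧ TypeII Ω t v t := by
  obtain ⟨J, O, T, Q, α, h, hT⟩ := exists_CS C ht H.uu.1 hII (p2 ht H.x2).isPGroup
    (zpowers_le.2 (H.xN ht))
  obtain ⟨k, hk, q, hq, e1, e2, e3, e4, e5⟩ := h.dec (hT (mem_zpowers x)) H.x2 H.x1
  rcases H.x2 with e | e
  · have xQ : x ∈ Q := by
      rw [e4]
      rcases C.mem_of_two ht (h.Tt hk) (e5.trans e) (h.not_one_K e2) with e | e <;> rw [e]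
      · rwa [one_mul]
      · exact mul_mem h.tQ hq
    have x1 : x ∉ zpowers t := fun e' => by
      refine not_one_of_fix H.uu.2 (fun _ => fix_t H.uu.1) (fun a ha => ?_) H.x1
      exact fix_zp e' (fix_t H.uu.1 ha)
    refine cprime C ht hB H.uu hII (c_of_one C ht H.uu.1 hII (h.invQ xQ x1).1 (h.invQ xQ x1).2
      (h.Qc xQ) ?_)
    rw [← (h.Qc xQ).eq, ← mul_assoc, e, one_mul]
    exact H.y1
  have hk' : UU Ω t k := ⟨e5.trans e, two_of_not_one (h.not_one_K e2)⟩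
  rcases C.ben_u ht hk' with hA | hc | hb
  · exact (h.notA hA fun q hq => (h.bs.comm k hk e2 q hq).symm).elim
  · exact cprime C ht hB hk' hc (c_of_one C ht hk'.1 hc (h.invQ hq e1).1 (h.invQ hq e1).2 e3.symm
      (e4 ▸ H.x1))
  · exact ⟨k, hk', hb⟩

/-- `TypeA.gen` for elements which have one fixed point on the fixed points of `t` -/
theorem gen_inv (C : Ctx G Ω) (ht : IsInv t) (hu : u * u = t) (hA : TypeA Ω t u) {α : Ω}
    (hα : u • α = α) (hx : IsInv x) (hy : IsInv y) (hc : Commute x y) (h1 : x ≠ t) (h2 : y ≠ t)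
    (h3 : x ≠ y) (h4 : x ≠ y * t) (xN : x ∈ N[zpowers u]) (yN : y ∈ N[zpowers u]) (xα : x • α = α)
    (yα : y • α = α) : False := by
  have xt := comm_of_memN ht hu xN
  have yt := comm_of_memN ht hu yN
  rcases hA.gen α hα x xN y yN xα yα (hx.2 ▸ one_mem _) (hy.2 ▸ one_mem _)
    (by rw [comm_el hc]; exact one_mem _) with e | e | e
  · exact e (One.sq (C.one_inv ht hx h1 xt) hu)
  · exact e (One.sq (C.one_inv ht hy h2 yt) hu)
  · refine e (One.sq (C.one_inv ht (hx.mul_of_comm hy h3 hc) (fun e => h4 ?_) (xt.mul_left yt)) hu)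
    rw [← e, hc.eq, ← mul_assoc, hy.2, one_mul]

theorem a0 (C : Ctx G Ω) (ht : IsInv t) (H : XY Ω t x y) (hA : TypeA Ω t (x * y)) :
    (∃ v, UU Ω t v ∧ TypeII Ω t v t) ∨
      ∃ z, IsInv z ∧ z ≠ t ∧ Commute z (x * y) ∧ One Ω t (x * y * z) := by
  have hu := H.uu.1
  obtain ⟨P, hP, hxP⟩ := exists_isSylowIn_ge (p2 ht H.x2).isPGroup (zpowers_le.2 (H.xN ht))
  have xP := hxP (mem_zpowers x)
  have uP := self_mem ht hu hP
  have yP := (mul_mem_cancel_left xP).1 uP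
  obtain ⟨a, -, -, ha, -⟩ := H.uu.2
  obtain ⟨z', z1, z2, z3, -⟩ := C.inv_comm ht hu ha
  obtain ⟨n, hn, zP⟩ := exists_conj_mem hP (P2.of_sq z1.2) (memN_of_comm z3)
  have z4 := z1.conj n
  have z5 := conj_ne (comm_of_memN ht hu hn) z2
  have z6 := comm_conj_N hn z3
  generalize n * z' * n⁻¹ = z at zP z4 z5 z6
  by_cases h1 : One Ω t (x * y * z)
  · exact .inr ⟨z, z4, z5, z6, h1⟩
  left
  obtain ⟨α, hα⟩ := C.fix2 P hP.isPGroup
  have zt : Commute z t := hu ▸ z6.mul_right z6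
  have hc : ⁅x, y⁆ = 1 ∨ ⁅x, y⁆ = t := H.c.imp comm_el fun e => by
    rw [commutatorElement_def, e, mul_assoc y, H.xt.eq, ← mul_assoc, H.yt.eq]; group
  obtain ⟨u, eu⟩ : ∃ u, u = x * y := ⟨_, rfl⟩
  rw [← eu] at hA hu hP uP z6 h1
  have vs : u * z * (u * z) = t := by rw [sq_mul z6.symm, hu, z4.2, mul_one]
  have hv : UU Ω t (u * z) := ⟨vs, two_of_not_one h1⟩
  have PN : P ≤ N[zpowers (u * z)] := fun p hp => by
    have pt := comm_of_memN ht hu (hP.le hp)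
    refine (memN ht vs).2 ?_
    rw [show p * (u * z) * p⁻¹ = p * u * p⁻¹ * (p * z * p⁻¹) by group]
    rcases (memN ht hu).1 (hP.le hp) with e | e <;>
      rcases hA.uniq P hP.isPGroup z zP _ (mul_mem (mul_mem hp zP) (inv_mem hp)) z4 (z4.conj p) z6
        (comm_conj_N (hP.le hp) z6) z5 (conj_ne pt z5) with e' | e' <;> rw [e, e']
    · exact .inl rfl
    · exact .inr (mul_assoc ..).symm
    · exact .inr (by rw [mul_assoc, ← zt.eq, mul_assoc])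
    · exact .inl (by rw [mul_assoc, ← mul_assoc t, ← zt.eq, mul_t_t ht])
  have key : ∀ {a : G}, (a = 1 ∨ a = t) → a ∈ zpowers (u * z) := by
    rintro _ (rfl | rfl)
    exacts [one_mem _, t_mem vs]
  rcases C.ben_u ht hv with hA' | hc' | hb
  · exfalso
    rcases hA'.gen α (hα _ (mul_mem uP zP)) x (PN xP) y (PN yP) (hα x xP) (hα y yP) (key H.x2)
      (key H.y2) (key hc) with e | e | e
    · exact e (One.sq H.x1 vs)
    · exact e (One.sq H.y1 vs)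
    · rw [← eu] at e
      exact e fun a b h1 h2 h3 h4 => C.uniq t z ht z4 z5.symm zt.symm a b (fix_t hu h3)
        (fix_of_mul' h1 h3) (fix_t hu h4) (fix_of_mul' h2 h4)
  · have zv : Commute z (u * z) := z6.mul_right (Commute.refl z)
    obtain ⟨J, O, T, Q, β, h, hT⟩ := exists_CS C ht vs hc' z4.isPGroup (zpowers_le.2 (memN_of_comm zv))
    refine (h.notA hA fun q hq => ?_).elim
    simpa [mul_assoc, z4.2] using
      (h.Qc hq).mul_right (h.commQ hq (h.memQ (hT (mem_zpowers z)) z4.2 zv))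
  · exact ⟨_, hv, hb⟩

/-- the four-group generated by `t` and `z` -/
def V4 (t z v : G) : Prop := v = 1 ∨ v = t ∨ v = z ∨ v = z * t

theorem a1 (C : Ctx G Ω) (ht : IsInv t) (hU : UU Ω t u) (hA : TypeA Ω t u) {z : G} (z1 : IsInv z)
    (z2 : z ≠ t) (z3 : Commute z u) (z4 : One Ω t (u * z)) : ∃ v, UU Ω t v ∧ TypeII Ω t v t := by
  have hu := hU.1
  have ut := comm_t hu
  have zt : Commute z t := hu ▸ z3.mul_right z3
  obtain ⟨T, hT, huT⟩ := exists_isSylowIn_ge (K := C1[t] ⊓ C1[z]) (p2 ht (.inr hu)).isPGroup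
    (zpowers_le.2 ⟨c1.2 ut, c1.2 z3.symm⟩)
  have uT := huT (mem_zpowers u)
  have Tt : ∀ {g}, g ∈ T → Commute g t := fun hg => c1.1 (hT.le hg).1
  have Tz : ∀ {g}, g ∈ T → Commute g z := fun hg => c1.1 (hT.le hg).2
  have zT : z ∈ T := mem_syl hT (P2.of_sq z1.2) ⟨c1.2 zt, c1.2 (Commute.refl z)⟩
    fun g hg => memN_of_comm (Tz hg)
  obtain ⟨α, hα⟩ := C.fix2 T hT.isPGroup
  obtain ⟨b, bT, b1, b2, b3, b4⟩ : ∃ b ∈ T, IsInv b ∧ b ≠ t ∧ b ≠ z ∧ b ≠ z * t := by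
    obtain ⟨b, b1, b2, b3, b4, b5, b6⟩ := C.e8 t z ht z1 z2.symm zt.symm
    obtain ⟨k, hk, e⟩ := exists_conj_mem hT (P2.of_sq b1.2) ⟨c1.2 b2, c1.2 b3⟩
    exact ⟨_, e, b1.conj k, conj_ne (c1.1 hk.1) b4, conj_ne (c1.1 hk.2) b5,
      conj_ne ((c1.1 hk.2).mul_right (c1.1 hk.1)) (zt.eq ▸ b6)⟩
  have uniq : ∀ {a}, a ∈ T → IsInv a → Commute a u → a ≠ t → a = z ∨ a = z * t :=
    fun ha h1 h2 h3 => hA.uniq T hT.isPGroup z zT _ ha z1 h1 z3 h2 z2 h3
  -- `u` is not conjugate to `u z` modulo `t`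
  have nc : ∀ {g}, g ∈ T → ¬ (g * u * g⁻¹ = u * z ∨ g * u * g⁻¹ = u * (z * t)) := by
    rintro g hg (e | e)
    · exact UU.not_one hU (One.of_conj (e ▸ z4) (Tt hg))
    · exact UU.not_one hU (One.of_conj (by rw [e, ← mul_assoc]; exact One.mul_t z4) (Tt hg))
  obtain ⟨w, ew⟩ : ∃ w, w = b * u := ⟨_, rfl⟩
  have wT : w ∈ T := ew ▸ mul_mem bT uT
  have wi : w⁻¹ * t = u * b := by
    rw [ew, mul_inv_rev, inv_eq ht hu, b1.inv_eq, mul_assoc u, ← (Tt bT).eq, ← mul_assoc, mul_t_t ht]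
  have bw : b * w * b⁻¹ = w⁻¹ * t := by rw [wi, ew, ← mul_assoc, b1.2, one_mul, b1.inv_eq]
  have uw : u * w * u⁻¹ = w⁻¹ * t := by rw [wi, ew]; group
  have hex : ∃ m, V4 t z (w ^ 2 ^ m) := (P2.of_mem hT.isPGroup wT).imp fun _ => .inl
  have inv2 : ∀ {g y : G}, y ∈ T → (g * y * g⁻¹ = y⁻¹ ∨ g * y * g⁻¹ = y⁻¹ * t) →
      g * (y * y) * g⁻¹ = (y * y)⁻¹ := fun {g y} hy e => by
    rw [show g * (y * y) * g⁻¹ = g * y * g⁻¹ * (g * y * g⁻¹) by group, mul_inv_rev]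
    rcases e with e | e <;> rw [e]
    exact sq_mul_t ht (Tt hy).inv_left
  have invm : ∀ {g : G}, g * w * g⁻¹ = w⁻¹ * t → ∀ m : ℕ,
      g * w ^ 2 ^ m * g⁻¹ = (w ^ 2 ^ m)⁻¹ ∨ g * w ^ 2 ^ m * g⁻¹ = (w ^ 2 ^ m)⁻¹ * t := by
    intro g e m
    induction m with
    | zero => exact .inr (by simpa using e)
    | succ m ih => left; rw [pow_succ, pow_mul, sq]; exact inv2 (pow_mem wT _) ih
  classical
  have h1 := Nat.find_spec hex
  have h2 := @Nat.find_min _ _ hex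
  generalize Nat.find hex = m at h1 h2
  rcases m with _ | _ | m
  · exfalso
    have e : u = b * w := by rw [ew, ← mul_assoc, b1.2, one_mul]
    have : w * w = 1 ∧ Commute b w := by
      rw [pow_zero, pow_one] at h1
      rcases h1 with e | e | e | e <;> rw [e]
      exacts [⟨mul_one _, Commute.one_right _⟩, ⟨ht.2, Tt bT⟩, ⟨z1.2, Tz bT⟩,
        ⟨by rw [sq_mul_t ht zt, z1.2], (Tz bT).mul_right (Tt bT)⟩]
    exact ht.1 (by rw [← hu, e, sq_mul this.2, this.1, b1.2, mul_one])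
  · exfalso
    have e : b * u * b⁻¹ = w * w * t * u := by
      rw [ew, b1.inv_eq, mul_assoc _ t, ← ut.eq, ← inv_eq ht hu]; group
    rw [zero_add, pow_one, sq] at h1
    rcases h1 with e' | e' | e' | e' <;> rw [e'] at e
    · exact gen_inv C ht hu hA (hα u uT) b1 z1 (Tz bT) b2 z2 b3 b4
        ((memN ht hu).2 (.inr (by rw [e, one_mul, ut.eq]))) (memN_of_comm z3) (hα b bT) (hα z zT)
    · rw [ht.2, one_mul] at e
      rcases uniq bT b1 (mul_inv_eq_iff_eq_mul.1 e) b2 with e | e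
      exacts [b3 e, b4 e]
    · exact nc bT (.inr (by rw [e, (z3.mul_left ut.symm).eq]))
    · exact nc bT (.inl (by rw [e, mul_t_t ht, z3.eq]))
  have uy := invm uw m
  have by' := invm bw m
  have h3 := h2 (m := m + 1) (by omega)
  have yT : w ^ 2 ^ m ∈ T := pow_mem wT _
  rw [pow_succ, pow_mul, sq] at h1
  rw [pow_succ, pow_mul, sq] at h1 h3
  generalize w ^ 2 ^ m = y at uy by' h1 h3 yT
  have uc := inv2 yT uy
  have bc := inv2 yT by'
  have cT := mul_mem yT yT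
  have uu : ∀ {g}, g ∈ T → u⁻¹ * g * u = u * g * u⁻¹ := fun {g} hg => by
    rw [inv_eq ht hu, mul_assoc u t, ← (Tt hg).eq, mul_assoc, mul_assoc, ← ut.eq, mul_assoc]
  have yu : y * u * y⁻¹ = u * (y * y)⁻¹ ∨ y * u * y⁻¹ = u * (y * y)⁻¹ * t := by
    rw [show y * u * y⁻¹ = u * (u⁻¹ * y * u) * y⁻¹ by group, uu yT]
    rcases uy with e | e <;> rw [e]
    · left; group
    · right; rw [mul_assoc, mul_assoc, ← (Tt yT).inv_left.eq]; group
  generalize y * y = c at h1 h3 uc bc cT yu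
  have cu : c⁻¹ * u * c⁻¹⁻¹ = u * (c * c) := by
    rw [show c⁻¹ * u * c⁻¹⁻¹ = u * (u⁻¹ * c * u)⁻¹ * c by group, uu cT, uc]; group
  have cs : c * c = t := by
    rcases h1 with e | e | e | e
    · rw [e, mul_one] at cu
      refine (h3 ?_).elim
      by_cases c1 : c = 1
      · exact .inl c1
      by_cases c2 : c = t
      · exact .inr (.inl c2)
      exact .inr (.inr (uniq cT ⟨c1, e⟩
        (Commute.inv_left_iff.1 (mul_inv_eq_iff_eq_mul.1 cu)) c2))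
    · exact e
    · exact (nc (inv_mem cT) (.inl (e ▸ cu))).elim
    · exact (nc (inv_mem cT) (.inr (e ▸ cu))).elim
  have cN : c ∈ N[zpowers u] := inv_mem_iff.1 ((memN ht hu).2 (.inr (cs ▸ cu)))
  have h4 : One Ω u (c * z) := by
    have := One.conj z4 (Tt yT)
    rw [show y * (u * z) * y⁻¹ = y * u * y⁻¹ * (y * z * y⁻¹) by group, (Tz yT).eq,
      mul_inv_cancel_right] at this
    refine One.mono this fun a h1 h2 => ⟨fix_t hu h1, ?_⟩
    have h5 : (c⁻¹ * z) • a = a := by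
      rw [inv_eq ht cs, mul_assoc, ← zt.eq, ← mul_assoc]; exact fix_mul h2 (fix_t hu h1)
    rcases yu with e | e <;> rw [e]
    · rw [mul_assoc]; exact fix_mul h1 h5
    · rw [mul_assoc, ← zt.eq, ← mul_assoc, mul_assoc u]; exact fix_mul (fix_mul h1 h5) (fix_t hu h1)
  have h5 : ¬ One Ω u c := by
    rcases hA.gen α (hα u uT) c cN z (memN_of_comm z3) (hα c cT) (hα z zT) (cs ▸ t_mem hu)
      (z1.2 ▸ one_mem _) (by rw [comm_el (Tz cT)]; exact one_mem _) with e | e | e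
    exacts [e, (e (One.sq (C.one_inv ht z1 z2 zt) hu)).elim, (e h4).elim]
  have hc : UU Ω t c := ⟨cs, two_of_not_one h5⟩
  rcases C.ben_u ht hc with hA' | hc' | hb
  · exact (gen_inv C ht cs hA' (hα c cT) b1 z1 (Tz bT) b2 z2 b3 b4 (memN_of_inv bc)
      (memN_of_comm (Tz cT).symm) (hα b bT) (hα z zT)).elim
  swap
  · exact ⟨c, hc, hb⟩
  exfalso
  obtain ⟨J, O, T', Q, β, h, hT'⟩ := exists_CS C ht cs hc' (P := T ⊓ N[zpowers c])
    (hT.isPGroup.to_le inf_le_left) inf_le_right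
  have uT' : u ∈ T' := hT' ⟨uT, memN_of_inv uc⟩
  have zQ : z ∈ Q := h.memQ (hT' ⟨zT, memN_of_comm (Tz cT).symm⟩) z1.2 (Tz cT).symm
  by_cases hK : u ∈ Kr Ω N[zpowers c] c
  · exact h.notA hA fun q hq => (h.bs.comm u uT' hK q hq).symm
  exact h.bs.b1 u uT' (hu ▸ t_mem_Kr cs) hK (fun e => h5 (One.symm e)) z zQ
    (by rw [comm_el z3.symm]; exact one_mem _) (One.sq z4 cs)

theorem exists_XY (C : Ctx G Ω) (ht : IsInv t) (hB : ∀ D, ¬ Good Ω t D) : ∃ x y, XY Ω t x y := by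
  by_contra hn
  refine hB {d | Commute d t ∧ (d * d = 1 ∨ d * d = t) ∧ (d ≠ 1 ∧ d ≠ t) ∧ One Ω t d}
    ⟨?_, fun d h => h.1, fun d h => h.2.1, fun d h => h.2.2.1, fun d h => h.2.2.2,
      fun d h => ⟨h.1.mul_left (Commute.refl t), by rw [sq_mul_t ht h.1]; exact h.2.1,
        ⟨fun e => h.2.2.1.2 (by rw [← mul_t_t (x := d) ht, e, one_mul]),
          fun e => h.2.2.1.1 (mul_eq_right.1 e)⟩, One.mul_t h.2.2.2⟩,
      fun d h g hg => ⟨comm_conj hg h.1, h.2.1.imp (fun e => ?_) (conj_sq hg),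
        ⟨fun e => h.2.2.1.1 (by simpa using e), conj_ne hg h.2.2.1.2⟩, One.conj h.2.2.2 hg⟩, ?_⟩
  · obtain ⟨y, h1, h2, h3⟩ := C.four t ht
    exact ⟨y, h3.symm, .inl h1.2, ⟨h1.1, h2.symm⟩, C.one_inv ht h1 h2.symm h3.symm⟩
  · rw [show g * d * g⁻¹ * (g * d * g⁻¹) = g * (d * d) * g⁻¹ by group, e]; group
  rintro x ⟨x1, x2, x3, x4⟩ y ⟨y1, y2, y3, y4⟩ e h1 h2
  have hs : x * y * (x * y) = 1 ∨ x * y * (x * y) = t := by
    have : x * y * (x * y) = x * x * (y * y) ∨ x * y * (x * y) = x * x * (y * y) * t := by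
      refine e.imp sq_mul fun e => ?_
      have e' : y * x = x * y * t := by rw [e, mul_t_t ht]
      rw [show x * y * (x * y) = x * (y * x) * y by group, e', mul_assoc, mul_assoc, ← y1.eq]; group
    rcases this with e | e <;> rcases x2 with e1 | e1 <;> rcases y2 with e2 | e2 <;>
      simp [e, e1, e2, ht.2]
  refine ⟨x1.mul_left y1, hs, ⟨h1, h2⟩, by_contra fun h3 => hn ⟨x, y, x2, y2, x4, y4, x1, y1, e,
    hs.resolve_left fun e => ?_, two_of_not_one h3⟩⟩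
  exact (C.mem_of_two ht (x1.mul_left y1) e h3).elim h1 h2

end AC

theorem Ctx.exists_typeB (C : Ctx G Ω) {t : G} (ht : IsInv t) (h2 : Two Ω t) (hB : ∀ D, ¬ Good Ω t D) :
    ∃ u, UU Ω t u ∧ TypeII Ω t u t := by
  obtain ⟨x, y, H⟩ := AC.exists_XY C ht hB
  rcases C.ben_u ht H.uu with hA | hc | hb
  · rcases AC.a0 C ht H hA with h | ⟨z, z1, z2, z3, z4⟩
    exacts [h, AC.a1 C ht H.uu hA z1 z2 z3 z4]
  · exact AC.typeC C ht hB H hc
  · exact ⟨_, H.uu, hb⟩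

end Cfsg.Lib.TGC
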