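import Cfsg.Agent.Lib.TGC.Ben
import Cfsg.Agent.Lib.TGC.Flem

/-! All involutions with two fixed points are of type G (plan, section TypeG). -/

set_option autoImplicit false

namespace Cfsg.Lib.TGC
open Subgroup MulAction Cfsg.Lib Cfsg.Lib.FT Cfsg.Lib.Bender
open scoped commutatorElement

variable {G Ω : Type*} [Group G] [MulAction G Ω] [Finite G]

variable (Ω) in
/-- type G: `Q = Ω₁(T)` is elementary abelian -/
structure Pk (t : G) (J O T Q : Subgroup G) (α : Ω) : Prop where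
  ben : Ben Ω t t 1 C1[t] J O
  syl : IsSylowIn 2 T C1[t]
  tT : t ∈ T
  fix : ∀ x ∈ T, x • α = α
  bs : BenS Ω t t 1 C1[t] J O T Q α
  mem : ∀ {y}, y ∈ Q ↔ y ∈ T ∧ y * y = 1

omit [Finite G] in
theorem not_mem_zp {t x : G} (ht : IsInv t) (h1 : x ≠ 1) (h2 : x ≠ t) : x ∉ zpowers t :=
  fun h => (ZD.mem_zpowers_inv ht h).elim h1 h2

omit [Finite G] in
theorem cj_C1 {t k : G} (hk : k ∈ C1[t]) : k * t * k⁻¹ = t := mul_inv_eq_iff_eq_mul.2 (mem_C1.1 hk)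

omit [Finite G] in
theorem Two.conj {x : G} (h : Two Ω x) (g : G) : Two Ω (g * x * g⁻¹) :=
  let ⟨a, b, h1, h2, h3⟩ := h
  ⟨g • a, g • b, fun e => h1 (smul_left_cancel g e), by simp [mul_smul, h2], by simp [mul_smul, h3]⟩

omit [Finite G] in
theorem Pk.comm {t : G} {J O T Q : Subgroup G} {α : Ω} (h : Pk Ω t J O T Q α) {x y : G} (hx : x ∈ Q) (hy : y ∈ Q) :
    Commute x y := by
  have := (h.mem.1 (mul_mem hx hy)).2
  rw [Commute, SemiconjBy, ← inv_eq_of_mul_eq_one_right this, mul_inv_rev, inv_eq_of_mul_eq_one_right (h.mem.1 hx).2,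
    inv_eq_of_mul_eq_one_right (h.mem.1 hy).2]

theorem exists_conj_mem {T N : Subgroup G} (hT : IsSylowIn 2 T N) {x : G} (hx : IsInv x) (hN : x ∈ N) :
    ∃ k ∈ N, k * x * k⁻¹ ∈ T :=
  let ⟨k, hk, h⟩ := hT.exists_conj_le hx.isPGroup (zpowers_le.2 hN)
  ⟨k, hk, h (conj_mem_conj (mem_zpowers x) k)⟩

namespace Ctx
variable (C : Ctx G Ω) (h : ∀ t : G, IsInv t → Two Ω t → ∃ D, Good Ω t D) {t : G}
include C h

theorem exists_pk (ht : IsInv t) (h2 : Two Ω t) {T : Subgroup G} (hT : IsSylowIn 2 T C1[t]) :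
    ∃ J O Q α, Pk Ω t J O T Q α := by
  obtain ⟨D, hD⟩ := h t ht h2
  obtain ⟨ε, J, O, B⟩ := C.ben_t ht h2 hD
  obtain ⟨α, hα⟩ := C.fix2 T hT.isPGroup
  have tT : t ∈ T := hT.le_of_normalizes ht.isPGroup (zpowers_le.2 (mem_C1_self t))
    (hT.le.trans (centralizer_singleton_eq_zpowers t ▸ centralizer_le_normalizer _)) (mem_zpowers t)
  obtain ⟨Q, S⟩ := B.syl T hT α (hα t tT) hα
  have QT : Q ≤ T := fun y hy => ((S.mem y).1 hy).1
  have tK : t ∈ Kr Ω C1[t] t := mem_Kr.2 ⟨mem_C1_self t, fun _ e => e⟩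
  have hu : ∀ r ∈ T ⊓ Kr Ω C1[t] t, r * r = 1 → r = 1 ∨ r = t := fun r hr e =>
    C.mem_of_two ht (mem_C1.1 (hT.le hr.1)) e fun o =>
      let ⟨a, b, h1, h3, h4⟩ := h2
      h1 (o a b h3 h4 ((mem_Kr.1 hr.2).2 a h3) ((mem_Kr.1 hr.2).2 b h4))
  have hall : ∀ y ∈ T, y * y = 1 → ∃ r ∈ T ⊓ Kr Ω C1[t] t, ∃ q ∈ Q, y = r * q := fun y hy e => by
    by_cases y1 : y = 1
    · exact ⟨1, one_mem _, 1, one_mem _, by simp [y1]⟩
    by_cases yt : y = t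
    · exact ⟨t, ⟨tT, tK⟩, 1, one_mem _, by simp [yt]⟩
    obtain ⟨q, hq, -, hq'⟩ := S.f1 y hy (e ▸ one_mem _) (C.one_inv ht ⟨y1, e⟩ yt (mem_C1.1 (hT.le hy)))
    exact ⟨_, mem_inf.2 ⟨mul_mem hy (inv_mem (QT hq)), hq'⟩, q, hq, by simp⟩
  rcases B.eps with rfl | rfl
  · have q2 : ∀ q ∈ Q, q * q = 1 := fun q hq => by
      rcases ((S.mem q).1 hq).2.2 with rfl | rfl | e
      exacts [one_mul 1, ht.2, e.1]
    refine ⟨J, O, Q, α, B, hT, tT, hα, S, fun {y} => ⟨fun hy => ⟨QT hy, q2 y hy⟩, fun hy => ?_⟩⟩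
    obtain ⟨r, hr, q, hq, rfl⟩ := hall y hy.1 hy.2
    have e := hy.2
    rw [(S.comm r hr.1 hr.2 q hq).symm.mul_mul_mul_comm, q2 q hq, mul_one] at e
    refine mul_mem ?_ hq
    rcases hu r hr e with rfl | rfl
    exacts [one_mem _, (S.mem _).2 ⟨tT, B.rJ, .inr (.inl rfl)⟩]
  · exact (C.flemma ht hT inf_le_left QT (fun r hr => S.comm r hr.1 hr.2) ⟨tT, tK⟩ hu
      (fun q hq => ((S.mem q).1 hq).2.2.imp_right (Or.imp_right And.left)) (S.q8 rfl).1 hall).elim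

theorem exists_pk' (ht : IsInv t) (h2 : Two Ω t) {x : G} (hx : IsInv x) (hc : Commute x t) :
    ∃ J O T Q α, Pk Ω t J O T Q α ∧ x ∈ Q := by
  obtain ⟨T, hT, xT⟩ := exists_isSylowIn_ge hx.isPGroup (zpowers_le.2 (mem_C1.2 hc))
  obtain ⟨J, O, Q, α, P⟩ := C.exists_pk h ht h2 hT
  exact ⟨J, O, T, Q, α, P, P.mem.2 ⟨xT (mem_zpowers x), hx.2⟩⟩

/-- the involutions of `C(t)` other than `t` are conjugate modulo `t` -/
theorem star (ht : IsInv t) (h2 : Two Ω t) {x y : G} (hx : IsInv x) (hy : IsInv y) (xt : x ≠ t) (yt : y ≠ t)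
    (cx : Commute x t) (cy : Commute y t) : ∃ k ∈ C1[t], k * x * k⁻¹ = y ∨ k * x * k⁻¹ = y * t := by
  obtain ⟨J, O, T, Q, α, P, yQ⟩ := C.exists_pk' h ht h2 hy cy
  obtain ⟨l, hl, xT⟩ := exists_conj_mem P.syl hx (mem_C1.2 cx)
  obtain ⟨k, hk, -, -, e⟩ := P.bs.tor _ (P.mem.2 ⟨xT, (hx.conj l).2⟩) y yQ
    (not_mem_zp ht (hx.conj l).1 fun e => xt (conj_injective (e.trans (cj_C1 hl).symm))) (not_mem_zp ht hy.1 yt)
  refine ⟨k * l, mul_mem (P.ben.Jc hk) hl, ?_⟩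
  rwa [show k * l * x * (k * l)⁻¹ = k * (l * x * l⁻¹) * k⁻¹ by group]

omit h [Finite G] in
theorem exists_ne (ht : IsInv t) : ∃ g, g * t * g⁻¹ ≠ t ∧ Commute (g * t * g⁻¹) t := by
  have := C.noc t ht
  simp only [IsIsolated, not_forall] at this
  obtain ⟨g, h1, h2⟩ := this
  exact ⟨g, h2, h1.symm⟩

theorem zs : ZD.ZS {x : G | IsInv x ∧ ¬ Two Ω x} Ω where
  inv d hd := hd.1
  conj d hd g := ⟨hd.1.conj g, fun e => hd.2 (by simpa [mul_assoc] using e.conj g⁻¹)⟩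
  ex d hd := (C.fix2 _ hd.1.isPGroup).imp fun _ e => e d (mem_zpowers d)
  uniq d hd a b ha hb := by_contra fun e => hd.2 ⟨a, b, e, ha, hb⟩
  prod x hx y hy ne c := by
    have ht := hx.1.mul_of_comm hy.1 ne c
    refine ⟨ht, fun h2 => ?_⟩
    obtain ⟨g, h3, h4⟩ := C.exists_ne ht
    obtain ⟨k, -, e | e⟩ := C.star h ht h2 (ht.conj g) hx.1 h3 (fun e => hy.1.1 (left_eq_mul.1 e)) h4
      ((Commute.refl x).mul_right c)
    · exact hx.2 (e ▸ (h2.conj g).conj k)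
    · rw [← mul_assoc x x, hx.1.2, one_mul] at e
      exact hy.2 (e ▸ (h2.conj g).conj k)

variable (h2 : ∀ t : G, IsInv t → Two Ω t)
include h2

theorem conj_of_comm (ht : IsInv t) {x : G} (hx : IsInv x) (c : Commute x t) : ∃ g, g * x * g⁻¹ = t := by
  by_cases xt : x = t
  · exact ⟨1, by simp [xt]⟩
  obtain ⟨g, h3, h4⟩ := C.exists_ne hx
  obtain ⟨k, -, e | e⟩ := C.star h hx (h2 x hx) (hx.conj g) ht h3 (Ne.symm xt) h4 c.symm
  · exact ⟨k * g, by rw [← e]; group⟩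
  obtain ⟨g', h3', h4'⟩ := C.exists_ne ht
  obtain ⟨k', -, e' | e'⟩ := C.star h ht (h2 t ht) (ht.conj g') hx h3' xt h4' c
  · exact ⟨(k' * g')⁻¹, by rw [← e']; group⟩
  · exact ⟨(k' * g')⁻¹ * (k * g), by
      calc _ = (k' * g')⁻¹ * (k * (g * x * g⁻¹) * k⁻¹) * (k' * g') := by group
        _ = t := by rw [e, ← c.eq, ← e']; group⟩

theorem exists_syl (ht : IsInv t) : ∃ T, IsSylowIn 2 T ⊤ ∧ T ≤ C1[t] := by
  obtain ⟨S, hS, tS⟩ := exists_isSylowIn_ge ht.isPGroup (le_top (a := zpowers t))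
  obtain ⟨z, hz, z2, hc⟩ := pg_exists_fixed_of_order_p hS.isPGroup hS.isPGroup le_normalizer
    fun e => ht.1 (by simpa [e] using tS (mem_zpowers t))
  obtain ⟨g, hg⟩ := C.conj_of_comm h h2 ht (isInv_iff_orderOf.2 z2) (hc t (tS (mem_zpowers t))).symm
  refine ⟨g •ᶜ S, conj_top g ▸ hS.map_conj g, ?_⟩
  rw [← hg, ← conj_centralizer_singleton]
  exact map_mono (le_C1_iff.2 hc)

theorem one_class {x y : G} (hx : IsInv x) (hy : IsInv y) : ∃ g, g * x * g⁻¹ = y := by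
  obtain ⟨T, hT, hc⟩ := C.exists_syl h h2 hy
  obtain ⟨k, -, hk⟩ := exists_conj_mem hT hx (mem_top x)
  obtain ⟨g, hg⟩ := C.conj_of_comm h h2 hy (hx.conj k) (mem_C1.1 (hc hk))
  exact ⟨g * k, by rw [← hg]; group⟩

theorem mov {a : G} (ht : IsInv t) (ha : IsInv a) (ne : t ≠ a) (c : Commute t a) :
    ∃ c, Commute c a ∧ c * t * c⁻¹ ≠ t ∧ Commute t (c * t * c⁻¹) := by
  obtain ⟨J, O, T, Q, α, P, tQ⟩ := C.exists_pk' h ha (h2 a ha) ht c
  have aQ : a ∈ Q := P.mem.2 ⟨P.tT, ha.2⟩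
  obtain ⟨w, hw, h3, h4⟩ : ∃ w ∈ Q, w ∉ zpowers a ∧ t * w ∉ zpowers a := by
    obtain ⟨x, hx, y, hy, h3, h4, h5⟩ := P.bs.rank
    by_contra! hn
    have := mul_mem (hn x hx h3) (hn y hy h4)
    rw [(P.comm hx tQ).mul_mul_mul_comm, ht.2, one_mul] at this
    exact h5 this
  obtain ⟨k, hk, -, hk', e⟩ := P.bs.tor t tQ w hw (not_mem_zp ha ht.1 ne) h3
  refine ⟨k, mem_C1.1 (P.ben.Jc hk), fun f => h4 ?_, P.comm tQ ((mem_normalizer_iff.1 hk' t).1 tQ)⟩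
  rw [f] at e
  rcases e with rfl | e
  · rw [ht.2]; exact one_mem _
  · rw [e, (P.comm hw aQ).eq, mul_assoc, (P.mem.1 hw).2, mul_one]; exact mem_zpowers a

theorem fus (ht : IsInv t) {N : Subgroup G} (hN : C1[t] ≤ N) {n : G} (hn : n ∈ N) (h3 : n * t * n⁻¹ ≠ t)
    (h4 : Commute t (n * t * n⁻¹)) {x : G} (xN : x ∈ N) (hx : IsInv x) : ∃ n ∈ N, n * t * n⁻¹ = x := by
  classical
  obtain ⟨T, hT, hc⟩ := C.exists_syl h h2 ht
  obtain ⟨J, O, Q, α, P⟩ := C.exists_pk h ht (h2 t ht) (hT.mono hc le_top)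
  obtain ⟨k, hk, xT⟩ := exists_conj_mem (hT.mono (hc.trans hN) le_top) hx xN
  obtain ⟨b, hb⟩ : ∃ b, b = k * x * k⁻¹ := ⟨_, rfl⟩
  have b2 : IsInv b := hb ▸ hx.conj k
  have bQ : b ∈ Q := P.mem.2 ⟨hb ▸ xT, b2.2⟩
  have tQ : t ∈ Q := P.mem.2 ⟨P.tT, ht.2⟩
  by_contra! hx'
  have nb : ∀ m ∈ N, m * t * m⁻¹ ≠ b := fun m hm e =>
    hx' _ (mul_mem (inv_mem hk) hm) (by rw [show x = k⁻¹ * b * k by rw [hb]; group, ← e]; group)
  have key : ∀ m ∈ N, m * t * m⁻¹ ∈ Q → ∃ m' ∈ N ⊓ N[Q], m' * t * m'⁻¹ = m * t * m⁻¹ := fun m hm mQ => by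
    obtain ⟨l, hl, e⟩ := P.syl.exists_conj_le (U := m⁻¹ •ᶜ Q) ((P.syl.isPGroup.to_le fun _ hy => (P.mem.1 hy).1).map _) (by
      rw [map_conj_le_iff, inv_inv, conj_centralizer_singleton]
      exact fun q hq => mem_C1.2 (P.comm hq mQ))
    rw [conj_conj] at e
    refine ⟨(l * m⁻¹)⁻¹, inv_mem (mem_inf.2 ⟨mul_mem (hN hl) (inv_mem hm), pg_mem_normalizer_of_conj_mem fun q hq =>
      P.mem.2 ⟨e (conj_mem_conj hq _), by rw [conj_mul, (P.mem.1 hq).2]; simp⟩⟩), ?_⟩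
    nth_rewrite 2 [← cj_C1 (inv_mem hl)]; group
  have TM : T ≤ N ⊓ N[Q] := le_inf (hc.trans hN) fun y hy => pg_mem_normalizer_of_conj_mem fun q hq =>
    P.mem.2 ⟨mul_mem (mul_mem hy (P.mem.1 hq).1) (inv_mem hy), by rw [conj_mul, (P.mem.1 hq).2]; simp⟩
  refine (hT.mono TM le_top).not_dvd_relIndex (Dvd.dvd.trans ?_ (relIndex_dvd_of_le_left _ hc))
  rw [← ncard_conj_eq_relIndex, Set.ncard_eq_toFinset_card _ (Set.toFinite _), ← ZMod.natCast_eq_zero_iff,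
    Finset.card_eq_sum_ones, Nat.cast_sum]
  refine Finset.sum_involution (fun a _ => b * a) (fun _ _ => by decide) (fun a _ _ e => b2.1 (mul_eq_right.1 e))
    (fun a ha => ?_) fun a _ => by rw [← mul_assoc, b2.2, one_mul]
  rw [Set.Finite.mem_toFinset] at ha ⊢
  obtain ⟨m, hm, rfl⟩ := ha
  have mQ := (mem_normalizer_iff.1 hm.2 t).1 tQ
  obtain ⟨l, hl, e⟩ := C.star h (ht.conj m) (h2 _ (ht.conj m)) ((ht.conj n).conj m) b2 (fun e => h3 (conj_injective e))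
    (nb m hm.1).symm (h4.symm.map (MulAut.conj m)) (P.comm bQ mQ)
  rw [← conj_centralizer_singleton] at hl
  have lN := mul_mem (mul_mem (conj_le_of_mem hN hm.1 hl) hm.1) hn
  rw [show l * (m * (n * t * n⁻¹) * m⁻¹) * l⁻¹ = l * m * n * t * (l * m * n)⁻¹ by group] at e
  have e' := e.resolve_left (nb _ lN)
  exact e' ▸ key _ lN (e' ▸ mul_mem bQ mQ)

theorem odd_le {a : G} (ht : IsInv t) (ha : IsInv a) (c : Commute t a) {Y : Subgroup G}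
    (hY : Odd (Nat.card Y)) (Ya : Y ≤ C1[a]) (hn : C1[a] ⊓ C1[t] ≤ N[Y]) : Y ≤ centralizerPPrimeCore 2 a := by
  obtain ⟨J, O, T, Q, α, P, tQ⟩ := C.exists_pk' h ha (h2 a ha) ht c
  have QT : Q ≤ T := fun _ hy => (P.mem.1 hy).1
  have fα : ∀ y ∈ Y, y • α = α := by
    obtain ⟨x, hx, y, hy, h3, h4, h5⟩ := P.bs.rank
    have k : ∀ {x}, x ∉ zpowers a → x ≠ 1 ∧ x ≠ a := fun h =>
      ⟨fun e => h (e ▸ one_mem _), fun e => h (e ▸ mem_zpowers _)⟩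
    have k' : ∀ {x}, x ∈ Q → x ∈ N[Y] := fun hx => hn ⟨P.syl.le (QT hx), mem_C1.2 (P.comm hx tQ)⟩
    exact C.odd_fix ha hY Ya ⟨(k h3).1, (P.mem.1 hx).2⟩ ⟨(k h4).1, (P.mem.1 hy).2⟩ (P.comm hx hy)
      (mem_C1.1 (P.syl.le (QT hx))) (mem_C1.1 (P.syl.le (QT hy))) (k h3).2 (k h4).2 (k h5).1 (k h5).2 (k' hx) (k' hy)
      (P.fix a P.tT) (P.fix x (QT hx)) (P.fix y (QT hy))
  have YO := Ya.trans P.ben.On
  have hW := ZD.ZS.odd_sup hY P.ben.Oodd YO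
  have Λ : ∀ {g β}, g ∈ C1[a] → a • β = β → a • g • β = g • (β : Ω) := fun hg e => by
    rw [← mul_smul, ← mem_C1.1 hg, mul_smul, e]
  have c1 : ∀ y ∈ Y, ∀ u ∈ T, u ∈ J → Commute u t → ∀ β : Ω, a • β = β → y • u • β = u • y • β :=
    fun y hy u hu uJ ut β hβ => by
      obtain ⟨u', h3, h4, h5⟩ := P.bs.nrm y (Ya hy) (fα y hy) u hu uJ
      have m : u' * u⁻¹ ∈ Y ⊔ O := mem_of_mem_of_eq (mul_mem (mem_sup_right (inv_mem h5)) (mem_sup_left (mul_mem hy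
        ((mem_normalizer_iff.1 (hn ⟨P.syl.le hu, mem_C1.2 ut⟩) _).1 (inv_mem hy))))) (by group)
      obtain ⟨i, hi⟩ := P.syl.isPGroup ⟨_, mul_mem h3 (inv_mem hu)⟩
      obtain rfl : u' = u := mul_inv_eq_one.1 (mem_bot.1 (mem_of_odd_of_pow_two_pow (odd_orderOf_of_mem hW m) (i := i)
        (congrArg Subtype.val hi)))
      simpa [mul_smul] using (mem_Kr.1 (P.ben.Ole h5).2).2 _ (Λ (P.syl.le hu) (Λ (Ya hy) hβ))
  have c2 : ∀ y ∈ Y, ∀ u ∈ T, u ∈ J → Commute u t → ∀ β : Ω, a • β = β → y • β = u • β → y • β = β :=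
    fun y hy u hu uJ ut β hβ e => by
      have k : ∀ j : ℕ, y ^ j • β = u ^ j • β := fun j => by
        induction j with
        | zero => simp
        | succ j ih => rw [pow_succ', mul_smul, ih, c1 y hy _ (pow_mem hu j) (pow_mem uJ j) (ut.pow_left j) β hβ, e,
            ← mul_smul, pow_succ]
      obtain ⟨i, hi⟩ := P.syl.isPGroup ⟨_, hu⟩
      refine mem_of_odd_of_pow_two_pow (O := stabilizer G β) (odd_orderOf_of_mem hY hy) (i := i) ?_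
      rw [mem_stabilizer_iff, k, show u ^ 2 ^ i = 1 from congrArg Subtype.val hi, one_smul]
  have YK : Y ≤ Kr Ω C1[a] a := fun y hy => mem_Kr.2 ⟨Ya hy, fun β hβ => by
    by_cases e : β = α
    · rw [e, fα y hy]
    have n : ∀ y ∈ Y, y • β ≠ α := fun y hy f => e (smul_left_cancel y (f.trans (fα y hy).symm))
    obtain ⟨u, hu, uJ, e1⟩ := P.bs.reg1 β _ hβ (Λ (Ya hy) hβ) e (n y hy)
    obtain ⟨v, hv, vJ, e2⟩ := P.bs.reg1 β _ hβ (Λ (Ya (mul_mem hy hy)) hβ) e (n _ (mul_mem hy hy))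
    rcases P.bs.cen t tQ u hu uJ with f1 | f1
    · exact c2 y hy u hu uJ f1.symm β hβ e1.symm
    rcases P.bs.cen t tQ v hv vJ with f2 | f2
    · exact mem_of_odd_of_sq (O := stabilizer G β) (odd_orderOf_of_mem hY hy)
        (c2 _ (mul_mem hy hy) v hv vJ f2.symm β hβ e2.symm)
    refine smul_left_cancel y (c2 y hy _ (mul_mem hv (inv_mem hu)) (mul_mem vJ (inv_mem uJ)) ?_ _ (Λ (Ya hy) hβ) ?_)
    · calc v * u⁻¹ * t = v * u⁻¹ * (t * u) * u⁻¹ := by group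
        _ = t * v * u⁻¹ := by rw [f1, f2]; group
        _ = _ := mul_assoc _ _ _
    · rw [← mul_smul, ← e2, ← e1]; simp [mul_smul]⟩
  have Kn : C1[a] ≤ N[Kr Ω C1[a] a] := fun g hg => pg_mem_normalizer_of_conj_mem fun x hx =>
    mem_Kr.2 ⟨mul_mem (mul_mem hg (mem_Kr.1 hx).1) (inv_mem hg), fun β hβ => by
      rw [mul_smul, mul_smul, (mem_Kr.1 hx).2 _ (Λ (inv_mem hg) hβ), smul_inv_smul]⟩
  have KW : Kr Ω C1[a] a ≤ N[Y ⊔ O] := fun g hg => by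
    have m := P.bs.commO g hg t tQ
    obtain ⟨l, hl, e⟩ := exists_sqrt (odd_orderOf_of_mem P.ben.Oodd m)
    have lO := zpowers_le.2 m hl
    have i := inverts_of_mem_zpowers (t := t) (by
      simp [commutatorElement_def, ht.inv_eq, mul_assoc, ht.2]) hl
    have d : l⁻¹ * g ∈ C1[a] ⊓ C1[t] := mem_inf.2 ⟨mul_mem (inv_mem (P.ben.JN (P.ben.Ole lO).1)) (mem_Kr.1 hg).1, mem_C1.2 (by
      calc _ = l⁻¹ * ⁅g, t⁆ * t * g := by rw [commutatorElement_def]; group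
        _ = (t * l * t⁻¹)⁻¹ * t * g := by rw [← e, i]; group
        _ = _ := by group)⟩
    exact mem_of_mem_of_eq (mul_mem (le_normalizer (mem_sup_right lO))
      (normalizer_inf_normalizer_le_normalizer_sup _ _ ⟨hn d, P.ben.On d.1⟩)) (by group)
  rw [centralizerPPrimeCore_eq]
  refine le_sup_left.trans ((le_piCoreOf (π := {2}ᶜ) (sup_le YK (P.ben.Ole.trans inf_le_right)) KW
    (isPiSubgroup_compl_singleton_iff.2 hW.not_two_dvd_nat)).trans (le_piCoreOf ((piCoreOf_le _ _).trans inf_le_left)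
      (Kn.trans (normalizer_le_normalizer_piCoreOf _ _)) (isPiSubgroup_piCoreOf _ _)))

end Ctx

theorem Ctx.allG (C : Ctx G Ω) (h : ∀ t : G, IsInv t → Two Ω t → ∃ D, Good Ω t D) :
    (∃ D : Set G, ZD.ZS D Ω ∧ D.Nonempty) ∨ OCHyp G := by
  by_cases h2 : ∀ t : G, IsInv t → Two Ω t
  · exact .inr ⟨C.toE8, C.core, fun _ _ => C.one_class h h2, fun _ _ ht ha _ c _ => C.odd_le h h2 ht ha c,
      fun _ ht _ hN ⟨_, hn, h3, h4⟩ _ => C.fus h h2 ht hN hn h3 h4, fun _ _ => C.mov h h2⟩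
  · push Not at h2
    exact .inl ⟨_, C.zs h, h2⟩

end Cfsg.Lib.TGC
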